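import Cfsg.Agent.Lib.Helper79.BergerStep

set_option autoImplicit false

namespace Cfsg.Agent.Lib.Helper79

open Cfsg ComplexConjugate Cfsg.Agent.Lib.Helper19 Cfsg.Agent.Lib.Helper20 Cfsg.Agent.Lib.Helper82

/-- If `ψ ^ G` is irreducible, it is induced from an irreducible character. -/
theorem exists_irr_indFun_eq {G : Type*} [Group G] [Fintype G] (H : Subgroup G) {ψ : H → ℂ}
    (hψ : IsCharacter H ψ) {χ : G → ℂ} (hχ : IsIrrCharacter G χ) (hind : indFun H ψ = χ) :
    ∃ ϑ : H → ℂ, IsIrrCharacter H ϑ ∧ indFun H ϑ = χ := by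
  classical
  have hχc := isCharacter_of_isIrrCharacter hχ
  have h0 : classInner (fun h : H => χ h) ψ ≠ 0 := by
    have h1 := frobenius_reciprocity H ψ χ (isClassFunction_of_isCharacter hχc)
    rw [hind, classInner_irr_self hχ] at h1
    rw [← classInner_conj_symm, ← h1]
    simp
  obtain ⟨ϑ, hϑ, h1, h2⟩ := exists_common_constituent (isCharacter_restrict hχc H) hψ h0
  have hϑc := isCharacter_of_isIrrCharacter hϑ
  refine ⟨ϑ, hϑ, ?_⟩
  apply eq_of_constituent_of_degree_le (isCharacter_indFun _ ϑ hϑc) hχ
    (inner_indFun_ne_zero _ hχc h1)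
  rw [charDegree_indFun _ hϑc, ← hind, charDegree_indFun _ hψ]
  exact Nat.mul_le_mul_left _ (degree_le_of_constituent hψ hϑ h2)

/-- Passing to a maximal subgroup. -/
theorem exists_coatom_indFun_eq {G : Type*} [Group G] [Fintype G] (H : Subgroup G) (hH : H ≠ ⊤)
    {ψ : H → ℂ} (hψ : IsCharacter H ψ) :
    ∃ (H₁ : Subgroup G) (ψ₁ : H₁ → ℂ), IsCoatom H₁ ∧ H ≤ H₁ ∧ IsCharacter H₁ ψ₁ ∧
      indFun H₁ ψ₁ = indFun H ψ := by
  classical
  rcases eq_top_or_exists_le_coatom H with h | ⟨H₁, hH₁, hle⟩
  · exact absurd h hH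
  · refine ⟨H₁, _, hH₁, hle, ?_, indFun_trans H H₁ hle ψ⟩
    apply isCharacter_indFun
    exact isCharacter_comp_hom hψ (Subgroup.subgroupOfEquivOfLe hle).toMonoidHom

theorem isCoatom_map_of_ker_le {G Q : Type*} [Group G] [Group Q] (f : G →* Q)
    (hf : Function.Surjective f) {H : Subgroup G} (hH : IsCoatom H) (hker : f.ker ≤ H) :
    IsCoatom (H.map f) := by
  constructor
  · intro h
    apply hH.1
    rw [← Subgroup.comap_map_eq_self hker, h, Subgroup.comap_top]
  · intro V hV
    have h1 : H ≤ V.comap f := by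
      rw [← Subgroup.comap_map_eq_self hker]
      exact Subgroup.comap_mono hV.le
    have h2 : H ≠ V.comap f := by
      intro h
      apply hV.ne
      rw [h, Subgroup.map_comap_eq_self_of_surjective hf]
    have h3 := hH.2 _ (lt_of_le_of_ne h1 h2)
    rw [← Subgroup.map_comap_eq_self_of_surjective hf V, h3, ← MonoidHom.range_eq_map,
      MonoidHom.range_eq_top.2 hf]

theorem normalCore_map_eq_bot {G Q : Type*} [Group G] [Group Q] (f : G →* Q)
    (hf : Function.Surjective f) {H : Subgroup G} (hker : f.ker = H.normalCore) :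
    (H.map f).normalCore = ⊥ := by
  have hkerH : f.ker ≤ H := hker ▸ H.normalCore_le
  have h1 : ((H.map f).normalCore).comap f ≤ H :=
    le_trans (Subgroup.comap_mono (Subgroup.normalCore_le _))
      (le_of_eq (Subgroup.comap_map_eq_self hkerH))
  have h2 : ((H.map f).normalCore).comap f ≤ f.ker := by
    rw [hker]
    exact Subgroup.normal_le_normalCore.2 h1
  rw [← Subgroup.map_comap_eq_self_of_surjective hf (H.map f).normalCore, eq_bot_iff]
  refine le_trans (Subgroup.map_mono h2) ?_
  rw [(Subgroup.map_eq_bot_iff _).2 le_rfl]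

/-- **Berger's theorem, relative form.** -/
theorem berger_relative {G : Type*} [Group G] [Fintype G] (L : Subgroup G) [hLn : L.Normal]
    (hsolv : Group.IsSolvable (G ⧸ L)) {χ : G → ℂ} (hχ : IsIrrCharacter G χ)
    (hqp : ∀ M : Subgroup G, M.Normal → L ≤ M → ∃ (φ : M → ℂ) (e : ℕ), IsIrrCharacter M φ ∧
      (fun m : M => χ m) = (e : ℂ) • φ)
    (H : Subgroup G) (hLH : L ≤ H) (hH : H ≠ ⊤) (ψ : H → ℂ) (hψ : IsCharacter H ψ) :
    indFun H ψ ≠ χ := by
  classical
  have hχc := isCharacter_of_isIrrCharacter hχ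
  -- the statement for maximal subgroups, by induction on the index of the core
  have key : ∀ n : ℕ, ∀ H : Subgroup G, H.normalCore.index = n → IsCoatom H → L ≤ H →
      ∀ ψ : H → ℂ, IsCharacter H ψ → indFun H ψ ≠ χ := by
    intro n
    induction n using Nat.strong_induction_on with
    | _ n ih =>
      intro H hn hHmax hLH ψ hψ hind
      obtain ⟨ϑ, hϑ, hind⟩ := exists_irr_indFun_eq H hψ hχ hind
      have hχϑ : classInner (fun h : H => χ h) ϑ ≠ 0 := by
        have h1 := frobenius_reciprocity H ϑ χ (isClassFunction_of_isCharacter hχc)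
        rw [hind, classInner_irr_self hχ] at h1
        rw [← classInner_conj_symm, ← h1]
        simp
      have hLL₀ : L ≤ H.normalCore := Subgroup.normal_le_normalCore.2 hLH
      by_cases hcase : H.normalCore = H
      · -- `H` is normal
        have hHn : H.Normal := by rw [← hcase]; infer_instance
        obtain ⟨φ, e, hφ, hχH⟩ := hqp H hHn hLH
        have he : (e : ℂ) ≠ 0 := by
          intro h0
          rw [hχH, h0, zero_smul, classInner_zero_left] at hχϑ
          exact hχϑ rfl
        have hφϑ : φ = ϑ := by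
          apply eq_of_irr_of_inner_ne_zero hφ hϑ
          intro h0
          rw [hχH, classInner_smul_left, h0, mul_zero] at hχϑ
          exact hχϑ rfl
        subst hφϑ
        have hinv := invariant_of_restrict_eq_mul H hχc (e : ℂ) he (fun n => congrFun hχH n)
        have h1 := classInner_indFun_self_of_invariant H φ hφ hinv
        rw [hind, classInner_irr_self hχ] at h1
        have h2 : H.index = 1 := by exact_mod_cast h1.symm
        exact hHmax.1 (Subgroup.index_eq_one.1 h2)
      · -- `H` is not normal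
        let pq : G →* G ⧸ H.normalCore := QuotientGroup.mk' H.normalCore
        have hpq : Function.Surjective pq := QuotientGroup.mk'_surjective _
        have hker : pq.ker = H.normalCore := QuotientGroup.ker_mk' _
        have hkerH : pq.ker ≤ H := le_trans (le_of_eq hker) H.normalCore_le
        have hsolvQ : Group.IsSolvable (G ⧸ H.normalCore) :=
          isSolvable_quotient_of_ker_le H.normalCore (QuotientGroup.mk' L)
            (by rw [QuotientGroup.ker_mk']; exact hLL₀)
        have hU : IsCoatom (H.map pq) := isCoatom_map_of_ker_le pq hpq hHmax hkerH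
        have hcore : (H.map pq).normalCore = ⊥ := normalCore_map_eq_bot pq hpq hker
        have hUne : H.map pq ≠ ⊥ := by
          intro h
          apply hcase
          apply le_antisymm H.normalCore_le
          exact le_trans ((Subgroup.map_eq_bot_iff _).1 h) (le_of_eq hker)
        obtain ⟨Kq, Dq, hcfg⟩ := exists_bergerConfig (H.map pq) hU hcore hUne
        have hKn : (Kq.comap pq).Normal := hcfg.normal.comap pq
        have hL₀K : H.normalCore ≤ Kq.comap pq :=
          le_trans (le_of_eq hker.symm) (MonoidHom.ker_le_comap pq Kq)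
        obtain ⟨η, f, hη, hχK⟩ := hqp (Kq.comap pq) hKn (hLL₀.trans hL₀K)
        obtain ⟨φ, e, hφ, hχL⟩ := hqp H.normalCore inferInstance hLL₀
        obtain ⟨G₁, ξ, hKG₁, hG₁top, hξ, hξind⟩ := berger_step pq hpq hcfg (Kq.comap pq) H
          H.normalCore rfl (Subgroup.comap_map_eq_self hkerH).symm hker.symm hχ hη f
          (fun k => congrFun hχK k) hφ e (fun l => congrFun hχL l) hϑ hind
        obtain ⟨H₁, ψ₁, hH₁max, hG₁H₁, hψ₁, hψ₁ind⟩ := exists_coatom_indFun_eq G₁ hG₁top hξ
        have hKH₁ : Kq.comap pq ≤ H₁.normalCore :=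
          Subgroup.normal_le_normalCore.2 (hKG₁.trans hG₁H₁)
        have hlt : H.normalCore < Kq.comap pq := by
          refine lt_of_le_of_ne hL₀K ?_
          intro h
          apply hcfg.comap_not_le' pq hpq
          exact le_trans (le_of_eq h.symm) (le_of_eq hker.symm)
        have hidx : H₁.normalCore.index < n := by
          rw [← hn]
          exact lt_of_le_of_lt (Subgroup.index_antitone hKH₁) (Subgroup.index_strictAnti hlt)
        exact ih _ hidx H₁ rfl hH₁max
          ((hLL₀.trans hL₀K).trans (hKH₁.trans H₁.normalCore_le)) ψ₁ hψ₁ (hψ₁ind.trans hξind)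
  intro hind
  obtain ⟨H₁, ψ₁, hH₁max, hHH₁, hψ₁, hψ₁ind⟩ := exists_coatom_indFun_eq H hH hψ
  exact key _ H₁ rfl hH₁max (hLH.trans hHH₁) ψ₁ hψ₁ (hψ₁ind.trans hind)

end Cfsg.Agent.Lib.Helper79
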