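import Cfsg.Agent.Lib.Helper79.BergerInner
import Cfsg.Agent.Lib.Helper79.HatGroup

set_option autoImplicit false

namespace Cfsg.Agent.Lib.Helper79

open Cfsg ComplexConjugate Cfsg.Agent.Lib.Helper19 Cfsg.Agent.Lib.Helper20 Cfsg.Agent.Lib.Helper82

/-- Homomorphism form of `scalar_of_character_eq`. -/
theorem scalar_of_character_comp_eq {Γ A : Type*} [Group Γ] [Group A] [Finite A] {k : ℕ}
    (ρ : Representation ℂ Γ (Fin k → ℂ)) (j : A →* Γ) (lam : A →* ℂˣ)
    (h : ∀ x : A, ρ.character (j x) = (k : ℂ) * (lam x : ℂ)) (x : A) :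
    ρ (j x) = ((lam x : ℂˣ) : ℂ) • LinearMap.id := by
  let σ : Representation ℂ A (Fin k → ℂ) := (Units.coeHom _).comp ((scalU k).comp lam)
  have hσ : ∀ y : A, σ y = ((lam y : ℂˣ) : ℂ) • LinearMap.id := by
    intro y
    show ((scalU k (lam y) : (EE k)ˣ) : EE k) = _
    rw [scalU_coe]
    rfl
  let ρM : Representation ℂ A (Fin k → ℂ) := MonoidHom.comp ρ j
  have hchar : σ.character = ρM.character := by
    funext y
    show LinearMap.trace ℂ _ (σ y) = ρ.character (j y)
    rw [h y, hσ, map_smul, LinearMap.trace_id]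
    simp [mul_comm]
  obtain ⟨φ⟩ := Cfsg.Agent.S0153.result σ ρM hchar
  have h1 := φ.conj_apply_self x
  show ρM x = _
  rw [← h1, hσ, map_smul]
  congr 1
  exact LinearEquiv.conj_id _

/-- A character which is a multiple of a linear character `ω` along `j` is `ω`-equivariant. -/
theorem mul_left_of_comp_eq {W A : Type*} [Group W] [Group A] [Finite A] (j : A →* W)
    (ω : A →* ℂˣ) {γ : W → ℂ} (hγ : IsCharacter W γ) (h : ∀ x, γ (j x) = γ 1 * (ω x : ℂ))
    (x : A) (w : W) : γ (j x * w) = (ω x : ℂ) * γ w := by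
  obtain ⟨k, ρ, rfl⟩ := hγ
  have h2 := scalar_of_character_comp_eq ρ j ω (fun x => by
    rw [h x, Representation.char_one, Module.finrank_fin_fun]) x
  simp only [Representation.character, map_mul, h2]
  rw [Module.End.mul_eq_comp, LinearMap.smul_comp, LinearMap.id_comp, map_smul, smul_eq_mul]

/-- An irreducible character which is scalar along `j` stays irreducible along any `ι` whose
image together with that of `j` covers the group. -/
theorem isIrr_comp_of_scalar {W A B : Type*} [Group W] [Group A] [Finite A] [Group B]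
    (j : A →* W) (ω : A →* ℂˣ) {γ : W → ℂ} (hγ : IsIrrCharacter W γ)
    (h : ∀ x, γ (j x) = γ 1 * (ω x : ℂ)) (ι : B →* W) (hι : ∀ w, ∃ x b, w = j x * ι b) :
    IsIrrCharacter B (fun b => γ (ι b)) := by
  obtain ⟨k, ρ, hρ, rfl⟩ := hγ
  have h2 := scalar_of_character_comp_eq ρ j ω (fun x => by
    rw [h x, Representation.char_one, Module.finrank_fin_fun])
  refine ⟨k, repComp ρ ι, ?_, rfl⟩
  apply isIrreducible_of_forall_exists_smul _ ρ _ hρ
  intro w
  obtain ⟨x, b, rfl⟩ := hι w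
  refine ⟨b, (ω x : ℂ), ?_⟩
  rw [map_mul, h2]
  show _ = _ • ρ (ι b)
  rw [Module.End.mul_eq_comp, LinearMap.smul_comp, LinearMap.id_comp]

/-- A character whose pull-back is irreducible is irreducible. -/
theorem isIrr_of_comp_irr {W A : Type*} [Group W] [Fintype W] [Group A] [Fintype A] (ι : A →* W)
    {Φ : W → ℂ} (hΦ : IsCharacter W Φ) (h : IsIrrCharacter A (fun a => Φ (ι a))) :
    IsIrrCharacter W Φ := by
  have h1 : Φ 1 ≠ 0 := by
    have := IsIrrCharacter.one_ne_zero h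
    simpa using this
  obtain ⟨ψ, hψ⟩ := exists_irr_constituent hΦ h1
  obtain ⟨m, hm0, hm⟩ := comp_eq_smul_of_constituent ι hΦ ψ.2 hψ h 1 (fun x => by rw [one_mul])
  have h2 : Φ = ψ := by
    apply eq_of_constituent_of_degree_le hΦ ψ.2 hψ
    have e1 := hm 1
    rw [map_one, isChar_one_eq hΦ, isChar_one_eq (isCharacter_of_isIrrCharacter ψ.2)] at e1
    have e2 : charDegree (ψ : W → ℂ) = m * charDegree Φ := by exact_mod_cast e1
    rw [e2]
    exact Nat.le_mul_of_pos_left _ (Nat.pos_of_ne_zero hm0)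
  rw [h2]
  exact ψ.2

theorem relIndex_mul_card' {X : Type*} [Group X] {A B : Subgroup X} (h : A ≤ B) :
    A.relIndex B * Nat.card A = Nat.card B := by
  rw [← Subgroup.relIndex_bot_left, ← Subgroup.relIndex_bot_left, mul_comm]
  exact Subgroup.relIndex_mul_relIndex ⊥ A B bot_le h

/-- `|KD : D| = |K : K ∩ D|` for normal `K`. -/
theorem relIndex_sup_eq {X : Type*} [Group X] [Finite X] (K D : Subgroup X) [K.Normal] :
    D.relIndex (K ⊔ D) = (K ⊓ D).relIndex K := by
  have h1 : D.relIndex (K ⊔ D) * Nat.card D = Nat.card (K ⊔ D : Subgroup X) :=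
    relIndex_mul_card' le_sup_right
  have h2 : K.relIndex (K ⊔ D) * Nat.card K = Nat.card (K ⊔ D : Subgroup X) :=
    relIndex_mul_card' le_sup_left
  have h3 : (K ⊓ D).relIndex K * Nat.card (K ⊓ D : Subgroup X) = Nat.card K :=
    relIndex_mul_card' inf_le_left
  have h4 : (K ⊓ D).relIndex D * Nat.card (K ⊓ D : Subgroup X) = Nat.card D :=
    relIndex_mul_card' inf_le_right
  rw [Subgroup.relIndex_sup_left, ← Subgroup.inf_relIndex_right] at h2
  have h5 : D.relIndex (K ⊔ D) * Nat.card D = (K ⊓ D).relIndex K * Nat.card D := by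
    rw [h1, ← h2, ← h3, ← h4]
    ring
  exact Nat.eq_of_mul_eq_mul_right Nat.card_pos h5

open Classical in
/-- The sum of `|τ|²` over a subgroup. -/
noncomputable def nsq {X : Type*} [Group X] [Fintype X] (τ : X → ℂ) (S : Subgroup X) : ℝ :=
  ∑ x ∈ Finset.univ.filter (· ∈ S), ‖τ x‖ ^ 2

theorem nsq_of_comp_eq_smul {X A : Type*} [Group X] [Fintype X] [Group A] [Fintype A]
    (τ : X → ℂ) (S : Subgroup X) (ι : A →* X) (hι : Function.Injective ι)
    (hS : ∀ x, x ∈ S ↔ ∃ a, ι a = x) {σ : A → ℂ} (hσ : IsIrrCharacter A σ) (c : ℕ)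
    (h : ∀ a, τ (ι a) = (c : ℂ) * σ a) : nsq τ S = (c : ℝ) ^ 2 * Nat.card A := by
  classical
  have e1 : Finset.univ.filter (· ∈ S) = Finset.univ.image ι := by
    ext x
    simp [hS x]
  unfold nsq
  rw [e1, Finset.sum_image (fun a _ b _ hab => hι hab)]
  simp_rw [h, norm_mul, mul_pow]
  rw [← Finset.mul_sum, IsIrrCharacter.sum_norm_sq hσ]
  simp

theorem card_eq_of_hom {X A : Type*} [Group X] [Group A]
    (S : Subgroup X) (ι : A →* X) (hι : Function.Injective ι)
    (hS : ∀ x, x ∈ S ↔ ∃ a, ι a = x) : Nat.card A = Nat.card S := by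
  have : S = ι.range := by
    ext x
    rw [hS x, MonoidHom.mem_range]
  rw [this]
  exact Nat.card_congr (MonoidHom.ofInjective hι).toEquiv

theorem nsq_mono {X : Type*} [Group X] [Fintype X] (τ : X → ℂ) {S S' : Subgroup X} (h : S ≤ S') :
    nsq τ S ≤ nsq τ S' := by
  classical
  unfold nsq
  apply Finset.sum_le_sum_of_subset_of_nonneg
  · intro x hx
    simp only [Finset.mem_filter, Finset.mem_univ, true_and] at hx ⊢
    exact h hx
  · intro x _ _
    positivity

theorem nsq_eq_of_vanish {X : Type*} [Group X] [Fintype X] (τ : X → ℂ) {S S' : Subgroup X}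
    (h : S ≤ S') (hv : ∀ x ∈ S', x ∉ S → τ x = 0) : nsq τ S = nsq τ S' := by
  classical
  unfold nsq
  apply Finset.sum_subset
  · intro x hx
    simp only [Finset.mem_filter, Finset.mem_univ, true_and] at hx ⊢
    exact h hx
  · intro x hx hx'
    simp only [Finset.mem_filter, Finset.mem_univ, true_and] at hx hx'
    rw [hv x hx hx']
    simp

theorem vanish_of_nsq_eq {X : Type*} [Group X] [Fintype X] (τ : X → ℂ) {S S' : Subgroup X}
    (h : S ≤ S') (he : nsq τ S = nsq τ S') : ∀ x ∈ S', x ∉ S → τ x = 0 := by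
  classical
  intro x hx hx'
  unfold nsq at he
  have hsub : Finset.univ.filter (· ∈ S) ⊆ Finset.univ.filter (· ∈ S') := by
    intro x hx
    simp only [Finset.mem_filter, Finset.mem_univ, true_and] at hx ⊢
    exact h hx
  have h1 := Finset.sum_sdiff (f := fun x => ‖τ x‖ ^ 2) hsub
  have h2 : ∑ x ∈ Finset.univ.filter (· ∈ S') \ Finset.univ.filter (· ∈ S), ‖τ x‖ ^ 2 = 0 := by
    linarith
  have h3 := (Finset.sum_eq_zero_iff_of_nonneg (fun g _ => by positivity)).mp h2 x
    (by simp [hx, hx'])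
  exact norm_eq_zero.mp (pow_eq_zero_iff two_ne_zero |>.mp h3)

/-- The "non-homogeneity" lemma. -/
theorem berger_nh {X : Type*} [Group X] [Fintype X] (K L D : Subgroup X) [hK : K.Normal]
    (hLK : L ≤ K) (hLD : L ≤ D) (hKD : K ⊓ D ≤ L)
    (hcent : ∀ d ∈ D, (∀ k ∈ K, d * k * d⁻¹ * k⁻¹ ∈ L) → d ∈ L)
    {τ : X → ℂ} (hτ : IsCharacter X τ) (b : ℕ) (hb : b ≠ 0)
    (h1 : nsq τ (K ⊔ D) = Nat.card (K ⊔ D : Subgroup X))
    (h2 : nsq τ D = (b : ℝ) ^ 2 * Nat.card D) (h3 : nsq τ L = (b : ℝ) ^ 2 * Nat.card L)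
    (hbk : b ^ 2 = L.relIndex K) : D ≤ L := by
  have hKD' : K ⊓ D = L := le_antisymm hKD (le_inf hLK hLD)
  have e1 := relIndex_sup_eq K D
  rw [hKD', ← hbk] at e1
  have e2 : D.relIndex (K ⊔ D) * Nat.card D = Nat.card (K ⊔ D : Subgroup X) :=
    relIndex_mul_card' le_sup_right
  rw [e1] at e2
  have e3 : nsq τ D = nsq τ (K ⊔ D) := by
    rw [h1, h2, ← e2]
    push_cast
    ring
  have hv := vanish_of_nsq_eq τ le_sup_right e3
  have hv' : ∀ d ∈ D, d ∉ L → τ d = 0 := by
    intro d hd hdL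
    have hdi : d⁻¹ ∉ L := fun h => hdL (by simpa using L.inv_mem h)
    have : ¬ ∀ k ∈ K, d⁻¹ * k * d⁻¹⁻¹ * k⁻¹ ∈ L := fun h => hdi (hcent d⁻¹ (D.inv_mem hd) h)
    push Not at this
    obtain ⟨k, hk, hkL⟩ := this
    rw [inv_inv] at hkL
    have hc : d⁻¹ * k * d * k⁻¹ ∈ K := by
      have := hK.conj_mem k hk d⁻¹
      rw [inv_inv] at this
      exact K.mul_mem this (K.inv_mem hk)
    have h4 : k * d * k⁻¹ ∉ D := by
      intro h5
      apply hkL
      apply hKD
      refine ⟨hc, ?_⟩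
      have : d⁻¹ * k * d * k⁻¹ = d⁻¹ * (k * d * k⁻¹) := by group
      rw [this]
      exact D.mul_mem (D.inv_mem hd) h5
    have h5 : k * d * k⁻¹ ∈ K ⊔ D := by
      have hk' : k ∈ K ⊔ D := (le_sup_left : K ≤ K ⊔ D) hk
      exact mul_mem (mul_mem hk' ((le_sup_right : D ≤ K ⊔ D) hd)) (inv_mem hk')
    rw [← isChar_conj_eq hτ d k]
    exact hv _ h5 h4
  have e4 := nsq_eq_of_vanish τ hLD hv'
  rw [h2, h3] at e4
  have hb' : ((b : ℝ) ^ 2) ≠ 0 := by positivity
  have e5 : (Nat.card L : ℝ) = Nat.card D := mul_left_cancel₀ hb' e4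
  have e6 : Nat.card L = Nat.card D := by exact_mod_cast e5
  exact (Subgroup.eq_of_le_of_card_ge hLD e6.ge).ge

end Cfsg.Agent.Lib.Helper79
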