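import Cfsg.Agent.Lib.Helper12.CoreFree
import Cfsg.Agent.Lib.Helper12.MinNormal

set_option autoImplicit false

namespace Cfsg.Agent.Lib.Helper79

open Cfsg.Agent.Lib.Helper12

/-- The group-theoretic configuration in Berger's theorem. -/
structure BergerConfig {Q : Type*} [Group Q] (K U D : Subgroup Q) : Prop where
  normal : K.Normal
  ne_bot : K ≠ ⊥
  sup : K ⊔ U = ⊤
  inf : K ⊓ U = ⊥
  le : D ≤ U
  norm : ∀ u ∈ U, ∀ d ∈ D, u * d * u⁻¹ ∈ D
  ne_bot' : D ≠ ⊥
  cent : ∀ d ∈ D, (∀ k ∈ K, d * k * d⁻¹ * k⁻¹ = 1) → d = 1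
  cop : Nat.Coprime (Nat.card K) (Nat.card D)

theorem normal_sup_of_normalized {Q : Type*} [Group Q] {K U D : Subgroup Q} [hK : K.Normal]
    (hsup : U ⊔ K = ⊤) (hn : ∀ u ∈ U, ∀ d ∈ D, u * d * u⁻¹ ∈ D) : (K ⊔ D).Normal := by
  have key : ∀ u ∈ U, ∀ x ∈ K ⊔ D, u * x * u⁻¹ ∈ K ⊔ D := by
    intro u hu x hx
    obtain ⟨k, hk, d, hd, rfl⟩ := Subgroup.mem_sup_of_normal_left.1 hx
    have : u * (k * d) * u⁻¹ = (u * k * u⁻¹) * (u * d * u⁻¹) := by group
    rw [this]
    exact mul_mem ((le_sup_left : K ≤ K ⊔ D) (hK.conj_mem k hk u))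
      ((le_sup_right : D ≤ K ⊔ D) (hn u hu d hd))
  apply normal_of_sup_eq_top hsup
  · intro u hu
    rw [Subgroup.mem_normalizer_iff]
    intro x
    constructor
    · exact key u hu x
    · intro hx
      have := key u⁻¹ (U.inv_mem hu) _ hx
      have e : u⁻¹ * (u * x * u⁻¹) * u⁻¹⁻¹ = x := by group
      rwa [e] at this
  · exact le_trans le_sup_left Subgroup.le_normalizer

theorem exists_bergerConfig {Q : Type*} [Group Q] [Finite Q] [Group.IsSolvable Q] (U : Subgroup Q)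
    (hU : IsCoatom U) (hcore : U.normalCore = ⊥) (hUne : U ≠ ⊥) :
    ∃ K D : Subgroup Q, BergerConfig K U D := by
  have hUnt : Nontrivial U := (Subgroup.nontrivial_iff_ne_bot U).2 hUne
  have hQnt : Nontrivial Q := U.subtype_injective.nontrivial
  obtain ⟨K, hKmin⟩ := exists_minNormal (G := Q)
  obtain ⟨p, hp, hKp, hKc⟩ := hKmin.exists_isPGroup
  have hKn : K.Normal := hKmin.1
  have hKne : K ≠ ⊥ := hKmin.2.1
  have hsup : U ⊔ K = ⊤ := sup_eq_top_of_core_eq_bot hU hcore hKne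
  have hcentU : Subgroup.centralizer (K : Set Q) ⊓ U = ⊥ := centralizer_inf_eq_bot U hU hcore K hKne
  have hinf : K ⊓ U = ⊥ := by
    rw [eq_bot_iff, ← hcentU]
    exact inf_le_inf_right U (Subgroup.le_centralizer_iff_isMulCommutative.2 hKc)
  obtain ⟨D₀, hD₀⟩ := exists_minNormal (G := U)
  obtain ⟨q, hq, hDq, -⟩ := hD₀.exists_isPGroup
  have hD₀n : D₀.Normal := hD₀.1
  let D : Subgroup Q := D₀.map U.subtype
  have hDq' : IsPGroup q D := hDq.map U.subtype
  have hDU : D ≤ U := Subgroup.map_subtype_le D₀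
  have hDne : D ≠ ⊥ := by
    intro h
    exact hD₀.2.1 ((Subgroup.map_eq_bot_iff_of_injective D₀ U.subtype_injective).1 h)
  have hnorm : ∀ u ∈ U, ∀ d ∈ D, u * d * u⁻¹ ∈ D := by
    rintro u hu _ ⟨d, hd, rfl⟩
    exact ⟨⟨u, hu⟩ * d * ⟨u, hu⟩⁻¹, hD₀n.conj_mem d hd ⟨u, hu⟩, rfl⟩
  have hpq : p ≠ q := by
    rintro rfl
    have := Fact.mk hp
    have hPn : (K ⊔ D).Normal := normal_sup_of_normalized hsup hnorm
    have hPp : IsPGroup p (K ⊔ D : Subgroup Q) := hKp.to_sup_of_normal_left hDq'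
    have h1 := hKmin.le_centralizer_of_isPGroup (K ⊔ D) hPp le_sup_left
    rw [Subgroup.le_centralizer_iff] at h1
    apply hDne
    rw [eq_bot_iff, ← hcentU]
    exact le_inf (le_trans le_sup_right h1) hDU
  refine ⟨K, D, hKn, hKne, by rw [sup_comm]; exact hsup, hinf, hDU, hnorm, hDne, ?_, ?_⟩
  · intro d hd h
    have : d ∈ Subgroup.centralizer (K : Set Q) ⊓ U := by
      refine Subgroup.mem_inf.2 ⟨?_, hDU hd⟩
      rw [Subgroup.mem_centralizer_iff]
      intro k hk
      have := h k hk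
      rw [mul_inv_eq_one, mul_inv_eq_iff_eq_mul] at this
      exact this.symm
    rw [hcentU] at this
    exact this
  · have := Fact.mk hp
    have := Fact.mk hq
    exact IsPGroup.coprime_card_of_ne p q hpq K D hKp hDq'

section comap

variable {Q X : Type*} [Group Q] [Group X] {K U D : Subgroup Q}

theorem BergerConfig.comap_sup (h : BergerConfig K U D) (f : X →* Q)
    (hf : Function.Surjective f) : K.comap f ⊔ U.comap f = ⊤ := by
  rw [Subgroup.comap_sup_eq f K U hf, h.sup, Subgroup.comap_top]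

theorem BergerConfig.comap_inf_le (h : BergerConfig K U D) (f : X →* Q) :
    K.comap f ⊓ U.comap f ≤ f.ker := by
  rw [← Subgroup.comap_inf, h.inf]
  exact le_of_eq (MonoidHom.comap_bot f)

theorem BergerConfig.comap_not_le (h : BergerConfig K U D) (f : X →* Q)
    (hf : Function.Surjective f) : ¬ D.comap f ≤ f.ker := by
  intro hle
  apply h.ne_bot'
  rw [eq_bot_iff]
  intro d hd
  obtain ⟨x, rfl⟩ := hf d
  exact hle hd

theorem BergerConfig.comap_not_le' (h : BergerConfig K U D) (f : X →* Q)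
    (hf : Function.Surjective f) : ¬ K.comap f ≤ f.ker := by
  intro hle
  apply h.ne_bot
  rw [eq_bot_iff]
  intro d hd
  obtain ⟨x, rfl⟩ := hf d
  exact hle hd

theorem BergerConfig.comap_norm (h : BergerConfig K U D) (f : X →* Q) :
    ∀ u ∈ U.comap f, ∀ d ∈ D.comap f, u * d * u⁻¹ ∈ D.comap f := by
  intro u hu d hd
  show f (u * d * u⁻¹) ∈ D
  rw [map_mul, map_mul, map_inv]
  exact h.norm _ hu _ hd

theorem BergerConfig.comap_cent (h : BergerConfig K U D) (f : X →* Q)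
    (hf : Function.Surjective f) :
    ∀ d ∈ D.comap f, (∀ k ∈ K.comap f, d * k * d⁻¹ * k⁻¹ ∈ f.ker) → d ∈ f.ker := by
  intro d hd hk
  apply h.cent _ hd
  intro k hkK
  obtain ⟨x, rfl⟩ := hf k
  have := hk x hkK
  rw [MonoidHom.mem_ker] at this
  simpa using this

theorem BergerConfig.comap_cop (h : BergerConfig K U D) (f : X →* Q)
    (hf : Function.Surjective f) :
    Nat.Coprime (f.ker.relIndex (K.comap f)) (f.ker.relIndex (D.comap f)) := by
  rw [← MonoidHom.comap_bot f, Subgroup.relIndex_comap, Subgroup.relIndex_comap,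
    Subgroup.map_comap_eq_self_of_surjective hf, Subgroup.map_comap_eq_self_of_surjective hf,
    Subgroup.relIndex_bot_left, Subgroup.relIndex_bot_left]
  exact h.cop

end comap

end Cfsg.Agent.Lib.Helper79
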