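import Cfsg.Agent.Lib.Helper79.BergerTools
import Cfsg.Agent.Lib.Helper5.Inertia
import Cfsg.Agent.Lib.Helper19.CharMisc
import Cfsg.Agent.S0854

set_option autoImplicit false

namespace Cfsg.Agent.Lib.Helper79

open Cfsg ComplexConjugate Cfsg.Agent.Lib.Helper19 Cfsg.Agent.Lib.Helper20 Cfsg.Agent.Lib.Helper82

theorem classInner_mul_conj_right {W : Type*} [Group W] [Fintype W] (A B C : W → ℂ) :
    classInner A (C * fun w => conj (B w)) = classInner (A * B) C := by
  unfold classInner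
  congr 1
  apply Finset.sum_congr rfl
  intro w _
  simp only [Pi.mul_apply, map_mul, Complex.conj_conj]
  ring

theorem berger_numerics {a b b₁ f k : ℕ} (ha : a ≠ 0) (hb : b ≠ 0) (hk1 : f * b = k * a)
    (hk2 : b ^ 2 ≤ k) (h1 : f ≤ b₁ * a) (h2 : b₁ ≤ b) : b₁ = b ∧ f = a * b ∧ b ^ 2 = k := by
  have e1 : k * a ≤ b₁ * a * b := by rw [← hk1]; exact Nat.mul_le_mul_right b h1
  have e2 : b₁ * a * b ≤ b * a * b := Nat.mul_le_mul_right b (Nat.mul_le_mul_right a h2)
  have e3 : b ^ 2 * a ≤ k * a := Nat.mul_le_mul_right a hk2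
  have e4 : b * a * b = b ^ 2 * a := by ring
  have hk : b ^ 2 = k := by
    have : k * a = b ^ 2 * a := by omega
    exact (Nat.eq_of_mul_eq_mul_right (Nat.pos_of_ne_zero ha) this).symm
  have hb₁ : b₁ = b := by
    have : b₁ * a * b = b * a * b := by omega
    have h3 := Nat.eq_of_mul_eq_mul_right (Nat.pos_of_ne_zero hb) this
    exact Nat.eq_of_mul_eq_mul_right (Nat.pos_of_ne_zero ha) h3
  refine ⟨hb₁, ?_, hk⟩
  have : f * b = a * b * b := by rw [hk1, ← hk]; ring
  exact Nat.eq_of_mul_eq_mul_right (Nat.pos_of_ne_zero hb) this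

/-- **The inner step of Berger's theorem.** -/
theorem berger_inner {Y : Type*} [Group Y] [Fintype Y] (L D : Subgroup Y) [hL : L.Normal]
    [hD : D.Normal] (hLD : L ≤ D) [Fintype L] [Fintype D]
    (ω : L →* ℂˣ) {α₁ α₂ : L → ℂ} (hα₁ : IsIrrCharacter L α₁) (hα₂ : IsIrrCharacter L α₂)
    (hα : ∀ l, α₁ l = α₂ l * conj (ω l : ℂ))
    {Ψ B Θ : Y → ℂ} (hΨ : IsCharacter Y Ψ) (hB : IsIrrCharacter Y B) (hΘ : IsIrrCharacter Y Θ)
    (a b f k : ℕ)
    (hΨL : ∀ l : L, Ψ l = (b : ℂ) * α₁ l) (hBL : ∀ l : L, B l = (f : ℂ) * (ω l : ℂ))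
    (hΘL : ∀ l : L, Θ l = (a : ℂ) * α₂ l)
    (hne : classInner (Ψ * B) Θ ≠ 0)
    (hk1 : f * b = k * a) (hk2 : b ^ 2 ≤ k)
    (hcop : Nat.Coprime k (L.relIndex D))
    (hNH : ∀ σ : D → ℂ, IsIrrCharacter D σ → (∀ d : D, Ψ d = (b : ℂ) * σ d) →
      (∀ l : L, σ ⟨l, hLD l.2⟩ = α₁ l) → b ^ 2 = k → False) :
    ∃ (T : Subgroup Y) (β₁ Δ : T → ℂ) (n : ℕ), D ≤ T ∧ T ≠ ⊤ ∧ IsIrrCharacter T β₁ ∧
      IsCharacter T Δ ∧ (fun t : T => B t) = β₁ + Δ ∧ β₁ 1 = n ∧ n * T.index ≤ f := by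
  classical
  have hBc := isCharacter_of_isIrrCharacter hB
  have hΘc := isCharacter_of_isIrrCharacter hΘ
  have hα₁1 : α₁ 1 ≠ 0 := IsIrrCharacter.one_ne_zero hα₁
  have ha : a ≠ 0 := by
    rintro rfl
    have := hΘL 1
    simp only [Subgroup.coe_one, Nat.cast_zero, zero_mul] at this
    exact IsIrrCharacter.one_ne_zero hΘ this
  have hb : b ≠ 0 := by
    rintro rfl
    have := hΨL 1
    simp only [Subgroup.coe_one, Nat.cast_zero, zero_mul] at this
    rw [IsCharacter.eq_zero_of_one_eq_zero hΨ this, zero_mul, classInner_zero_left] at hne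
    exact hne rfl
  -- step 1: `Ψ` is irreducible
  obtain ⟨τ₁, hτ₁, h1, h2⟩ := exists_common_constituent hΨ
    (isCharacter_mul hΘc (isCharacter_conj hBc)) (by rw [classInner_mul_conj_right]; exact hne)
  have h2' : classInner (τ₁ * B) Θ ≠ 0 := by
    rw [← classInner_mul_conj_right, ← classInner_conj_symm]
    simpa using h2
  obtain ⟨b₁, hb₁0, hτ₁L⟩ := comp_eq_smul_of_constituent L.subtype hΨ hτ₁ h1 hα₁ b hΨL
  have hb₁b : b₁ ≤ b := by
    have h3 := degree_le_of_constituent hΨ hτ₁ h1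
    have e1 := isChar_one_eq hΨ
    have e2 := isChar_one_eq (isCharacter_of_isIrrCharacter hτ₁)
    have e3 := isChar_one_eq (isCharacter_of_isIrrCharacter hα₁)
    have e4 := hΨL 1
    have e5 := hτ₁L 1
    simp only [Subgroup.coe_one, Subgroup.coe_subtype] at e4 e5
    rw [e1, e3] at e4
    rw [e2, e3] at e5
    have e4' : charDegree Ψ = b * charDegree α₁ := by exact_mod_cast e4
    have e5' : charDegree τ₁ = b₁ * charDegree α₁ := by exact_mod_cast e5
    rw [e4', e5'] at h3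
    exact Nat.le_of_mul_le_mul_right h3 (isIrr_charDegree_pos hα₁)
  have hfb : f ≤ b₁ * a := degree_le_of_mul_constituent L.subtype
    (isCharacter_of_isIrrCharacter hτ₁) hΘc hB ω hα₂ hα b₁ a f hτ₁L hΘL hBL h2'
  obtain ⟨rfl, hf, hk⟩ := berger_numerics ha hb hk1 hk2 hfb hb₁b
  have hΨτ : Ψ = τ₁ := by
    apply eq_of_constituent_of_degree_le hΨ hτ₁ h1
    have e4 := hΨL 1
    have e5 := hτ₁L 1
    simp only [Subgroup.coe_one, Subgroup.coe_subtype] at e4 e5
    unfold charDegree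
    rw [e4, e5]
  subst hΨτ
  -- step 2: Clifford theory with respect to `D`
  have hΨD : IsCharacter D (fun d : D => Ψ d) := isCharacter_restrict hΨ D
  obtain ⟨σ, hσ⟩ := exists_irr_constituent hΨD (IsIrrCharacter.one_ne_zero hτ₁)
  obtain ⟨s, hs0, hσL⟩ := comp_eq_smul_of_constituent (Subgroup.inclusion hLD) hΨD σ.2 hσ hα₁ b₁
    (fun l => hΨL l)
  have hsdvd : s ∣ L.relIndex D := by
    have := dvd_index_of_comp_eq_smul (Subgroup.inclusion hLD) (Subgroup.inclusion_injective hLD)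
      (by rw [Subgroup.inclusion_range]; infer_instance) σ.2 hα₁ s hs0 hσL
    rwa [Subgroup.inclusion_range] at this
  let T : Subgroup Y := Cfsg.Agent.Lib.Helper5.inertia hD (σ : D → ℂ)
  have hT : ∀ g : Y, g ∈ T ↔ ∀ n : D, (σ : D → ℂ) ⟨g * n * g⁻¹, hD.conj_mem (n : Y) n.2 g⟩ =
      (σ : D → ℂ) n := fun g => Cfsg.Agent.Lib.Helper5.mem_inertia' hD _ g
  have hDT : D ≤ T := Cfsg.Agent.Lib.Helper5.le_inertia hD
    (isClassFunction_of_isCharacter (isCharacter_of_isIrrCharacter σ.2))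
  obtain ⟨τ₀, hτ₀, hind, hτ₀σ⟩ := Cfsg.Agent.S0854.result D (σ : D → ℂ) σ.2 T hT hDT Ψ hτ₁ hσ
  obtain ⟨e₀, he₀, hτ₀D, -⟩ := comp_eq_smul_of_invariant (Subgroup.inclusion hDT)
    (Subgroup.inclusion_injective hDT) (by rw [Subgroup.inclusion_range]; infer_instance)
    hτ₀ σ.2 (by rw [← hτ₀σ] at hσ; exact hσ) (by
      intro w x x' hx
      have : x' = ⟨(w : Y) * x * (w : Y)⁻¹, hD.conj_mem (x : Y) x.2 w⟩ :=
        Subtype.ext (congrArg (fun t : T => (t : Y)) hx)
      rw [this]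
      exact (hT w).1 w.2 x)
  have hdeg : b₁ = T.index * e₀ * s := by
    have e1 := congrFun hind 1
    rw [indFun_one] at e1
    have e2 := hτ₀D 1
    have e3 := hσL 1
    have e4 := hΨL 1
    simp only [map_one, Subgroup.coe_one] at e2 e3 e4
    rw [e2, e3, e4] at e1
    have e5 : ((T.index * e₀ * s : ℕ) : ℂ) * α₁ 1 = (b₁ : ℂ) * α₁ 1 := by
      push_cast
      linear_combination e1
    have := mul_right_cancel₀ hα₁1 e5
    exact_mod_cast this.symm
  have hs1 : s = 1 := by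
    have hsk : s ∣ k := by
      rw [← hk, hdeg]
      exact Dvd.dvd.pow (Dvd.intro_left _ rfl) two_ne_zero
    have : Nat.Coprime s s := (hcop.coprime_dvd_left hsk).coprime_dvd_right hsdvd
    exact (Nat.coprime_self s).1 this
  subst hs1
  have hσL' : ∀ l : L, (σ : D → ℂ) ⟨l, hLD l.2⟩ = α₁ l := by
    intro l
    have := hσL l
    rw [Nat.cast_one, one_mul] at this
    exact this
  have hTtop : T ≠ ⊤ := by
    intro htop
    obtain ⟨e, he, h3, -⟩ := restrict_eq_smul_of_invariant D hτ₁ σ.2 hσ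
      (fun g n => (hT g).1 (by rw [htop]; exact Subgroup.mem_top g) n)
    have h4 : e = b₁ := by
      have e1 := congrFun h3 1
      have e4 := hΨL 1
      have e3 := hσL' 1
      simp only [Subgroup.coe_one, Pi.smul_apply, smul_eq_mul] at e1 e4
      have e3' : (σ : D → ℂ) 1 = α₁ 1 := e3
      rw [e4, e3'] at e1
      have := mul_right_cancel₀ hα₁1 e1
      exact_mod_cast this.symm
    subst h4
    exact hNH σ σ.2 (fun d => congrFun h3 d) hσL' hk
  -- step 3: a small constituent of `B` on `T`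
  have hBT : IsCharacter T (fun t : T => B t) := isCharacter_restrict hBc T
  have hΘT : IsCharacter T (fun t : T => Θ t) := isCharacter_restrict hΘc T
  have hτ₀c := isCharacter_of_isIrrCharacter hτ₀
  have h5 : classInner (τ₀ * fun t : T => B t) (fun t : T => Θ t) ≠ 0 := by
    rw [← frobenius_reciprocity T _ Θ (isClassFunction_of_isCharacter hΘc),
      indFun_mul_restrict T τ₀ B (isClassFunction_of_isCharacter hBc), hind]
    exact hne
  have h6 : classInner (fun t : T => B t) ((fun t : T => Θ t) * fun t => conj (τ₀ t)) ≠ 0 := by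
    rw [classInner_mul_conj_right, mul_comm]
    exact h5
  obtain ⟨β₁, hβ₁, h7, h8⟩ := exists_common_constituent hBT
    (isCharacter_mul hΘT (isCharacter_conj hτ₀c)) h6
  have h8' : classInner (τ₀ * β₁) (fun t : T => Θ t) ≠ 0 := by
    rw [mul_comm, ← classInner_mul_conj_right, ← classInner_conj_symm]
    simpa using h8
  have hLT : L ≤ T := hLD.trans hDT
  obtain ⟨n, hn0, hβ₁L⟩ := comp_eq_smul_of_constituent (Subgroup.inclusion hLT) hBT hβ₁ h7
    (isChar_linear_isIrr (isCharacter_homFun ω).1 (isCharacter_homFun ω).2) f (fun l => hBL l)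
  have hbound : n ≤ e₀ * a := degree_le_of_mul_constituent (Subgroup.inclusion hLT) hτ₀c hΘT hβ₁ ω
    hα₂ hα e₀ a n (fun l => by
      have := hτ₀D ⟨l, hLD l.2⟩
      rw [hσL' l] at this
      exact this) (fun l => hΘL l) hβ₁L h8'
  obtain ⟨Δ, hΔ, hBΔ⟩ := exists_add_of_inner_ne_zero hBT hβ₁ h7
  refine ⟨T, β₁, Δ, n, hDT, hTtop, hβ₁, hΔ, hBΔ, ?_, ?_⟩
  · have := hβ₁L 1
    simpa using this
  · rw [hf, hdeg]
    calc n * T.index ≤ e₀ * a * T.index := Nat.mul_le_mul_right _ hbound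
      _ = a * (T.index * e₀ * 1) := by ring

end Cfsg.Agent.Lib.Helper79
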