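import Cfsg.Agent.Lib.Helper79.BergerAux

set_option autoImplicit false

namespace Cfsg.Agent.Lib.Helper79

open Cfsg ComplexConjugate Cfsg.Agent.Lib.Helper19 Cfsg.Agent.Lib.Helper20 Cfsg.Agent.Lib.Helper82

theorem eq_of_irr_of_inner_ne_zero {W : Type*} [Group W] [Fintype W] {A B : W → ℂ}
    (hA : IsIrrCharacter W A) (hB : IsIrrCharacter W B) (h : classInner A B ≠ 0) : A = B := by
  by_contra hne
  exact h (classInner_irr_ne hA hB hne)

theorem inner_add_ne_zero {W : Type*} [Group W] [Fintype W] {A Δ : W → ℂ}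
    (hA : IsIrrCharacter W A) (hΔ : IsCharacter W Δ) : classInner (A + Δ) A ≠ 0 := by
  obtain ⟨n, hn⟩ := isCharacter_classInner_nat hΔ hA
  rw [classInner_add_left, classInner_irr_self hA, hn]
  have : ((1 + n : ℕ) : ℂ) ≠ 0 := by
    rw [Nat.cast_ne_zero]
    omega
  exact_mod_cast this

set_option maxHeartbeats 1000000 in
/-- **The outer step of Berger's theorem.** -/
theorem berger_outer {X : Type*} [Group X] [Fintype X] (K H L D : Subgroup X) [hK : K.Normal]
    (hKH : K ⊔ H = ⊤) (hLK : L ≤ K) (hLH : L ≤ H) (hKHL : K ⊓ H ≤ L) (hLD : L ≤ D) (hDH : D ≤ H)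
    (hDn : ∀ h ∈ H, ∀ d ∈ D, h * d * h⁻¹ ∈ D) (hDL : ¬ D ≤ L)
    (hcent : ∀ d ∈ D, (∀ k ∈ K, d * k * d⁻¹ * k⁻¹ ∈ L) → d ∈ L)
    (hcop : Nat.Coprime (L.relIndex K) (L.relIndex D))
    [Fintype H]
    {τ β : X → ℂ} (hτ : IsIrrCharacter X τ) (hτK : IsIrrCharacter K (fun k : K => τ k))
    (hβ : IsIrrCharacter X β) (ω : K →* ℂˣ) (hβK : ∀ k : K, β k = β 1 * (ω k : ℂ))
    {ϑ : H → ℂ} (hϑ : IsIrrCharacter H ϑ)
    {α₁ α₂ : L → ℂ} (hα₁ : IsIrrCharacter L α₁) (hα₂ : IsIrrCharacter L α₂)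
    (hα : ∀ l : L, α₁ l = α₂ l * conj (ω ⟨l, hLK l.2⟩ : ℂ))
    (a b : ℕ) (hτL : ∀ l : L, τ l = (b : ℂ) * α₁ l)
    (hϑL : ∀ l : L, ϑ ⟨l, hLH l.2⟩ = (a : ℂ) * α₂ l)
    (hne : classInner (fun h : H => τ h * β h) ϑ ≠ 0)
    (hdeg : τ 1 * β 1 = (H.index : ℂ) * ϑ 1) :
    ∃ (X₁ : Subgroup X) (ξ Δ : X₁ → ℂ), K ≤ X₁ ∧ X₁ ≠ ⊤ ∧ IsIrrCharacter X₁ ξ ∧
      IsCharacter X₁ Δ ∧ (fun x : X₁ => τ x * β x) = ξ + Δ ∧
      X₁.index * charDegree ξ ≤ charDegree (fun x => τ x * β x) := by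
  classical
  have hτc := isCharacter_of_isIrrCharacter hτ
  have hβc := isCharacter_of_isIrrCharacter hβ
  have hLeq : L = K ⊓ H := le_antisymm (le_inf hLK hLH) hKHL
  have hω : IsIrrCharacter K (homFun ω) :=
    isChar_linear_isIrr (isCharacter_homFun ω).1 (isCharacter_homFun ω).2
  -- the groups inside `H`
  let LY : Subgroup H := L.subgroupOf H
  let DY : Subgroup H := D.subgroupOf H
  have hLYn : LY.Normal := by
    show (L.subgroupOf H).Normal
    rw [hLeq, Subgroup.inf_subgroupOf_right]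
    infer_instance
  have hDYn : DY.Normal := ⟨fun d hd h => hDn h h.2 d hd⟩
  have hLDY : LY ≤ DY := fun x hx => hLD hx
  let eL : LY ≃* L := Subgroup.subgroupOfEquivOfLe hLH
  let ωY : LY →* ℂˣ := ω.comp ((Subgroup.inclusion hLK).comp eL.toMonoidHom)
  have hα₁Y : IsIrrCharacter LY (α₁ ∘ eL) := isIrr_comp_surj hα₁ eL.toMonoidHom eL.surjective
  have hα₂Y : IsIrrCharacter LY (α₂ ∘ eL) := isIrr_comp_surj hα₂ eL.toMonoidHom eL.surjective
  have hcover : ∀ w : X, ∃ (x : K) (y : H), w = K.subtype x * H.subtype y := by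
    intro w
    have hw : w ∈ K ⊔ H := by rw [hKH]; exact Subgroup.mem_top w
    obtain ⟨x, hx, y, hy, rfl⟩ := Subgroup.mem_sup_of_normal_left.1 hw
    exact ⟨⟨x, hx⟩, ⟨y, hy⟩, rfl⟩
  have hB : IsIrrCharacter H (fun h : H => β h) :=
    isIrr_comp_of_scalar K.subtype ω hβ hβK H.subtype hcover
  have hΨ : IsCharacter H (fun h : H => τ h) := isCharacter_restrict hτc H
  set f : ℕ := charDegree β with hf
  have hβ1 : β 1 = (f : ℂ) := isChar_one_eq hβc
  set k : ℕ := L.relIndex K with hk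
  have hkpos : 0 < k := by
    have := relIndex_mul_card' hLK
    rcases Nat.eq_zero_or_pos k with h0 | h0
    · rw [← hk, h0, zero_mul] at this
      exact absurd this.symm Nat.card_pos.ne'
    · exact h0
  have hHidx : H.index = k := by
    have := relIndex_sup_eq K H
    rw [hKH, Subgroup.relIndex_top_right, ← hLeq] at this
    exact this
  have hα1 : α₁ 1 = α₂ 1 := by
    have := hα 1
    have e : (⟨((1 : L) : X), hLK (1 : L).2⟩ : K) = 1 := rfl
    rw [e, map_one] at this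
    simpa using this
  have hα₂1 : α₂ 1 ≠ 0 := IsIrrCharacter.one_ne_zero hα₂
  have hk1 : f * b = k * a := by
    have e1 := hτL 1
    have e2 := hϑL 1
    have e3 : (⟨((1 : L) : X), hLH (1 : L).2⟩ : H) = 1 := rfl
    rw [e3] at e2
    rw [Subgroup.coe_one] at e1
    rw [e1, e2, hβ1, hα1, hHidx] at hdeg
    have e4 : ((f * b : ℕ) : ℂ) * α₂ 1 = ((k * a : ℕ) : ℂ) * α₂ 1 := by
      push_cast
      linear_combination hdeg
    exact_mod_cast mul_right_cancel₀ hα₂1 e4
  have hnL : nsq τ L = (b : ℝ) ^ 2 * Nat.card L :=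
    nsq_of_comp_eq_smul τ L L.subtype L.subtype_injective (by simp) hα₁ b hτL
  have hk2 : b ^ 2 ≤ k := by
    have e1 : nsq τ K = (1 : ℕ) ^ 2 * Nat.card K :=
      nsq_of_comp_eq_smul τ K K.subtype K.subtype_injective (by simp) hτK 1 (by simp)
    have e2 := nsq_mono τ hLK
    rw [hnL, e1, ← relIndex_mul_card' hLK] at e2
    have e3 : (b ^ 2 * Nat.card L : ℕ) ≤ k * Nat.card L := by
      have : ((b ^ 2 * Nat.card L : ℕ) : ℝ) ≤ ((k * Nat.card L : ℕ) : ℝ) := by
        push_cast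
        simpa using e2
      exact_mod_cast this
    exact Nat.le_of_mul_le_mul_right e3 Nat.card_pos
  have hb : b ≠ 0 := by
    rintro rfl
    have := hτL 1
    simp only [Subgroup.coe_one, Nat.cast_zero, zero_mul] at this
    exact IsIrrCharacter.one_ne_zero hτ this
  have hcop' : Nat.Coprime k (LY.relIndex DY) := by
    show Nat.Coprime k ((L.subgroupOf H).relIndex (D.subgroupOf H))
    rw [Subgroup.relIndex_subgroupOf hDH]
    exact hcop
  have hNH : ∀ σ : DY → ℂ, IsIrrCharacter DY σ → (∀ d : DY, τ d = (b : ℂ) * σ d) →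
      (∀ l : LY, σ ⟨l, hLDY l.2⟩ = (α₁ ∘ eL) l) → b ^ 2 = k → False := by
    intro σ hσ hΨD _ hbk
    apply hDL
    have hinj : Function.Injective (H.subtype.comp DY.subtype) :=
      H.subtype_injective.comp DY.subtype_injective
    have hmem : ∀ x, x ∈ D ↔ ∃ a, (H.subtype.comp DY.subtype) a = x := by
      intro x
      constructor
      · intro hx
        exact ⟨⟨⟨x, hDH hx⟩, hx⟩, rfl⟩
      · rintro ⟨a, rfl⟩
        exact a.2
    have hM : IsIrrCharacter (K ⊔ D : Subgroup X) (fun x : (K ⊔ D : Subgroup X) => τ x) :=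
      isIrr_of_comp_irr (Subgroup.inclusion (le_sup_left : K ≤ K ⊔ D))
        (isCharacter_restrict hτc _) hτK
    apply berger_nh K L D hLK hLD (le_trans (inf_le_inf_left K hDH) hKHL) hcent hτc b hb _ _ hnL hbk
    · have := nsq_of_comp_eq_smul τ (K ⊔ D) (K ⊔ D : Subgroup X).subtype
        (Subgroup.subtype_injective _) (by simp) hM 1 (by simp)
      simpa using this
    · have := nsq_of_comp_eq_smul τ D (H.subtype.comp DY.subtype) hinj hmem hσ b hΨD
      rw [this, card_eq_of_hom D _ hinj hmem]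
  obtain ⟨T, β₁, Δ, n, hDT, hTtop, hβ₁, hΔ, hBΔ, hβ₁1, hnT⟩ :=
    berger_inner LY DY hLDY ωY hα₁Y hα₂Y (fun l => hα (eL l)) hΨ hB hϑ a b f k
      (fun l => hτL (eL l)) (fun l => by
        have := hβK ⟨l, hLK (eL l).2⟩
        rw [hβ1] at this
        exact this) (fun l => hϑL (eL l)) hne hk1 hk2 hcop' hNH
  -- the subgroup `X₁ = K T`
  let T' : Subgroup X := T.map H.subtype
  let X₁ : Subgroup X := K ⊔ T'
  have hT'H : T' ≤ H := Subgroup.map_subtype_le T
  have hLT' : L ≤ T' := by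
    intro l hl
    exact ⟨⟨l, hLH hl⟩, hDT (hLDY (show (⟨l, hLH hl⟩ : H) ∈ LY from hl)), rfl⟩
  have hKX₁ : K ≤ X₁ := le_sup_left
  have hX₁top : X₁ ≠ ⊤ := by
    intro htop
    apply hTtop
    rw [eq_top_iff]
    intro h _
    have hw : (h : X) ∈ K ⊔ T' := by
      show (h : X) ∈ X₁
      rw [htop]; exact Subgroup.mem_top _
    obtain ⟨x, hx, y, hy, hxy⟩ := Subgroup.mem_sup_of_normal_left.1 hw
    have hxH : x ∈ H := by
      have : x = h * y⁻¹ := by rw [← hxy]; group
      rw [this]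
      exact H.mul_mem h.2 (H.inv_mem (hT'H hy))
    have hxT : x ∈ T' := hLT' (hKHL ⟨hx, hxH⟩)
    have hhT : (h : X) ∈ T' := by
      rw [← hxy]
      exact T'.mul_mem hxT hy
    obtain ⟨t, ht, hth⟩ := hhT
    have : t = h := Subtype.ext hth
    rw [← this]
    exact ht
  let ιT : T →* X₁ := (H.subtype.comp T.subtype).codRestrict X₁
    (fun t => (le_sup_right : T' ≤ X₁) ⟨t, t.2, rfl⟩)
  let jK : K →* X₁ := Subgroup.inclusion hKX₁
  have hβX₁ : IsCharacter X₁ (fun x : X₁ => β x) := isCharacter_restrict hβc X₁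
  have hτX₁c : IsCharacter X₁ (fun x : X₁ => τ x) := isCharacter_restrict hτc X₁
  obtain ⟨βt, hβt, hβt1, hβt2⟩ := exists_irr_constituent_over_hom ιT hβX₁ β₁ (by
    have : (fun t : T => (fun x : X₁ => β x) (ιT t)) = β₁ + Δ := hBΔ
    rw [this]
    exact inner_add_ne_zero hβ₁ hΔ)
  have hβtc := isCharacter_of_isIrrCharacter hβt
  obtain ⟨m, hm0, hm⟩ := comp_eq_smul_of_constituent jK hβX₁ hβt hβt1 hω (β 1) (fun x => hβK x)
  have hβtK : ∀ x : K, βt (jK x) = βt 1 * (ω x : ℂ) := by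
    intro x
    have e1 := hm 1
    rw [map_one, homFun_apply, map_one, Units.val_one, mul_one] at e1
    rw [hm x, e1, homFun_apply]
  have hcover₁ : ∀ w : X₁, ∃ (x : K) (t : T), w = jK x * ιT t := by
    intro w
    obtain ⟨x, hx, y, hy, hxy⟩ := Subgroup.mem_sup_of_normal_left.1 w.2
    obtain ⟨t, ht, rfl⟩ := hy
    exact ⟨⟨x, hx⟩, ⟨t, ht⟩, Subtype.ext hxy.symm⟩
  have hβtT : IsIrrCharacter T (fun t => βt (ιT t)) :=
    isIrr_comp_of_scalar jK ω hβt hβtK ιT hcover₁
  have hβtβ₁ : (fun t => βt (ιT t)) = β₁ := eq_of_irr_of_inner_ne_zero hβtT hβ₁ hβt2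
  have hβt1' : βt 1 = (n : ℂ) := by
    have := congrFun hβtβ₁ 1
    rw [hβ₁1] at this
    simpa using this
  -- the product
  let N : Subgroup X₁ := K.subgroupOf X₁
  let eN : N ≃* K := Subgroup.subgroupOfEquivOfLe hKX₁
  have hτX₁ : IsIrrCharacter X₁ (fun x : X₁ => τ x) := isIrr_of_comp_irr jK hτX₁c hτK
  have hτN : IsIrrCharacter N (fun n : N => (fun x : X₁ => τ x) n) :=
    isIrr_comp_surj hτK eN.toMonoidHom eN.surjective
  have hξ : IsIrrCharacter X₁ ((fun x : X₁ => τ x) * βt) := by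
    apply isIrr_mul_of_restrict_irr N hτX₁ hτN hβt
    intro n g
    have h1 := mul_left_of_comp_eq jK ω hβtc hβtK (eN n) g
    have h2 : jK (eN n) = (n : X₁) := rfl
    rw [h2] at h1
    have h3 := isChar_linear_mul_conj (isCharacter_homFun ω).1 (isCharacter_homFun ω).2 (eN n)
    rw [homFun_apply] at h3
    rw [h1, map_mul]
    linear_combination (βt g * conj (βt g)) * h3
  obtain ⟨Δ', hΔ', hβΔ'⟩ := exists_add_of_inner_ne_zero hβX₁ hβt hβt1
  refine ⟨X₁, (fun x : X₁ => τ x) * βt, (fun x : X₁ => τ x) * Δ', hKX₁, hX₁top, hξ,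
    isCharacter_mul hτX₁c hΔ', ?_, ?_⟩
  · funext x
    have := congrFun hβΔ' x
    simp only [Pi.add_apply, Pi.mul_apply] at this ⊢
    rw [this]
    ring
  · have hidx : X₁.index = T.index := by
      have e1 := relIndex_sup_eq K T'
      have e2 : K ⊓ T' = L :=
        le_antisymm (le_trans (inf_le_inf_left K hT'H) hKHL) (le_inf hLK hLT')
      rw [e2] at e1
      have e3 : T'.relIndex X₁ * X₁.index = T'.index :=
        Subgroup.relIndex_mul_index (le_sup_right : T' ≤ X₁)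
      have e4 : T'.relIndex H * H.index = T'.index := Subgroup.relIndex_mul_index hT'H
      have e5 : T'.relIndex H = T.index := by
        show ((T.map H.subtype).comap H.subtype).index = _
        rw [Subgroup.comap_map_eq_self_of_injective H.subtype_injective]
      have e1' : T'.relIndex X₁ = k := e1
      rw [e1'] at e3
      rw [e5, hHidx, ← e3, mul_comm] at e4
      exact (Nat.eq_of_mul_eq_mul_left hkpos e4).symm
    have d1 : charDegree ((fun x : X₁ => τ x) * βt) = charDegree τ * n := by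
      have e1 := isChar_one_eq (isCharacter_of_isIrrCharacter hξ)
      rw [Pi.mul_apply, hβt1', Subgroup.coe_one, isChar_one_eq hτc] at e1
      exact_mod_cast e1.symm
    have d2 : charDegree (fun x => τ x * β x) = charDegree τ * f := by
      have e1 := isChar_one_eq (isCharacter_mul hτc hβc)
      rw [Pi.mul_apply, hβ1, isChar_one_eq hτc] at e1
      exact_mod_cast e1.symm
    rw [d1, d2, hidx]
    calc T.index * (charDegree τ * n) = charDegree τ * (n * T.index) := by ring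
      _ ≤ charDegree τ * f := Nat.mul_le_mul_left _ hnT

end Cfsg.Agent.Lib.Helper79
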