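import Cfsg.Agent.Lib.Helper79.InvAboveLinear
import Cfsg.Agent.Lib.Helper79.HatGroup

set_option autoImplicit false

namespace Cfsg.Agent.Lib.Helper79

open Cfsg ComplexConjugate Cfsg.Agent.Lib.Helper19 Cfsg.Agent.Lib.Helper20 Cfsg.Agent.Lib.Helper82

section hat3

variable {G : Type*} [Group G] (N : Subgroup G) [hN : N.Normal] {d : ℕ}
  (ρ : Representation ℂ N (Fin d → ℂ)) (m : G →* ℂˣ)

theorem tauRep_hatN (lam : hatN N ρ m →* ℂˣ)
    (hlam : ∀ x : hatN N ρ m, tauHom N ρ m x = scalU d (lam x) * ρ.asGroupHom (hatPiN N ρ m x))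
    (x : hatN N ρ m) :
    tauRep N ρ m (x : hatG N ρ m) = ((lam x : ℂˣ) : ℂ) • ρ (hatPiN N ρ m x) := by
  have h2 := congrArg Units.val (hlam x)
  rw [Units.val_mul, scalU_coe] at h2
  show ((tauHom N ρ m x : (EE d)ˣ) : EE d) = _
  rw [h2]
  simp only [smul_mul_assoc, one_mul]
  rfl

theorem tauRep_comp_isIrreducible [Finite G] (hρ : ρ.IsIrreducible)
    (hinv : ∀ (g : G) (n : N), ρ.character (MulAut.conjNormal g n) = ρ.character n)
    {Y : Type*} [Group Y] (ι : Y →* hatG N ρ m) (hι : ∀ x : hatN N ρ m, ∃ y, ι y = x) :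
    Representation.IsIrreducible (repComp (tauRep N ρ m) ι) := by
  obtain ⟨lam, hlam, -⟩ := exists_lamHom N ρ m hρ
  apply isIrreducible_of_forall_exists_smul _ ρ _ hρ
  intro n
  obtain ⟨x, hx⟩ := exists_hatN_over N ρ m hρ hinv n
  obtain ⟨y, hy⟩ := hι x
  refine ⟨y, (((lam x)⁻¹ : ℂˣ) : ℂ), ?_⟩
  show ρ n = _ • tauRep N ρ m (ι y)
  rw [hy, tauRep_hatN N ρ m lam hlam, hx, smul_smul]
  simp

end hat3

section amb

variable {Γ : Type*} [Group Γ]

/-- **Isaacs 13.31, case `Γ/G` solvable.** -/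
theorem exists_inv_over_of_lower_solvable [Finite Γ] (G N : Subgroup Γ) [hG : G.Normal]
    [hN : N.Normal] (hNG : N ≤ G) (hcop : (G.index).Coprime (N.relIndex G))
    (hsolv : Group.IsSolvable (Γ ⧸ G))
    [Fintype N] (θ : N → ℂ) (hθ : IsIrrCharacter N θ) (hinv : ConjInv ⊤ N θ) :
    ∃ χ : G → ℂ, IsIrrCharacter G χ ∧ classInner (resTo hNG χ) θ ≠ 0 ∧ ConjInv ⊤ G χ := by
  classical
  have hθ' := hθ
  obtain ⟨d, ρ, hρ, rfl⟩ := hθ
  have hinvρ : ∀ (g : Γ) (n : N), ρ.character (MulAut.conjNormal g n) = ρ.character n :=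
    fun g n => hinv g (Subgroup.mem_top g) n _ rfl
  let m : Γ →* ℂˣ := 1
  have hfin : Finite (hatG N ρ m) := finite_hatG N ρ m hρ
  let π := hatPi N ρ m
  have hπ : Function.Surjective π := hatPi_surjective N ρ m hρ hinvρ
  let XG : Subgroup (hatG N ρ m) := G.comap π
  let XN : Subgroup (hatG N ρ m) := hatN N ρ m
  have hXGn : XG.Normal := hG.comap π
  have hXNG : XN ≤ XG := Subgroup.comap_mono hNG
  have hidx : XG.index = G.index := Subgroup.index_comap_of_surjective G hπ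
  have hrel : XN.relIndex XG = N.relIndex G := by
    show (N.comap π).relIndex (G.comap π) = _
    rw [Subgroup.relIndex_comap, Subgroup.map_comap_eq_self_of_surjective hπ]
  have hsolvX : Group.IsSolvable (hatG N ρ m ⧸ XG) :=
    isSolvable_quotient_of_ker_le XG ((QuotientGroup.mk' G).comp π) (by
      intro x hx
      exact (QuotientGroup.eq_one_iff (π x)).1 hx)
  obtain ⟨lam, hlam, hlaminv⟩ := exists_lamHom N ρ m hρ
  have := Fintype.ofFinite XN
  have := Fintype.ofFinite XG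
  obtain ⟨β, hβ, hβover, hβinv⟩ := exists_inv_over_linear XG XN hXNG
    (by rw [hidx, hrel]; exact hcop) hsolvX lam⁻¹
    (by intro x n; rw [MonoidHom.inv_apply, MonoidHom.inv_apply, hlaminv])
  -- the tautological character
  let τ : hatG N ρ m → ℂ := (tauRep N ρ m).character
  have hτirr : IsIrrCharacter (hatG N ρ m) τ :=
    ⟨d, tauRep N ρ m, tauRep_isIrreducible N ρ m hρ hinvρ, rfl⟩
  have hτN : ∀ x : XN, τ x = (lam x : ℂ) * ρ.character (hatPiN N ρ m x) := by
    intro x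
    show LinearMap.trace ℂ _ (tauRep N ρ m x) = _
    rw [tauRep_hatN N ρ m lam hlam, map_smul, smul_eq_mul]
    rfl
  let M : Subgroup XG := XN.subgroupOf XG
  have hMn : M.Normal := inferInstance
  have := Fintype.ofFinite M
  let eM : M ≃* XN := Subgroup.subgroupOfEquivOfLe hXNG
  let τG : XG → ℂ := fun x => τ x
  have hτG : IsIrrCharacter XG τG :=
    ⟨d, _, tauRep_comp_isIrreducible N ρ m hρ hinvρ XG.subtype
      (fun x => ⟨⟨x, hXNG x.2⟩, rfl⟩), rfl⟩
  have hτM : IsIrrCharacter M (fun n : M => τG n) :=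
    ⟨d, _, tauRep_comp_isIrreducible N ρ m hρ hinvρ (XG.subtype.comp M.subtype)
      (fun x => ⟨⟨⟨x, hXNG x.2⟩, x.2⟩, rfl⟩), rfl⟩
  let μ : M →* ℂˣ := (lam⁻¹).comp eM.toMonoidHom
  have hβmul : ∀ (n : M) (g : XG), β (n * g) = (μ n : ℂ) * β g := by
    apply mul_left_of_over_linear M μ _ hβ
    · have := Cfsg.Agent.Lib.Helper5.classInner_comp_equiv eM (resTo hXNG β) (homFun lam⁻¹)
      intro h0
      apply hβover
      rw [← this]
      exact h0
    · intro g n
      show (lam⁻¹) _ = (lam⁻¹) _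
      rw [MonoidHom.inv_apply, MonoidHom.inv_apply]
      congr 1
      exact hlaminv (g : hatG N ρ m) (eM n)
  have hΨ : IsIrrCharacter XG (τG * β) := by
    apply isIrr_mul_of_restrict_irr M hτG hτM hβ
    intro n g
    have h2 := isChar_linear_mul_conj (isCharacter_homFun μ).1 (isCharacter_homFun μ).2 n
    rw [homFun_apply] at h2
    rw [hβmul, map_mul]
    linear_combination (β g * conj (β g)) * h2
  have hkey : ∀ x : XN, (τG * β) ⟨x, hXNG x.2⟩ = β 1 * ρ.character (hatPiN N ρ m x) := by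
    intro x
    have h1 := hβmul ⟨⟨x, hXNG x.2⟩, x.2⟩ 1
    rw [mul_one] at h1
    have h2 : ((μ ⟨⟨x, hXNG x.2⟩, x.2⟩ : ℂˣ) : ℂ) = ((lam x : ℂˣ) : ℂ)⁻¹ := by
      show (((lam⁻¹) x : ℂˣ) : ℂ) = _
      rw [MonoidHom.inv_apply, Units.val_inv_eq_inv_val]
    show τ x * β ⟨x, hXNG x.2⟩ = _
    rw [hτN, h1, h2]
    have h3 : ((lam x : ℂˣ) : ℂ) ≠ 0 := Units.ne_zero _
    field_simp
  let πG : XG →* G := π.subgroupComap G
  have hπG : Function.Surjective πG := π.subgroupComap_surjective_of_surjective G hπ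
  obtain ⟨χ, hχ, hχ'⟩ := isIrr_deflate_surj πG hπG hΨ (by
    intro x hx
    have hx1 : π x = 1 := congrArg Subtype.val hx
    have hxN : (x : hatG N ρ m) ∈ XN := by
      show π x ∈ N
      rw [hx1]; exact N.one_mem
    have e1 := hkey ⟨x, hxN⟩
    have e2 := hkey 1
    have e3 : hatPiN N ρ m ⟨x, hxN⟩ = 1 := Subtype.ext hx1
    rw [e3] at e1
    rw [map_one] at e2
    exact e1.trans e2.symm)
  refine ⟨χ, hχ, ?_, ?_⟩
  · have e1 : resTo hNG χ = (β 1) • ρ.character := by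
      funext n
      obtain ⟨x, hx⟩ := exists_hatN_over N ρ m hρ hinvρ n
      have h1 : (⟨n, hNG n.2⟩ : G) = πG ⟨x, hXNG x.2⟩ :=
        Subtype.ext (congrArg Subtype.val hx).symm
      show χ ⟨n, hNG n.2⟩ = β 1 * ρ.character n
      rw [h1, hχ', hkey, hx]
    rw [e1, classInner_smul_left, classInner_irr_self hθ', mul_one]
    exact IsIrrCharacter.one_ne_zero hβ
  · intro s _ g g' hg
    obtain ⟨y, rfl⟩ := hπ s
    obtain ⟨x, rfl⟩ := hπG g
    let x' : XG := ⟨y * x * y⁻¹, hXGn.conj_mem x x.2 y⟩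
    have h1 : g' = πG x' := by
      apply Subtype.ext
      rw [hg]
      show π y * π x * (π y)⁻¹ = π (y * x * y⁻¹)
      simp
    rw [h1, hχ', hχ']
    show τ (y * x * y⁻¹) * β x' = τ x * β x
    rw [isChar_conj_eq (isCharacter_of_isIrrCharacter hτirr), hβinv y (Subgroup.mem_top y) x x' rfl]

end amb

end Cfsg.Agent.Lib.Helper79
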