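import Cfsg.Agent.Lib.Helper79.BergerOuter
import Cfsg.Agent.Lib.Helper79.BergerGroup
import Cfsg.Agent.Lib.Helper79.InvAboveTriple

set_option autoImplicit false

namespace Cfsg.Agent.Lib.Helper79

open Cfsg ComplexConjugate Cfsg.Agent.Lib.Helper19 Cfsg.Agent.Lib.Helper20 Cfsg.Agent.Lib.Helper82

section hat4

variable {G : Type*} [Group G] [Finite G] (N : Subgroup G) [hN : N.Normal] {d : ℕ}
  (ρ : Representation ℂ N (Fin d → ℂ)) (m : G →* ℂˣ)

omit [Finite G] in
theorem tauRep_character_hatN (lam : hatN N ρ m →* ℂˣ)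
    (hlam : ∀ x : hatN N ρ m, tauHom N ρ m x = scalU d (lam x) * ρ.asGroupHom (hatPiN N ρ m x))
    (x : hatN N ρ m) :
    (tauRep N ρ m).character x = (lam x : ℂ) * ρ.character (hatPiN N ρ m x) := by
  show LinearMap.trace ℂ _ (tauRep N ρ m x) = _
  rw [tauRep_hatN N ρ m lam hlam, map_smul, smul_eq_mul]
  rfl

/-- Factorisation `χ ∘ π = τ β` in the hat group. -/
theorem exists_hat_factor (hρ : ρ.IsIrreducible)
    (hinv : ∀ (g : G) (n : N), ρ.character (MulAut.conjNormal g n) = ρ.character n)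
    (lam : hatN N ρ m →* ℂˣ)
    (hlam : ∀ x : hatN N ρ m, tauHom N ρ m x = scalU d (lam x) * ρ.asGroupHom (hatPiN N ρ m x))
    (hlaminv : ∀ (y : hatG N ρ m) (x : hatN N ρ m),
      lam ⟨y * x * y⁻¹, (hatN_normal N ρ m).conj_mem x x.2 y⟩ = lam x)
    {χ : G → ℂ} (hχ : IsIrrCharacter G χ) (f : ℕ) (hχN : ∀ n : N, χ n = (f : ℂ) * ρ.character n) :
    ∃ β : hatG N ρ m → ℂ, IsIrrCharacter (hatG N ρ m) β ∧
      (∀ k : hatN N ρ m, β k = β 1 * (((lam⁻¹ : hatN N ρ m →* ℂˣ) k : ℂˣ) : ℂ)) ∧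
      ∀ x, χ (hatPi N ρ m x) = (tauRep N ρ m).character x * β x := by
  classical
  have hfin : Finite (hatG N ρ m) := finite_hatG N ρ m hρ
  have := Fintype.ofFinite (hatG N ρ m)
  have := Fintype.ofFinite (hatN N ρ m)
  have hπ := hatPi_surjective N ρ m hρ hinv
  set τ : hatG N ρ m → ℂ := (tauRep N ρ m).character with hτdef
  have hτirr : IsIrrCharacter (hatG N ρ m) τ :=
    ⟨d, tauRep N ρ m, tauRep_isIrreducible N ρ m hρ hinv, rfl⟩
  have hτc := isCharacter_of_isIrrCharacter hτirr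
  have hτN : ∀ x : hatN N ρ m, τ x = (lam x : ℂ) * ρ.character (hatPiN N ρ m x) :=
    tauRep_character_hatN N ρ m lam hlam
  have hτK : IsIrrCharacter (hatN N ρ m) (fun k : hatN N ρ m => τ k) :=
    ⟨d, _, tauRep_comp_isIrreducible N ρ m hρ hinv (hatN N ρ m).subtype (fun x => ⟨x, rfl⟩), rfl⟩
  have hχh : IsIrrCharacter (hatG N ρ m) (χ ∘ hatPi N ρ m) := isIrr_comp_surj hχ _ hπ
  have hηh : IsIrrCharacter (hatN N ρ m) (ρ.character ∘ hatPiN N ρ m) :=
    isIrr_comp_surj ⟨d, ρ, hρ, rfl⟩ (hatPiN N ρ m) (exists_hatN_over N ρ m hρ hinv)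
  have hf : (f : ℂ) ≠ 0 := by
    intro h0
    have := hχN 1
    rw [h0, zero_mul, Subgroup.coe_one] at this
    exact IsIrrCharacter.one_ne_zero hχ this
  have hΞ : IsCharacter (hatG N ρ m) ((fun x => conj (τ x)) * (χ ∘ hatPi N ρ m)) :=
    isCharacter_mul (isCharacter_conj hτc) (isCharacter_of_isIrrCharacter hχh)
  have hover : classInner (fun x : hatN N ρ m =>
      ((fun x => conj (τ x)) * (χ ∘ hatPi N ρ m)) x) (homFun lam⁻¹) ≠ 0 := by
    have e1 : classInner (fun x : hatN N ρ m =>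
        ((fun x => conj (τ x)) * (χ ∘ hatPi N ρ m)) x) (homFun lam⁻¹) =
        (f : ℂ) * classInner (ρ.character ∘ hatPiN N ρ m) (ρ.character ∘ hatPiN N ρ m) := by
      unfold classInner
      rw [mul_left_comm]
      congr 1
      rw [Finset.mul_sum]
      apply Finset.sum_congr rfl
      intro x _
      have h1 : χ (hatPi N ρ m x) = (f : ℂ) * ρ.character (hatPiN N ρ m x) :=
        hχN (hatPiN N ρ m x)
      have h2 : ((lam x : ℂˣ) : ℂ) ≠ 0 := Units.ne_zero _
      have h3 : conj ((lam x : ℂˣ) : ℂ) ≠ 0 := by simp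
      simp only [Pi.mul_apply, Function.comp_apply, hτN, h1, homFun_apply, MonoidHom.inv_apply,
        Units.val_inv_eq_inv_val, map_mul, map_inv₀]
      field_simp
    rw [e1, classInner_irr_self hηh, mul_one]
    exact hf
  obtain ⟨β, hβ, hΞβ, hβover⟩ := exists_irr_constituent_over (hatN N ρ m) hΞ _ hover
  have hβmul : ∀ (n : hatN N ρ m) (g : hatG N ρ m),
      β (n * g) = (((lam⁻¹ : hatN N ρ m →* ℂˣ) n : ℂˣ) : ℂ) * β g :=
    mul_left_of_over_linear (hatN N ρ m) lam⁻¹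
      (by intro x n; rw [MonoidHom.inv_apply, MonoidHom.inv_apply, hlaminv]) hβ hβover
  have hτβ : IsIrrCharacter (hatG N ρ m) (τ * β) := by
    apply isIrr_mul_of_restrict_irr (hatN N ρ m) hτirr hτK hβ
    intro n g
    have h2 := isChar_linear_mul_conj (isCharacter_homFun (lam⁻¹ : hatN N ρ m →* ℂˣ)).1
      (isCharacter_homFun (lam⁻¹ : hatN N ρ m →* ℂˣ)).2 n
    rw [homFun_apply] at h2
    rw [hβmul, map_mul]
    linear_combination (β g * conj (β g)) * h2
  have heq : χ ∘ hatPi N ρ m = τ * β := by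
    apply eq_of_irr_of_inner_ne_zero hχh hτβ
    have : classInner (χ ∘ hatPi N ρ m) (τ * β) =
        classInner ((fun x => conj (τ x)) * (χ ∘ hatPi N ρ m)) β := by
      unfold classInner
      congr 1
      apply Finset.sum_congr rfl
      intro x _
      simp only [Pi.mul_apply, map_mul]
      ring
    rw [this]
    exact hΞβ
  refine ⟨β, hβ, ?_, fun x => congrFun heq x⟩
  intro k
  have := hβmul k 1
  rw [mul_one] at this
  rw [this, mul_comm]

end hat4

/-- Descent of an induction source along a surjection. -/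
theorem indFun_descent {X G : Type*} [Group X] [Fintype X] [Group G] [Fintype G] (π : X →* G)
    (hπ : Function.Surjective π) (X₁ : Subgroup X) (hker : π.ker ≤ X₁) {χ : G → ℂ}
    (hχ : IsIrrCharacter G χ) {ξ Δ : X₁ → ℂ} (hξ : IsIrrCharacter X₁ ξ) (hΔ : IsCharacter X₁ Δ)
    (hsum : (fun x : X₁ => χ (π x)) = ξ + Δ) (hdeg : X₁.index * charDegree ξ ≤ charDegree χ) :
    ∃ ξG : X₁.map π → ℂ, IsCharacter (X₁.map π) ξG ∧ indFun (X₁.map π) ξG = χ := by
  classical
  have hχc := isCharacter_of_isIrrCharacter hχ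
  let π₁ : X₁ →* X₁.map π := π.subgroupMap X₁
  have hπ₁ : Function.Surjective π₁ := π.subgroupMap_surjective X₁
  have hχG₁ : IsCharacter (X₁.map π) (fun x : X₁.map π => χ x) := isCharacter_restrict hχc _
  obtain ⟨ξG, hξG, h1, h2⟩ := exists_irr_constituent_over_hom π₁ hχG₁ ξ (by
    have : (fun x : X₁ => (fun x : X₁.map π => χ x) (π₁ x)) = ξ + Δ := hsum
    rw [this]
    exact inner_add_ne_zero hξ hΔ)
  have hξGc := isCharacter_of_isIrrCharacter hξG
  have h3 : (fun x => ξG (π₁ x)) = ξ :=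
    eq_of_irr_of_inner_ne_zero (isIrr_comp_surj hξG π₁ hπ₁) hξ h2
  have h4 : charDegree ξG = charDegree ξ := by
    have := congrFun h3 1
    rw [map_one] at this
    unfold charDegree
    rw [this]
  refine ⟨ξG, hξGc, ?_⟩
  apply eq_of_constituent_of_degree_le (isCharacter_indFun _ ξG hξGc) hχ
    (inner_indFun_ne_zero _ hχc h1)
  rw [charDegree_indFun _ hξGc, Subgroup.index_map_eq X₁ hπ hker, h4]
  exact hdeg

set_option maxHeartbeats 1000000 in
/-- **The step of Berger's theorem**: a character induced from a maximal subgroup `H` with core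
`L`, homogeneous on `L` and on the chief factor `K/L`, is induced from a proper subgroup
containing `K`. -/
theorem berger_step {G Q : Type*} [Group G] [Fintype G] [Group Q] (pq : G →* Q)
    (hpq : Function.Surjective pq) {Kq U Dq : Subgroup Q} (hcfg : BergerConfig Kq U Dq)
    (K H L : Subgroup G) (hK : K = Kq.comap pq) (hH : H = U.comap pq) (hL : L = pq.ker)
    {χ : G → ℂ} (hχ : IsIrrCharacter G χ)
    {η : K → ℂ} (hη : IsIrrCharacter K η) (f : ℕ) (hχK : ∀ k : K, χ k = (f : ℂ) * η k)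
    {φ : L → ℂ} (hφ : IsIrrCharacter L φ) (e : ℕ) (hχL : ∀ l : L, χ l = (e : ℂ) * φ l)
    {ϑ : H → ℂ} (hϑ : IsIrrCharacter H ϑ) (hind : indFun H ϑ = χ) :
    ∃ (G₁ : Subgroup G) (ξ : G₁ → ℂ), K ≤ G₁ ∧ G₁ ≠ ⊤ ∧ IsCharacter G₁ ξ ∧ indFun G₁ ξ = χ := by
  classical
  have hχc := isCharacter_of_isIrrCharacter hχ
  have hKn : K.Normal := by rw [hK]; exact hcfg.normal.comap pq
  have hKmem : ∀ g : G, g ∈ K ↔ pq g ∈ Kq := fun g => by rw [hK]; rfl
  have hLK₀ : L ≤ K := by rw [hL, hK]; exact MonoidHom.ker_le_comap pq Kq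
  have hLH₀ : L ≤ H := by rw [hL, hH]; exact MonoidHom.ker_le_comap pq U
  have hf : (f : ℂ) ≠ 0 := by
    intro h0
    have := hχK 1
    rw [h0, zero_mul, Subgroup.coe_one] at this
    exact IsIrrCharacter.one_ne_zero hχ this
  have hηinv := invariant_of_restrict_eq_mul K hχc (f : ℂ) hf hχK
  -- multiplicities on `L`
  obtain ⟨b, hb0, hηL⟩ := comp_eq_smul_of_constituent (Subgroup.inclusion hLK₀)
    (isCharacter_restrict hχc K) hη (by
      have : (fun k : K => χ k) = (f : ℂ) • η := funext hχK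
      rw [this, classInner_smul_left, classInner_irr_self hη, mul_one]
      exact hf) hφ e (fun l => hχL l)
  have hχϑ : classInner (fun h : H => χ h) ϑ ≠ 0 := by
    have h1 := frobenius_reciprocity H ϑ χ (isClassFunction_of_isCharacter hχc)
    rw [hind, classInner_irr_self hχ] at h1
    rw [← classInner_conj_symm, ← h1]
    simp
  obtain ⟨a, ha0, hϑL₀⟩ := comp_eq_smul_of_constituent (Subgroup.inclusion hLH₀)
    (isCharacter_restrict hχc H) hϑ hχϑ hφ e (fun l => hχL l)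
  -- the hat group
  obtain ⟨d, ρ, hρ, rfl⟩ := hη
  have hinvρ : ∀ (g : G) (n : K), ρ.character (MulAut.conjNormal g n) = ρ.character n :=
    fun g n => hηinv g n
  let m : G →* ℂˣ := 1
  have hfin : Finite (hatG K ρ m) := finite_hatG K ρ m hρ
  have := Fintype.ofFinite (hatG K ρ m)
  let π : hatG K ρ m →* G := hatPi K ρ m
  have hπ : Function.Surjective π := hatPi_surjective K ρ m hρ hinvρ
  let pX : hatG K ρ m →* Q := pq.comp π
  have hpX : Function.Surjective pX := hpq.comp hπ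
  obtain ⟨lam, hlam, hlaminv⟩ := exists_lamHom K ρ m hρ
  obtain ⟨β, hβ, hβK, hfac⟩ := exists_hat_factor K ρ m hρ hinvρ lam hlam hlaminv hχ f hχK
  let τ : hatG K ρ m → ℂ := (tauRep K ρ m).character
  have hτirr : IsIrrCharacter (hatG K ρ m) τ :=
    ⟨d, tauRep K ρ m, tauRep_isIrreducible K ρ m hρ hinvρ, rfl⟩
  have hτN : ∀ x : hatN K ρ m, τ x = (lam x : ℂ) * ρ.character (hatPiN K ρ m x) :=
    tauRep_character_hatN K ρ m lam hlam
  have hτK : IsIrrCharacter (hatN K ρ m) (fun k : hatN K ρ m => τ k) :=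
    ⟨d, _, tauRep_comp_isIrreducible K ρ m hρ hinvρ (hatN K ρ m).subtype (fun x => ⟨x, rfl⟩), rfl⟩
  let XK : Subgroup (hatG K ρ m) := hatN K ρ m
  let XH : Subgroup (hatG K ρ m) := H.comap π
  let XL : Subgroup (hatG K ρ m) := L.comap π
  let XD : Subgroup (hatG K ρ m) := Dq.comap pX
  have hXKn : XK.Normal := hatN_normal K ρ m
  have hXK : XK = Kq.comap pX := by
    ext x
    exact hKmem (π x)
  have hXH : XH = U.comap pX := by
    show H.comap π = _
    rw [hH, Subgroup.comap_comap]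
  have hXL : XL = pX.ker := by
    show L.comap π = _
    rw [hL]
    exact MonoidHom.comap_ker pq π
  have hKH : XK ⊔ XH = ⊤ := by rw [hXK, hXH]; exact hcfg.comap_sup pX hpX
  have hLK : XL ≤ XK := Subgroup.comap_mono hLK₀
  have hLH : XL ≤ XH := Subgroup.comap_mono hLH₀
  have hKHL : XK ⊓ XH ≤ XL := by rw [hXK, hXH, hXL]; exact hcfg.comap_inf_le pX
  have hLD : XL ≤ XD := by rw [hXL]; exact MonoidHom.ker_le_comap pX Dq
  have hDH : XD ≤ XH := by rw [hXH]; exact Subgroup.comap_mono hcfg.le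
  have hDn : ∀ h ∈ XH, ∀ d ∈ XD, h * d * h⁻¹ ∈ XD := by rw [hXH]; exact hcfg.comap_norm pX
  have hDL : ¬ XD ≤ XL := by rw [hXL]; exact hcfg.comap_not_le pX hpX
  have hcent : ∀ d ∈ XD, (∀ k ∈ XK, d * k * d⁻¹ * k⁻¹ ∈ XL) → d ∈ XL := by
    rw [hXK, hXL]; exact hcfg.comap_cent pX hpX
  have hcop : Nat.Coprime (XL.relIndex XK) (XL.relIndex XD) := by
    rw [hXK, hXL]; exact hcfg.comap_cop pX hpX
  have := Fintype.ofFinite XH
  have := Fintype.ofFinite XL
  let πH : XH →* H := π.subgroupComap H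
  have hπH : Function.Surjective πH := π.subgroupComap_surjective_of_surjective H hπ
  let πL : XL →* L := π.subgroupComap L
  have hπL : Function.Surjective πL := π.subgroupComap_surjective_of_surjective L hπ
  have hϑh : IsIrrCharacter XH (ϑ ∘ πH) := isIrr_comp_surj hϑ πH hπH
  have hα₂ : IsIrrCharacter XL (φ ∘ πL) := isIrr_comp_surj hφ πL hπL
  let lamL : XL →* ℂˣ := lam.comp (Subgroup.inclusion hLK)
  have hα₁ : IsIrrCharacter XL (homFun lamL * (φ ∘ πL)) :=
    isIrr_linear_mul (isCharacter_homFun lamL).1 (isCharacter_homFun lamL).2 hα₂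
  have hα : ∀ l : XL, (homFun lamL * (φ ∘ πL)) l =
      (φ ∘ πL) l * conj (((lam⁻¹ : hatN K ρ m →* ℂˣ) ⟨l, hLK l.2⟩ : ℂˣ) : ℂ) := by
    intro l
    have h2 := isChar_linear_mul_conj (isCharacter_homFun lam).1 (isCharacter_homFun lam).2
      ⟨l, hLK l.2⟩
    rw [homFun_apply] at h2
    have h3 : ((lam ⟨l, hLK l.2⟩ : ℂˣ) : ℂ) ≠ 0 := Units.ne_zero _
    have h4 : conj ((lam ⟨l, hLK l.2⟩ : ℂˣ) : ℂ) ≠ 0 := by simp
    have h5 : homFun lamL l = ((lam ⟨l, hLK l.2⟩ : ℂˣ) : ℂ) := rfl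
    rw [Pi.mul_apply, h5, MonoidHom.inv_apply, Units.val_inv_eq_inv_val, map_inv₀]
    field_simp
    linear_combination ((φ ∘ πL) l) * h2
  have hτL : ∀ l : XL, τ l = (b : ℂ) * (homFun lamL * (φ ∘ πL)) l := by
    intro l
    have h1 := hτN ⟨l, hLK l.2⟩
    have h2 := hηL (πL l)
    have h3 : Subgroup.inclusion hLK₀ (πL l) = hatPiN K ρ m ⟨l, hLK l.2⟩ := rfl
    have h5 : homFun lamL l = ((lam ⟨l, hLK l.2⟩ : ℂˣ) : ℂ) := rfl
    rw [h3] at h2
    rw [Pi.mul_apply, h5]
    refine h1.trans ?_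
    rw [h2]
    simp only [Function.comp_apply]
    ring
  have hϑL : ∀ l : XL, (ϑ ∘ πH) ⟨l, hLH l.2⟩ = (a : ℂ) * (φ ∘ πL) l := fun l => hϑL₀ (πL l)
  have hne : classInner (fun h : XH => τ h * β h) (ϑ ∘ πH) ≠ 0 := by
    have h1 : (fun h : XH => τ h * β h) = fun h => (fun y : H => χ y) (πH h) := by
      funext h
      exact (hfac h).symm
    rw [h1]
    have h2 := classInner_comp_surj πH hπH (fun y : H => χ y) ϑ
    have h3 : (ϑ ∘ πH) = fun x => ϑ (πH x) := rfl
    rw [h3, h2]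
    exact hχϑ
  have hdeg : τ 1 * β 1 = (XH.index : ℂ) * (ϑ ∘ πH) 1 := by
    have h1 := hfac 1
    rw [map_one] at h1
    have h2 : XH.index = H.index := Subgroup.index_comap_of_surjective H hπ
    rw [← h1, h2, Function.comp_apply, map_one, ← indFun_one, hind]
  obtain ⟨X₁, ξ, Δ, hKX₁, hX₁top, hξ, hΔ, hsum, hdeg'⟩ :=
    berger_outer XK XH XL XD hKH hLK hLH hKHL hLD hDH hDn hDL hcent hcop hτirr hτK hβ lam⁻¹ hβK
      hϑh hα₁ hα₂ hα a b hτL hϑL hne hdeg
  have hker : π.ker ≤ X₁ := by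
    refine le_trans ?_ hKX₁
    intro x hx
    show π x ∈ K
    rw [MonoidHom.mem_ker.1 hx]
    exact K.one_mem
  obtain ⟨ξG, hξG, hξGind⟩ := indFun_descent π hπ X₁ hker hχ hξ hΔ (by
      rw [← hsum]
      funext x
      exact hfac x) (by
      have : charDegree (fun x => τ x * β x) = charDegree χ := by
        have h1 := hfac 1
        rw [map_one] at h1
        unfold charDegree
        rw [h1]
      rw [← this]
      exact hdeg')
  refine ⟨X₁.map π, ξG, ?_, ?_, hξG, hξGind⟩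
  · intro k hk
    obtain ⟨x, rfl⟩ := hπ k
    exact ⟨x, hKX₁ hk, rfl⟩
  · intro htop
    apply hX₁top
    rw [← Subgroup.comap_map_eq_self hker, htop, Subgroup.comap_top]

end Cfsg.Agent.Lib.Helper79
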