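import Cfsg.Agent.Lib.Helper79.IrrMul
import Cfsg.Agent.Lib.Helper79.DegreeRatio
import Cfsg.Agent.Lib.Helper82.Constituent

set_option autoImplicit false

namespace Cfsg.Agent.Lib.Helper79

open Cfsg ComplexConjugate Cfsg.Agent.Lib.Helper19 Cfsg.Agent.Lib.Helper20 Cfsg.Agent.Lib.Helper82

/-- A summand of a multiple of an irreducible character is a multiple of it. -/
theorem IsCharacter.eq_smul_of_add_eq_smul {A : Type*} [Group A] [Fintype A] {P R θ : A → ℂ}
    (hP : IsCharacter A P) (hR : IsCharacter A R) (hθ : IsIrrCharacter A θ) (m : ℂ)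
    (h : P + R = m • θ) : ∃ m' : ℕ, P = (m' : ℂ) • θ := by
  obtain ⟨m', P', -, hP', rfl, hP'0⟩ := IsCharacter.exists_eq_smul_add hP hθ
  refine ⟨m', ?_⟩
  have h0 : P' 1 = 0 := by
    by_contra hne
    obtain ⟨ψ, hψ⟩ := exists_irr_constituent hP' hne
    have hψθ : (ψ : A → ℂ) ≠ θ := by
      intro e
      rw [e] at hψ
      exact hψ hP'0
    have h1 : classInner θ (ψ : A → ℂ) = 0 := classInner_irr_ne hθ ψ.2 hψθ.symm
    obtain ⟨n₁, hn₁⟩ := isCharacter_classInner_nat hP' ψ.2
    obtain ⟨n₂, hn₂⟩ := isCharacter_classInner_nat hR ψ.2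
    have h2 := congrArg (fun f => classInner f (ψ : A → ℂ)) h
    simp only [classInner_add_left, classInner_smul_left, h1, mul_zero, zero_add, hn₁, hn₂] at h2
    rw [hn₁] at hψ
    have h3 : n₁ ≠ 0 := by exact_mod_cast hψ
    have h4 : n₁ + n₂ = 0 := by exact_mod_cast h2
    omega
  rw [IsCharacter.eq_zero_of_one_eq_zero hP' h0, add_zero]

/-- If `Φ ∘ ι` is a multiple of the irreducible `θ`, so is `ψ ∘ ι` for each constituent `ψ`. -/
theorem comp_eq_smul_of_constituent {W A : Type*} [Group W] [Fintype W] [Group A] [Fintype A]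
    (ι : A →* W) {Φ ψ : W → ℂ} (hΦ : IsCharacter W Φ) (hψ : IsIrrCharacter W ψ)
    (h : classInner Φ ψ ≠ 0) {θ : A → ℂ} (hθ : IsIrrCharacter A θ) (m : ℂ)
    (hm : ∀ x, Φ (ι x) = m * θ x) : ∃ m' : ℕ, m' ≠ 0 ∧ ∀ x, ψ (ι x) = (m' : ℂ) * θ x := by
  obtain ⟨Δ, hΔ, rfl⟩ := exists_add_of_inner_ne_zero hΦ hψ h
  obtain ⟨m', hm'⟩ := IsCharacter.eq_smul_of_add_eq_smul
    (isCharacter_comp_hom (isCharacter_of_isIrrCharacter hψ) ι) (isCharacter_comp_hom hΔ ι) hθ m
    (funext hm)
  refine ⟨m', ?_, fun x => congrFun hm' x⟩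
  rintro rfl
  have := congrFun hm' 1
  simp only [Function.comp_apply, map_one, Nat.cast_zero, zero_smul, Pi.zero_apply] at this
  exact IsIrrCharacter.one_ne_zero hψ this

/-- Two non-orthogonal characters have a common irreducible constituent. -/
theorem exists_common_constituent {W : Type*} [Group W] [Fintype W] {A B : W → ℂ}
    (hA : IsCharacter W A) (hB : IsCharacter W B) (h : classInner A B ≠ 0) :
    ∃ ψ : W → ℂ, IsIrrCharacter W ψ ∧ classInner A ψ ≠ 0 ∧ classInner B ψ ≠ 0 := by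
  classical
  have := Cfsg.Agent.Lib.Helper20.finite_irrCharacter (G := W)
  have := Fintype.ofFinite (IrrCharacter W)
  have hexp := eq_sum_classInner_smul (isClassFunction_of_isCharacter hB)
  by_contra hno
  push Not at hno
  apply h
  rw [hexp, classInner_sum_right]
  apply Finset.sum_eq_zero
  intro β _
  rw [classInner_smul_right]
  by_cases hb : classInner A (β : W → ℂ) = 0
  · rw [hb, mul_zero]
  · rw [hno β β.2 hb, map_zero, zero_mul]

/-- Homomorphism form of `exists_irr_constituent_over`. -/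
theorem exists_irr_constituent_over_hom {Γ M : Type*} [Group Γ] [Fintype Γ] [Group M] [Fintype M]
    (ι : M →* Γ) {Ξ : Γ → ℂ} (hΞ : IsCharacter Γ Ξ) (φ : M → ℂ)
    (h : classInner (fun x : M => Ξ (ι x)) φ ≠ 0) :
    ∃ β : Γ → ℂ, IsIrrCharacter Γ β ∧ classInner Ξ β ≠ 0 ∧
      classInner (fun x : M => β (ι x)) φ ≠ 0 := by
  classical
  have := Cfsg.Agent.Lib.Helper20.finite_irrCharacter (G := Γ)
  have := Fintype.ofFinite (IrrCharacter Γ)
  have hexp := eq_sum_classInner_smul (isClassFunction_of_isCharacter hΞ)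
  by_contra hno
  push Not at hno
  apply h
  have h1 : (fun x : M => Ξ (ι x)) =
      ∑ β : IrrCharacter Γ, classInner Ξ (β : Γ → ℂ) • (fun x : M => (β : Γ → ℂ) (ι x)) := by
    funext x
    have := congrFun hexp (ι x)
    rw [this]
    simp [Finset.sum_apply]
  rw [h1, classInner_sum_left]
  apply Finset.sum_eq_zero
  intro β _
  rw [classInner_smul_left]
  by_cases hb : classInner Ξ (β : Γ → ℂ) = 0
  · rw [hb, zero_mul]
  · rw [hno β β.2 hb, mul_zero]

/-- Homomorphism form of Clifford's theorem for an invariant constituent, with the divisibility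
`e ∣ |W : ι A|`. -/
theorem comp_eq_smul_of_invariant {W A : Type*} [Group W] [Fintype W] [Group A] [Fintype A]
    (ι : A →* W) (hι : Function.Injective ι) (hn : ι.range.Normal) {χ : W → ℂ}
    (hχ : IsIrrCharacter W χ) {θ : A → ℂ} (hθ : IsIrrCharacter A θ)
    (hcon : classInner (fun x => χ (ι x)) θ ≠ 0)
    (hinv : ∀ (w : W) (x x' : A), ι x' = w * ι x * w⁻¹ → θ x' = θ x) :
    ∃ e : ℕ, e ≠ 0 ∧ (∀ x, χ (ι x) = (e : ℂ) * θ x) ∧ e ∣ ι.range.index := by
  classical
  let e₀ : A ≃* ι.range := MonoidHom.ofInjective hι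
  have he₀ : ∀ x, ((e₀ x : ι.range) : W) = ι x := fun x => rfl
  have hθ' : IsIrrCharacter ι.range (fun n => θ (e₀.symm n)) :=
    isIrr_comp_surj hθ e₀.symm.toMonoidHom e₀.symm.surjective
  have hcon' : classInner (fun n : ι.range => χ n) (fun n => θ (e₀.symm n)) ≠ 0 := by
    have := Cfsg.Agent.Lib.Helper5.classInner_comp_equiv e₀ (fun n : ι.range => χ n)
      (fun n => θ (e₀.symm n))
    rw [← this]
    have e1 : ((fun n => θ (e₀.symm n)) ∘ e₀) = θ := by
      funext x
      simp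
    rw [e1]
    exact hcon
  obtain ⟨e, he, h1, -⟩ := restrict_eq_smul_of_invariant ι.range hχ hθ' hcon' (by
    intro g n
    apply hinv g
    rw [← he₀, ← he₀, MulEquiv.apply_symm_apply, MulEquiv.apply_symm_apply])
  have h2 : ∀ n : ι.range, χ n = (e : ℂ) * θ (e₀.symm n) := fun n => congrFun h1 n
  refine ⟨e, he, ?_, dvd_index_of_restrict_eq_smul ι.range hχ hθ' e h2 he⟩
  intro x
  have := h2 (e₀ x)
  rw [MulEquiv.symm_apply_apply] at this
  exact this

/-- Homomorphism form of `dvd_index_of_restrict_eq_smul`. -/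
theorem dvd_index_of_comp_eq_smul {W A : Type*} [Group W] [Fintype W] [Group A] [Fintype A]
    (ι : A →* W) (hι : Function.Injective ι) (hn : ι.range.Normal) {χ : W → ℂ}
    (hχ : IsIrrCharacter W χ) {θ : A → ℂ} (hθ : IsIrrCharacter A θ) (e : ℕ) (he : e ≠ 0)
    (h : ∀ x, χ (ι x) = (e : ℂ) * θ x) : e ∣ ι.range.index := by
  let e₀ : A ≃* ι.range := MonoidHom.ofInjective hι
  have he₀ : ∀ x, ((e₀ x : ι.range) : W) = ι x := fun x => rfl
  have hθ' : IsIrrCharacter ι.range (fun n => θ (e₀.symm n)) :=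
    isIrr_comp_surj hθ e₀.symm.toMonoidHom e₀.symm.surjective
  refine dvd_index_of_restrict_eq_smul ι.range hχ hθ' e ?_ he
  intro n
  have := h (e₀.symm n)
  rw [← he₀, MulEquiv.apply_symm_apply] at this
  exact this

/-- **Isotypic bound.** -/
theorem degree_le_of_mul_constituent {W A : Type*} [Group W] [Fintype W] [Group A] [Fintype A]
    (ι : A →* W) {S C β₁ : W → ℂ} (hS : IsCharacter W S) (hC : IsCharacter W C)
    (hβ₁ : IsIrrCharacter W β₁) (ω : A →* ℂˣ) {α₁ α₂ : A → ℂ} (hα₂ : IsIrrCharacter A α₂)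
    (hα : ∀ l, α₁ l = α₂ l * conj (ω l : ℂ)) (x y n : ℕ)
    (hSA : ∀ l, S (ι l) = (x : ℂ) * α₁ l) (hCA : ∀ l, C (ι l) = (y : ℂ) * α₂ l)
    (hβA : ∀ l, β₁ (ι l) = (n : ℂ) * (ω l : ℂ))
    (hne : classInner (S * β₁) C ≠ 0) : n ≤ x * y := by
  have hω : IsIrrCharacter A (homFun ω) :=
    isChar_linear_isIrr (isCharacter_homFun ω).1 (isCharacter_homFun ω).2
  have hΞ : IsCharacter W ((fun w => conj (S w)) * C) := isCharacter_mul (isCharacter_conj hS) hC
  have h1 : classInner ((fun w => conj (S w)) * C) β₁ ≠ 0 := by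
    intro h0
    apply hne
    rw [← classInner_conj_symm]
    have : classInner C (S * β₁) = classInner ((fun w => conj (S w)) * C) β₁ := by
      unfold classInner
      congr 1
      apply Finset.sum_congr rfl
      intro w _
      simp only [Pi.mul_apply, map_mul]
      ring
    rw [this, h0, map_zero]
  obtain ⟨Δ, hΔ, e⟩ := exists_add_of_inner_ne_zero hΞ hβ₁ h1
  obtain ⟨k, hk⟩ := isCharacter_classInner_nat (isCharacter_comp_hom hΔ ι) hω
  have h2 : classInner (((fun w => conj (S w)) * C) ∘ ι) (homFun ω) = (x * y : ℕ) := by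
    have : classInner (((fun w => conj (S w)) * C) ∘ ι) (homFun ω) =
        ((x * y : ℕ) : ℂ) * classInner α₂ α₂ := by
      unfold classInner
      rw [mul_left_comm]
      congr 1
      rw [Finset.mul_sum]
      apply Finset.sum_congr rfl
      intro l _
      have hu := isChar_linear_mul_conj (isCharacter_homFun ω).1 (isCharacter_homFun ω).2 l
      simp only [homFun_apply] at hu
      simp only [Function.comp_apply, Pi.mul_apply, hSA, hCA, hα, map_mul, map_natCast,
        Complex.conj_conj, homFun_apply]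
      push_cast
      linear_combination ((x : ℂ) * y * conj (α₂ l) * α₂ l) * hu
    rw [this, classInner_irr_self hα₂, mul_one]
  have h3 : classInner (β₁ ∘ ι) (homFun ω) = n := by
    have : β₁ ∘ ι = (n : ℂ) • homFun ω := funext hβA
    rw [this, classInner_smul_left, classInner_irr_self hω, mul_one]
  have h4 : ((fun w => conj (S w)) * C) ∘ ι = β₁ ∘ ι + Δ ∘ ι := by
    rw [e]
    rfl
  rw [h4, classInner_add_left, h3, hk] at h2
  have : n + k = x * y := by exact_mod_cast h2
  omega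

end Cfsg.Agent.Lib.Helper79
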