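import Cfsg.Agent.Lib.Helper83.AbInertia
import Cfsg.Agent.Lib.Helper80.PSolv
import Cfsg.Agent.Lib.Helper79.BergerOuter
import Cfsg.Agent.S0887
import Cfsg.Agent.Lib.Helper77.GlaubCore
import Cfsg.Agent.Lib.Helper14.Cores

set_option autoImplicit false

namespace Cfsg.Agent.Lib.Helper79

open Cfsg ComplexConjugate Cfsg.Agent.Lib.Helper19 Cfsg.Agent.Lib.Helper20 Cfsg.Agent.Lib.Helper82

/-- Over an invariant character of a normal subgroup with abelian quotient of coprime order, all
characters are extensions. -/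
theorem degree_eq_of_abelian_coprime {Y : Type*} [Group Y] [Fintype Y] (H : Subgroup Y)
    [hH : H.Normal] [Fintype H] {θ : H → ℂ} (hθ : IsIrrCharacter H θ)
    (hinv : ∀ (g : Y) (h : H), θ ⟨g * h * g⁻¹, hH.conj_mem h h.2 g⟩ = θ h)
    (hab : ∀ x y : Y, x * y * x⁻¹ * y⁻¹ ∈ H) (hcop : Nat.Coprime (Nat.card H) H.index)
    {ϑ : Y → ℂ} (hϑ : IsIrrCharacter Y ϑ) (hcon : classInner (fun h : H => ϑ h) θ ≠ 0) :
    ϑ 1 = θ 1 := by
  classical
  obtain ⟨e, C, he, hC, -, hind, hdeg, -, hcop'⟩ :=
    Cfsg.Agent.Lib.Helper83.ind_abelian_inertia H ⊤ θ hθ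
      (fun g => ⟨fun _ h => hinv g h, fun _ => Subgroup.mem_top g⟩) (fun x _ y _ => hab x y)
  have he1 : e = 1 := hcop' (by rwa [Subgroup.relIndex_top_right])
  subst he1
  have h1 := inner_indFun_ne_zero H (isCharacter_of_isIrrCharacter hϑ) hcon
  rw [hind, Nat.cast_one, one_smul, classInner_sum_left] at h1
  obtain ⟨χ, hχC, hχ⟩ := Finset.exists_ne_zero_of_sum_ne_zero h1
  have := eq_of_irr_of_inner_ne_zero (hC χ hχC) hϑ hχ
  rw [← this, hdeg χ hχC]
  simp

/-- The group-theoretic part of Fong's height bound. -/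
theorem index_centralizer_pCore_bound {G : Type*} [Group G] [Finite G] (p : ℕ) [hp : Fact p.Prime]
    (N : Subgroup G) [hN : N.Normal] (hNp : (Nat.card N).Coprime p) (P : Sylow p G) :
    ((Subgroup.centralizer (pCore p (G ⧸ N) : Set (G ⧸ N))).index).factorization p ≤
      ((Subgroup.center (P : Subgroup G)).index).factorization p := by
  set q := QuotientGroup.mk' N with hq
  have hqs : Function.Surjective q := QuotientGroup.mk'_surjective N
  set Zb := Subgroup.centralizer (pCore p (G ⧸ N) : Set (G ⧸ N)) with hZb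
  have hdisj : (P : Subgroup G) ⊓ N = ⊥ := by
    apply Disjoint.eq_bot
    apply Subgroup.disjoint_of_coprime_natCard
    rw [P.card_eq_multiplicity]
    exact (Nat.Coprime.pow_right _ hNp).symm
  have hland : ∀ z : Subgroup.center (P : Subgroup G), q ((z : (P : Subgroup G)) : G) ∈ Zb := by
    intro z
    rw [hZb, Subgroup.mem_centralizer_iff]
    intro x hx
    have hx' : x ∈ ((P.mapSurjective hqs : Sylow p (G ⧸ N)) : Subgroup (G ⧸ N)) :=
      Cfsg.Agent.Lib.Helper14.pCore_le_sylow _ hx
    rw [Sylow.coe_mapSurjective] at hx'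
    obtain ⟨y, hy, rfl⟩ := hx'
    have h1 := (Subgroup.mem_center_iff.1 z.2) ⟨y, hy⟩
    have h2 : y * ((z : (P : Subgroup G)) : G) = ((z : (P : Subgroup G)) : G) * y :=
      congrArg Subtype.val h1
    rw [← map_mul, ← map_mul, h2]
  let f : Subgroup.center (P : Subgroup G) →* Zb :=
    (q.comp ((P : Subgroup G).subtype.comp (Subgroup.center (P : Subgroup G)).subtype)).codRestrict
      Zb hland
  have hf : Function.Injective f := by
    rw [injective_iff_map_eq_one]
    intro z hz
    have h1 : q ((z : (P : Subgroup G)) : G) = 1 := congrArg Subtype.val hz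
    have h2 : ((z : (P : Subgroup G)) : G) ∈ N := (QuotientGroup.eq_one_iff _).1 h1
    have h3 : ((z : (P : Subgroup G)) : G) ∈ (P : Subgroup G) ⊓ N := ⟨(z : (P : Subgroup G)).2, h2⟩
    rw [hdisj, Subgroup.mem_bot] at h3
    exact Subtype.ext (Subtype.ext h3)
  have hdvd : Nat.card (Subgroup.center (P : Subgroup G)) ∣ Nat.card Zb :=
    Subgroup.card_dvd_of_injective f hf
  -- arithmetic
  have e1 : Nat.card Zb * Zb.index = Nat.card (G ⧸ N) := Zb.card_mul_index
  have e2 : Nat.card N * Nat.card (G ⧸ N) = Nat.card G := by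
    rw [← N.card_mul_index]; rfl
  have e3 : Nat.card (Subgroup.center (P : Subgroup G)) *
      (Subgroup.center (P : Subgroup G)).index = Nat.card (P : Subgroup G) :=
    (Subgroup.center (P : Subgroup G)).card_mul_index
  have e4 := P.card_eq_multiplicity
  have hpos : ∀ {α : Type _} [Finite α] [Nonempty α], Nat.card α ≠ 0 := fun {α} _ _ =>
    Nat.card_pos.ne'
  have hZi : Zb.index ≠ 0 := Subgroup.index_ne_zero_of_finite
  have hCi : (Subgroup.center (P : Subgroup G)).index ≠ 0 := Subgroup.index_ne_zero_of_finite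
  have f1 := congrArg (fun n => n.factorization p) e1
  have f2 := congrArg (fun n => n.factorization p) e2
  have f3 := congrArg (fun n => n.factorization p) e3
  simp only [Nat.factorization_mul hpos hZi, Nat.factorization_mul hpos hpos,
    Nat.factorization_mul hpos hCi, Finsupp.add_apply] at f1 f2 f3
  have f4 : (Nat.card N).factorization p = 0 :=
    Nat.factorization_eq_zero_of_not_dvd (fun h => hp.out.ne_one
      (Nat.Coprime.eq_one_of_dvd hNp.symm h))
  have f5 : (Nat.card (P : Subgroup G)).factorization p = (Nat.card G).factorization p := by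
    rw [e4, Nat.factorization_pow, hp.out.factorization]
    simp
  have f6 : (Nat.card (Subgroup.center (P : Subgroup G))).factorization p ≤
      (Nat.card Zb).factorization p :=
    (Nat.factorization_le_iff_dvd hpos hpos).2 hdvd p
  omega

set_option maxHeartbeats 800000 in
/-- **Fong's degree bound**: `G` `p`-solvable, `θ ∈ Irr(O_{p'}(G))` invariant, `χ` over `θ`. -/
theorem fong_degree_bound {G : Type*} [Group G] [Fintype G] (p : ℕ) [hp : Fact p.Prime]
    (hsolv : IsPSolvable p G) (N : Subgroup G) [hN : N.Normal] [Fintype N]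
    (hNdef : N = pPrimeCore p G) {θ : N → ℂ} (hθ : IsIrrCharacter N θ)
    (hinv : ∀ (g : G) (n : N), θ ⟨g * n * g⁻¹, hN.conj_mem n n.2 g⟩ = θ n)
    {χ : G → ℂ} (hχ : IsIrrCharacter G χ) (hcon : classInner (fun n : N => χ n) θ ≠ 0)
    (P : Sylow p G) :
    (charDegree χ).factorization p ≤
      ((Subgroup.center (P : Subgroup G)).index).factorization p := by
  classical
  have hχc := isCharacter_of_isIrrCharacter hχ
  have hNp : (Nat.card N).Coprime p := by
    rw [hNdef]; exact (Cfsg.Agent.Lib.Helper80.pPrimeCore_spec p).2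
  refine le_trans ?_ (index_centralizer_pCore_bound p N hNp P)
  set q := QuotientGroup.mk' N with hq
  have hqs : Function.Surjective q := QuotientGroup.mk'_surjective N
  have hker : q.ker = N := QuotientGroup.ker_mk' N
  have hsolvQ : IsPSolvable p (G ⧸ N) :=
    Cfsg.Agent.Lib.Helper80.isPSolvable_of_surjective hp.out q hqs hsolv
  have hcore : pPrimeCore p (G ⧸ N) = ⊥ := by
    subst hNdef
    exact Cfsg.Agent.Lib.Helper80.pPrimeCore_quotient_eq_bot
  have hHH := Cfsg.Agent.Lib.Helper80.centralizer_pCore_le hsolvQ hcore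
  have hQn : (pCore p (G ⧸ N)).Normal := (Cfsg.Agent.Lib.Helper80.pCore_spec p).1
  have hQp : IsPGroup p (pCore p (G ⧸ N)) := (Cfsg.Agent.Lib.Helper80.pCore_spec p).2
  set Zb := Subgroup.centralizer (pCore p (G ⧸ N) : Set (G ⧸ N)) with hZb
  have hZn : Zb.Normal := by rw [hZb]; infer_instance
  have hZp : IsPGroup p Zb := hQp.to_le hHH
  let M : Subgroup G := Zb.comap q
  have hMn : M.Normal := hZn.comap q
  have hNM : N ≤ M := le_trans (le_of_eq hker.symm) (MonoidHom.ker_le_comap q Zb)
  have hMidx : M.index = Zb.index := Subgroup.index_comap_of_surjective Zb hqs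
  rw [← hMidx]
  -- a constituent on `M`
  have hχM : IsCharacter M (fun m : M => χ m) := isCharacter_restrict hχc M
  obtain ⟨ϑ, hϑ⟩ := exists_irr_constituent hχM (IsIrrCharacter.one_ne_zero hχ)
  obtain ⟨e, he, h1, -⟩ := restrict_eq_smul_of_invariant N hχ hθ hcon hinv
  obtain ⟨m', hm', hϑN⟩ := comp_eq_smul_of_constituent (Subgroup.inclusion hNM) hχM ϑ.2 hϑ hθ e
    (fun n => congrFun h1 n)
  let H : Subgroup M := N.subgroupOf M
  have hHn : H.Normal := inferInstance
  let eN : H ≃* N := Subgroup.subgroupOfEquivOfLe hNM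
  have hθ' : IsIrrCharacter H (θ ∘ eN) := isIrr_comp_surj hθ eN.toMonoidHom eN.surjective
  have hrel : N.relIndex M = Nat.card Zb := by
    have := Subgroup.relIndex_ker q (K := M)
    rw [hker, Subgroup.map_comap_eq_self_of_surjective hqs] at this
    exact this
  have hdeg : (ϑ : M → ℂ) 1 = θ 1 := by
    have := degree_eq_of_abelian_coprime H hθ' (by
        intro g h
        exact hinv (g : G) (eN h)) (by
        intro x y
        show ((x * y * x⁻¹ * y⁻¹ : M) : G) ∈ N
        rw [← QuotientGroup.eq_one_iff]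
        have hx : q x ∈ Zb := x.2
        have hy : q y ∈ Zb := y.2
        have hc := (Subgroup.mem_centralizer_iff.1 hx) (q y) (hHH hy)
        show q ((x * y * x⁻¹ * y⁻¹ : M) : G) = 1
        simp only [Subgroup.coe_mul, Subgroup.coe_inv, map_mul, map_inv]
        rw [← hc]
        group) (by
        have c1 : Nat.card H = Nat.card N := Nat.card_congr eN.toEquiv
        have c2 : H.index = N.relIndex M := rfl
        obtain ⟨k, hk⟩ := IsPGroup.iff_card.1 hZp
        rw [c1, c2, hrel, hk]
        exact Nat.Coprime.pow_right _ hNp) ϑ.2 (by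
        have : (fun h : H => (ϑ : M → ℂ) h) = (m' : ℂ) • (θ ∘ eN) := by
          funext h
          exact hϑN (eN h)
        rw [this, classInner_smul_left, classInner_irr_self hθ', mul_one]
        exact_mod_cast hm')
    rw [this]
    simp
  obtain ⟨d, hd, hdN, hdpos⟩ := Cfsg.Agent.Lib.Helper77.irr_degree_dvd hθ
  have hS := Cfsg.Agent.S0887.result M χ hχ ϑ ϑ.2 hϑ (charDegree χ) d (isChar_one_eq hχc)
    (by rw [hdeg, hd])
  obtain ⟨k, hk⟩ := hS.1
  have hkd : charDegree χ / d = k := by rw [hk, Nat.mul_div_cancel_left _ hdpos]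
  have hk0 : k ≠ 0 := by
    rintro rfl
    rw [mul_zero] at hk
    exact (isIrr_charDegree_pos hχ).ne' hk
  have hdp : d.factorization p = 0 := by
    apply Nat.factorization_eq_zero_of_not_dvd
    intro h
    exact hp.out.ne_one (Nat.Coprime.eq_one_of_dvd hNp.symm (h.trans hdN))
  rw [hk, Nat.factorization_mul hdpos.ne' hk0, Finsupp.add_apply, hdp, zero_add]
  have h2 := hS.2
  rw [hkd] at h2
  exact (Nat.factorization_le_iff_dvd hk0 Subgroup.index_ne_zero_of_finite).2 h2 p

end Cfsg.Agent.Lib.Helper79
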