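import Cfsg.Agent.Lib.Helper79.FongHeight
import Cfsg.Agent.Lib.Helper73.PSolvSub
import Cfsg.Agent.Lib.Helper21.StabDefect
import Cfsg.Agent.Lib.Helper21.QuotDefect
import Cfsg.Agent.Lib.Helper29.PConstr3
import Cfsg.Agent.S4435
import Cfsg.Agent.S4436
import Cfsg.Agent.S4492

set_option autoImplicit false

namespace Cfsg.Agent.Lib.Helper79

open Cfsg ComplexConjugate Cfsg.Agent.Lib.Helper19 Cfsg.Agent.Lib.Helper20 Cfsg.Agent.Lib.Helper82

theorem index_center_congr {A A' : Type*} [Group A] [Group A'] [Finite A] (e : A ≃* A') :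
    (Subgroup.center A).index = (Subgroup.center A').index := by
  have : Finite A' := Finite.of_equiv A e.toEquiv
  have h1 := (Subgroup.center A).card_mul_index
  have h2 := (Subgroup.center A').card_mul_index
  have h3 : Nat.card A = Nat.card A' := Nat.card_congr e.toEquiv
  have h4 : Nat.card (Subgroup.center A) = Nat.card (Subgroup.center A') :=
    Nat.card_congr (Subgroup.centerCongr e).toEquiv
  rw [h3, ← h2, h4] at h1
  exact Nat.eq_of_mul_eq_mul_left Nat.card_pos h1

universe u

set_option maxHeartbeats 1000000 in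
theorem fong_height_aux (p : ℕ) [hp : Fact p.Prime] (M : Ideal AlgInt) (hM : IsPModular p M) :
    ∀ (n : ℕ) (G : Type u) [Group G] [Finite G], Nat.card G = n → IsPSolvable p G →
      ∀ (B : Set (IrrCharacter G)), IsPBlock M B → ∀ P : Subgroup G, IsDefectGroup p M B P →
      ∀ χ : IrrCharacter G, χ ∈ B →
        blockHeight p B (χ : G → ℂ) ≤ ((Subgroup.center P).index).factorization p := by
  intro n
  induction n using Nat.strong_induction_on with
  | _ n ih =>
    intro G _ _ hn hsolv B hB P hP χ hχ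
    classical
    have := Fintype.ofFinite G
    have hχc := isCharacter_of_isIrrCharacter χ.2
    set N : Subgroup G := pPrimeCore p G with hNdef
    have hN : N.Normal := (Cfsg.Agent.Lib.Helper80.pPrimeCore_spec p).1
    have hNp : (Nat.card N).Coprime p := (Cfsg.Agent.Lib.Helper80.pPrimeCore_spec p).2
    obtain ⟨θ, hθ⟩ := exists_irr_constituent (isCharacter_restrict hχc N)
      (IsIrrCharacter.one_ne_zero χ.2)
    have hb : IsPBlock M ({θ} : Set (IrrCharacter N)) :=
      Cfsg.Agent.Lib.Helper29.Kn.isPBlock_singleton_of_coprime hM hNp θ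
    let T : Subgroup G := Cfsg.Agent.Lib.Helper5.inertia hN (θ : N → ℂ)
    have hTmem : ∀ g : G, g ∈ T ↔ ∀ n : N, (θ : N → ℂ) ⟨g * n * g⁻¹, hN.conj_mem (n : G) n.2 g⟩ =
        (θ : N → ℂ) n := fun g => Cfsg.Agent.Lib.Helper5.mem_inertia' hN _ g
    have hNT : N ≤ T := Cfsg.Agent.Lib.Helper5.le_inertia hN
      (isClassFunction_of_isCharacter (isCharacter_of_isIrrCharacter θ.2))
    have hT : ∀ g : G, g ∈ T ↔ ∀ θ₁ ∈ ({θ} : Set (IrrCharacter N)), ∀ θ' : IrrCharacter N,
        (∀ n : N, (θ' : N → ℂ) n = (θ₁ : N → ℂ) ⟨g * n * g⁻¹, hN.conj_mem n n.2 g⟩) →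
        θ' ∈ ({θ} : Set (IrrCharacter N)) := by
      intro g
      constructor
      · intro hg θ₁ hθ₁ θ' hθ'
        rw [Set.mem_singleton_iff] at hθ₁ ⊢
        subst hθ₁
        apply Subtype.ext
        funext n
        rw [hθ' n, (hTmem g).1 hg n]
      · intro h
        rw [hTmem]
        let θg : IrrCharacter N := ⟨fun n => (θ : N → ℂ) ⟨g * n * g⁻¹, hN.conj_mem n n.2 g⟩,
          isIrr_comp_surj θ.2 (MulAut.conjNormal g : MulAut N).toMonoidHom
            (MulAut.conjNormal g : MulAut N).surjective⟩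
        have := h θ rfl θg (fun n => rfl)
        rw [Set.mem_singleton_iff] at this
        intro n
        exact congrFun (congrArg Subtype.val this) n
    by_cases hTtop : T = ⊤
    · -- the invariant case
      have hinv : ∀ (g : G) (n : N), (θ : N → ℂ) ⟨g * n * g⁻¹, hN.conj_mem n n.2 g⟩ =
          (θ : N → ℂ) n := fun g => (hTmem g).1 (by rw [hTtop]; exact Subgroup.mem_top g)
      obtain ⟨B₁, hB₁, hB₁mem, -, hB₁def⟩ := Cfsg.Agent.S4492.result p M hM hsolv N hNdef θ hinv
      have hχB₁ : χ ∈ B₁ := (hB₁mem χ).2 hθ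
      have hBB : B = B₁ := by
        rw [Cfsg.Agent.Lib.Helper81.isPBlock_eq_blockOf hM hB hχ,
          Cfsg.Agent.Lib.Helper81.isPBlock_eq_blockOf hM hB₁ hχB₁]
      subst hBB
      obtain ⟨S, rfl⟩ := hB₁def P hP
      exact le_trans (Nat.sub_le _ _) (fong_degree_bound p hsolv N hNdef θ.2 hinv χ.2 hθ S)
    · -- Fong–Reynolds reduction
      obtain ⟨h1, -, h3⟩ := Cfsg.Agent.S4435.result p M hM N {θ} hb T hT hNT
      obtain ⟨B', hB', hcov, hind⟩ := h3 B hB ⟨χ, hχ, θ, rfl, hθ⟩
      obtain ⟨B₂, hind₂, -, -, hmem⟩ := h1 B' hB' hcov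
      have hBB : B₂ = B := Cfsg.Agent.Lib.Helper21.isInducedBlock_unique hM hind₂ hind
      subst hBB
      obtain ⟨ψ, hψ, hχψ⟩ := (hmem χ).1 hχ
      obtain ⟨hdef, hht⟩ := Cfsg.Agent.S4436.result p M hM N {θ} hb T hT hNT B' hB' hcov B₂ hind
      obtain ⟨χ', -, hχ', hheight⟩ := hht ψ hψ
      obtain ⟨D, hD⟩ := Cfsg.Agent.Lib.Helper21.exists_isDefectGroup hM B' hB'
      obtain ⟨x, hx⟩ := Cfsg.Agent.Lib.Helper21.isDefectGroup_exists_conj hM B₂ hB (hdef D hD) hP
      have hlt : Nat.card T < n := by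
        rw [← hn]
        have h5 := T.card_mul_index
        have h6 : T.index ≠ 1 := fun h => hTtop (Subgroup.index_eq_one.1 h)
        have h7 : T.index ≠ 0 := Subgroup.index_ne_zero_of_finite
        have h8 : 0 < Nat.card T := Nat.card_pos
        nlinarith [Nat.two_le_iff T.index |>.2 ⟨h7, h6⟩]
      have hIH := ih _ hlt T rfl (Cfsg.Agent.Lib.Helper73.isPSolvable_subgroup hsolv T) B' hB' D hD
        ψ hψ
      let e1 : D ≃* D.map T.subtype := D.equivMapOfInjective T.subtype T.subtype_injective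
      let e2 : D.map T.subtype ≃* (D.map T.subtype).map (MulAut.conj x).toMonoidHom :=
        (D.map T.subtype).equivMapOfInjective _ (MulAut.conj x).injective
      let e3 : (D.map T.subtype).map (MulAut.conj x).toMonoidHom ≃* P := MulEquiv.subgroupCongr hx
      rw [← index_center_congr ((e1.trans e2).trans e3), hχψ, ← hχ', hheight]
      exact hIH

end Cfsg.Agent.Lib.Helper79
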