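import Mathlib

/-!
# Heisenberg-type decomposition of an algebra

`E` a `K`-algebra, `A` a finite group, `R : A → Eˣ` a "projective representation" whose commutators are
scalars `c a b`, nondegenerate.  Then `E = ⨁_b Ecomp b`, all components have the same dimension.
-/

set_option autoImplicit false

namespace Cfsg.Agent.Lib.Helper79.Heis

open Module

variable {K E A : Type*} [Field K] [Ring E] [Algebra K E] [Nontrivial E] [Group A]

/-- Heisenberg data. -/
structure Data (R : A → Eˣ) (c : A → A → K) : Prop where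
  comm : ∀ a b, (R a : E) * R b = c a b • ((R b : E) * R a)
  mul : ∀ a b, ∃ f : K, (R (a * b) : E) = f • ((R a : E) * R b)
  nondeg : ∀ a, (∀ b, c a b = 1) → a = 1

omit [Group A] in
theorem smul_unit_inj (u : Eˣ) {x y : K} (h : x • (u : E) = y • (u : E)) : x = y := by
  have h1 : (x - y) • (u : E) = 0 := by rw [sub_smul, h, sub_self]
  have h2 : (x - y) • (1 : E) = 0 := by
    have := congrArg (fun t => t * (↑u⁻¹ : E)) h1
    simpa [smul_mul_assoc] using this
  by_contra hne
  have h3 : x - y ≠ 0 := sub_ne_zero.mpr hne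
  have h4 : (1 : E) = 0 := by
    have := congrArg (fun t => (x - y)⁻¹ • t) h2
    simpa [smul_smul, inv_mul_cancel₀ h3] using this
  exact one_ne_zero h4

variable {R : A → Eˣ} {c : A → A → K}

namespace Data

theorem c_ne_zero (D : Data R c) (a b : A) : c a b ≠ 0 := by
  intro h
  have h1 := D.comm a b
  rw [h, zero_smul] at h1
  have : ((R a * R b : Eˣ) : E) = 0 := by simpa using h1
  exact (R a * R b).ne_zero this

theorem c_mul_left (D : Data R c) (a a' b : A) : c (a * a') b = c a b * c a' b := by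
  obtain ⟨f, hf⟩ := D.mul a a'
  have h1 : (R (a * a') : E) * R b = (c a b * c a' b) • ((R b : E) * R (a * a')) := by
    rw [hf]
    calc f • ((R a : E) * R a') * R b = f • ((R a : E) * ((R a' : E) * R b)) := by
          rw [smul_mul_assoc, mul_assoc]
      _ = f • ((R a : E) * (c a' b • ((R b : E) * R a'))) := by rw [D.comm a' b]
      _ = (f * c a' b) • (((R a : E) * R b) * R a') := by
          rw [mul_smul_comm, smul_smul, mul_assoc]
      _ = (f * c a' b) • ((c a b • ((R b : E) * R a)) * R a') := by rw [D.comm a b]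
      _ = (c a b * c a' b) • ((R b : E) * f • ((R a : E) * R a')) := by
          rw [smul_mul_assoc, smul_smul, mul_smul_comm, smul_smul]
          congr 1
          · ring
          · rw [mul_assoc]
  have h2 := D.comm (a * a') b
  rw [h1] at h2
  exact (smul_unit_inj (R b * R (a * a')) (by simpa using h2)).symm

theorem c_symm (D : Data R c) (a b : A) : c a b * c b a = 1 := by
  have h1 := D.comm a b
  rw [D.comm b a, smul_smul] at h1
  have h2 : (1 : K) • ((R a * R b : Eˣ) : E) = (c a b * c b a) • ((R a * R b : Eˣ) : E) := by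
    simpa using h1
  exact (smul_unit_inj _ h2).symm

theorem c_mul_right (D : Data R c) (a b b' : A) : c a (b * b') = c a b * c a b' := by
  have h1 := D.c_symm a (b * b')
  have h2 := D.c_symm a b
  have h3 := D.c_symm a b'
  rw [D.c_mul_left] at h1
  have hb := D.c_ne_zero b a
  have hb' := D.c_ne_zero b' a
  have : c a (b * b') * (c b a * c b' a) = (c a b * c a b') * (c b a * c b' a) := by
    rw [h1]
    calc (1 : K) = (c a b * c b a) * (c a b' * c b' a) := by rw [h2, h3, one_mul]
      _ = _ := by ring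
  exact mul_right_cancel₀ (mul_ne_zero hb hb') this

theorem c_one_left (D : Data R c) (b : A) : c 1 b = 1 := by
  have h := D.c_mul_left 1 1 b
  rw [one_mul] at h
  have h0 := D.c_ne_zero 1 b
  field_simp at h
  exact h.symm

theorem c_one_right (D : Data R c) (a : A) : c a 1 = 1 := by
  have h := D.c_mul_right a 1 1
  rw [one_mul] at h
  have h0 := D.c_ne_zero a 1
  field_simp at h
  exact h.symm

theorem c_inv_left (D : Data R c) (a b : A) : c a⁻¹ b = (c a b)⁻¹ := by
  have h := D.c_mul_left a⁻¹ a b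
  rw [inv_mul_cancel, D.c_one_left] at h
  exact eq_inv_of_mul_eq_one_left h.symm

theorem c_inv_right (D : Data R c) (a b : A) : c a b⁻¹ = (c a b)⁻¹ := by
  have h := D.c_mul_right a b⁻¹ b
  rw [inv_mul_cancel, D.c_one_right] at h
  exact eq_inv_of_mul_eq_one_left h.symm

theorem nondeg' (D : Data R c) (b : A) (h : ∀ a, c a b = 1) : b = 1 := by
  apply D.nondeg
  intro a
  have := D.c_symm b a
  rw [h a, mul_one] at this
  exact this

theorem sum_c_left [Fintype A] (D : Data R c) {b : A} (hb : b ≠ 1) : ∑ a, c a b = 0 := by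
  obtain ⟨a0, ha0⟩ : ∃ a0, c a0 b ≠ 1 := by
    by_contra h
    push Not at h
    exact hb (D.nondeg' b h)
  have h1 : ∑ a, c a b = c a0 b * ∑ a, c a b := by
    rw [Finset.mul_sum]
    rw [← Fintype.sum_equiv (Equiv.mulLeft a0) (fun a => c (a0 * a) b) (fun a => c a b) (fun a => rfl)]
    exact Finset.sum_congr rfl (fun a _ => D.c_mul_left a0 a b)
  have h2 : (1 - c a0 b) * ∑ a, c a b = 0 := by
    rw [sub_mul, one_mul, ← h1, sub_self]
  rcases mul_eq_zero.mp h2 with h | h
  · exact absurd (sub_eq_zero.mp h).symm ha0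
  · exact h

theorem sum_c_right [Fintype A] (D : Data R c) {a : A} (ha : a ≠ 1) : ∑ b, c a b = 0 := by
  obtain ⟨b0, hb0⟩ : ∃ b0, c a b0 ≠ 1 := by
    by_contra h
    push Not at h
    exact ha (D.nondeg a h)
  have h1 : ∑ b, c a b = c a b0 * ∑ b, c a b := by
    rw [Finset.mul_sum]
    rw [← Fintype.sum_equiv (Equiv.mulLeft b0) (fun b => c a (b0 * b)) (fun b => c a b) (fun b => rfl)]
    exact Finset.sum_congr rfl (fun b _ => D.c_mul_right a b0 b)
  have h2 : (1 - c a b0) * ∑ b, c a b = 0 := by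
    rw [sub_mul, one_mul, ← h1, sub_self]
  rcases mul_eq_zero.mp h2 with h | h
  · exact absurd (sub_eq_zero.mp h).symm hb0
  · exact h

end Data

/-- conjugation by `R a` as a linear map. -/
def conjR (K : Type*) {E : Type*} [Field K] [Ring E] [Algebra K E] (u : Eˣ) : E →ₗ[K] E where
  toFun S := u * S * (↑u⁻¹ : E)
  map_add' x y := by simp [mul_add, add_mul]
  map_smul' r x := by simp [mul_smul_comm, smul_mul_assoc]

omit [Nontrivial E] in
@[simp] theorem conjR_apply (u : Eˣ) (S : E) : conjR K u S = u * S * (↑u⁻¹ : E) := rfl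

omit [Nontrivial E] in
theorem conjR_mul_unit (u : Eˣ) (S : E) : conjR K u S * u = u * S := by
  simp [mul_assoc]

omit [Nontrivial E] in
theorem eq_conjR_of_mul (u : Eˣ) (S X : E) (h : X * u = u * S) : X = conjR K u S := by
  rw [conjR_apply, ← h, mul_assoc, Units.mul_inv, mul_one]

namespace Data

theorem conjR_mul (D : Data R c) (a a' : A) (S : E) :
    conjR K (R (a * a')) S = conjR K (R a) (conjR K (R a') S) := by
  symm
  apply eq_conjR_of_mul
  obtain ⟨f, hf⟩ := D.mul a a'
  rw [hf, mul_smul_comm, smul_mul_assoc]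
  congr 1
  simp only [conjR_apply]
  simp [mul_assoc]

theorem R_one (D : Data R c) : ∃ f : K, (R 1 : E) = f • 1 := by
  obtain ⟨f, hf⟩ := D.mul 1 1
  rw [one_mul] at hf
  have h1 : (1 : E) = f • (R 1 : E) := by
    have := congrArg (fun t => t * (↑(R 1)⁻¹ : E)) hf
    simpa [smul_mul_assoc, mul_assoc] using this
  have hf0 : f ≠ 0 := by
    rintro rfl
    rw [zero_smul] at h1
    exact one_ne_zero h1
  refine ⟨f⁻¹, ?_⟩
  rw [h1, smul_smul, inv_mul_cancel₀ hf0, one_smul]

theorem conjR_one (D : Data R c) (S : E) : conjR K (R 1) S = S := by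
  symm
  apply eq_conjR_of_mul
  obtain ⟨f, hf⟩ := D.R_one
  rw [hf]; simp

end Data

/-- The `b`-component. -/
def Ecomp (R : A → Eˣ) (c : A → A → K) (b : A) : Submodule K E where
  carrier := {S | ∀ a, (R a : E) * S = c a b • (S * R a)}
  add_mem' := by
    intro x y hx hy a
    simp only [Set.mem_ofPred_eq] at hx hy ⊢
    rw [mul_add, hx a, hy a, add_mul, smul_add]
  zero_mem' := by intro a; simp
  smul_mem' := by
    intro r x hx a
    simp only [Set.mem_ofPred_eq] at hx ⊢
    rw [mul_smul_comm, hx a, smul_mul_assoc, smul_comm]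

omit [Nontrivial E] [Group A] in
theorem mem_Ecomp {b : A} {S : E} : S ∈ Ecomp R c b ↔ ∀ a, (R a : E) * S = c a b • (S * R a) := Iff.rfl

omit [Nontrivial E] [Group A] in
theorem conjR_of_mem {b : A} {S : E} (h : S ∈ Ecomp R c b) (a : A) : conjR K (R a) S = c a b • S := by
  symm
  apply eq_conjR_of_mul
  rw [h a, smul_mul_assoc]

/-- The projection on the `b`-component. -/
noncomputable def Pr [Fintype A] (R : A → Eˣ) (c : A → A → K) (b : A) : E →ₗ[K] E :=
  ((Fintype.card A : K)⁻¹) • ∑ a, (c a b)⁻¹ • conjR K (R a)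

omit [Nontrivial E] [Group A] in
theorem Pr_apply [Fintype A] (b : A) (S : E) :
    Pr R c b S = ((Fintype.card A : K)⁻¹) • ∑ a, (c a b)⁻¹ • conjR K (R a) S := by
  simp [Pr, LinearMap.sum_apply]

namespace Data

theorem Pr_mem [Fintype A] (D : Data R c) (b : A) (S : E) : Pr R c b S ∈ Ecomp R c b := by
  intro z
  rw [Pr_apply, mul_smul_comm, smul_mul_assoc, smul_comm (c z b)]
  congr 1
  rw [Finset.mul_sum, Finset.sum_mul, Finset.smul_sum]
  rw [← Fintype.sum_equiv (Equiv.mulLeft z)
    (fun a => c z b • ((c (z * a) b)⁻¹ • conjR K (R (z * a)) S * (R z : E)))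
    (fun a => c z b • ((c a b)⁻¹ • conjR K (R a) S * (R z : E))) (fun a => rfl)]
  refine Finset.sum_congr rfl (fun a _ => ?_)
  rw [D.conjR_mul, smul_mul_assoc, conjR_mul_unit, mul_smul_comm, smul_smul, D.c_mul_left]
  congr 1
  have h1 := D.c_ne_zero z b
  have h2 := D.c_ne_zero a b
  field_simp

theorem Pr_of_mem [Fintype A] [DecidableEq A] (D : Data R c) (hN : (Fintype.card A : K) ≠ 0)
    {b b' : A} {S : E} (h : S ∈ Ecomp R c b') : Pr R c b S = if b = b' then S else 0 := by
  rw [Pr_apply]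
  have h1 : ∀ a, (c a b)⁻¹ • conjR K (R a) S = c a (b⁻¹ * b') • S := by
    intro a
    rw [conjR_of_mem h, smul_smul, D.c_mul_right, D.c_inv_right]
  simp_rw [h1]
  rw [← Finset.sum_smul]
  split_ifs with hb
  · subst hb
    simp only [inv_mul_cancel, D.c_one_right, Finset.sum_const, Finset.card_univ, nsmul_eq_mul, mul_one]
    rw [smul_smul, inv_mul_cancel₀ hN, one_smul]
  · rw [D.sum_c_left, zero_smul, smul_zero]
    intro h2
    exact hb (inv_mul_eq_one.mp h2)

theorem sum_Pr [Fintype A] [DecidableEq A] (D : Data R c) (hN : (Fintype.card A : K) ≠ 0) (S : E) :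
    ∑ b, Pr R c b S = S := by
  simp_rw [Pr_apply]
  rw [← Finset.smul_sum, Finset.sum_comm]
  have h1 : ∀ a, ∑ b, (c a b)⁻¹ • conjR K (R a) S
      = if a = 1 then (Fintype.card A : K) • S else 0 := by
    intro a
    rw [← Finset.sum_smul]
    have h2 : ∑ b, (c a b)⁻¹ = ∑ b, c a b := by
      rw [← Fintype.sum_equiv (Equiv.inv A) (fun b => c a b⁻¹) (fun b => c a b) (fun b => rfl)]
      exact Finset.sum_congr rfl (fun b _ => (D.c_inv_right a b).symm)
    rw [h2]
    split_ifs with ha
    · subst ha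
      simp only [D.c_one_left, Finset.sum_const, Finset.card_univ, nsmul_eq_mul, mul_one, D.conjR_one]
    · rw [D.sum_c_right ha, zero_smul]
  simp_rw [h1]
  rw [Finset.sum_ite_eq' Finset.univ (1 : A)]
  simp only [Finset.mem_univ, if_true]
  rw [smul_smul, inv_mul_cancel₀ hN, one_smul]

/-- `E` is the product of the components. -/
noncomputable def equivPi [Fintype A] [DecidableEq A] (D : Data R c) (hN : (Fintype.card A : K) ≠ 0) :
    E ≃ₗ[K] (∀ b, Ecomp R c b) where
  toFun S := fun b => ⟨Pr R c b S, D.Pr_mem b S⟩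
  map_add' x y := by ext b; simp
  map_smul' r x := by ext b; simp
  invFun f := ∑ b, (f b : E)
  left_inv S := D.sum_Pr hN S
  right_inv f := by
    ext b
    simp only [map_sum]
    have : ∀ b', Pr R c b (f b' : E) = if b = b' then (f b' : E) else 0 :=
      fun b' => D.Pr_of_mem hN (f b').2
    simp_rw [this]
    rw [Finset.sum_ite_eq Finset.univ b]
    simp

theorem map_Ecomp_one (D : Data R c) (b : A) :
    (Ecomp R c 1).map (LinearMap.mulLeft K (R b : E)) = Ecomp R c b := by
  ext S
  constructor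
  · rintro ⟨S0, hS0, rfl⟩
    intro a
    have h := hS0 a
    rw [D.c_one_right, one_smul] at h
    simp only [LinearMap.mulLeft_apply]
    rw [← mul_assoc, D.comm a b, smul_mul_assoc, mul_assoc, h, mul_assoc]
  · intro hS
    refine ⟨(↑(R b)⁻¹ : E) * S, ?_, by simp [← mul_assoc]⟩
    intro a
    rw [D.c_one_right, one_smul]
    have h := hS a
    -- R a * (R b)⁻¹ = c a b⁻¹... use comm
    have h1 : (R a : E) * (↑(R b)⁻¹ : E) = (c a b)⁻¹ • ((↑(R b)⁻¹ : E) * R a) := by
      have h2 := D.comm a b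
      have h3 : (↑(R b)⁻¹ : E) * ((R a : E) * R b) * (↑(R b)⁻¹ : E)
          = (↑(R b)⁻¹ : E) * (c a b • ((R b : E) * R a)) * (↑(R b)⁻¹ : E) := by rw [h2]
      have h4 : (↑(R b)⁻¹ : E) * (R a : E) = c a b • ((R a : E) * (↑(R b)⁻¹ : E)) := by
        simpa [mul_assoc, mul_smul_comm, smul_mul_assoc] using h3
      rw [h4, smul_smul, inv_mul_cancel₀ (D.c_ne_zero a b), one_smul]
    rw [← mul_assoc, h1, smul_mul_assoc, mul_assoc, h, mul_smul_comm, smul_smul,
      inv_mul_cancel₀ (D.c_ne_zero a b), one_smul, mul_assoc]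

theorem finrank_Ecomp (D : Data R c) (b : A) :
    finrank K (Ecomp R c b) = finrank K (Ecomp R c 1) := by
  rw [← D.map_Ecomp_one b]
  have hinj : Function.Injective (LinearMap.mulLeft K (R b : E)) := by
    intro x y hxy
    simp only [LinearMap.mulLeft_apply] at hxy
    exact (R b).mul_right_inj.mp hxy
  exact (Submodule.equivMapOfInjective _ hinj (Ecomp R c 1)).finrank_eq.symm

theorem finrank_eq [Fintype A] [Module.Finite K E] (D : Data R c) (hN : (Fintype.card A : K) ≠ 0) :
    finrank K E = Fintype.card A * finrank K (Ecomp R c 1) := by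
  classical
  rw [(D.equivPi hN).finrank_eq, Module.finrank_pi_fintype]
  simp_rw [D.finrank_Ecomp]
  simp

/-! ### An extra unit `T` permuting the components -/

variable {T : Eˣ} {τ : Equiv.Perm A}

theorem c_tau (D : Data R c) (hT : ∀ a, ∃ g : K, (T : E) * R a = g • ((R (τ a) : E) * T)) (a b : A) :
    c (τ a) (τ b) = c a b := by
  obtain ⟨g, hg⟩ := hT a
  obtain ⟨g', hg'⟩ := hT b
  have hg0 : g ≠ 0 := by
    rintro rfl
    rw [zero_smul] at hg
    exact (T * R a).ne_zero (by simpa using hg)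
  have hg0' : g' ≠ 0 := by
    rintro rfl
    rw [zero_smul] at hg'
    exact (T * R b).ne_zero (by simpa using hg')
  -- T R a R b = g g' R(τa) R(τb) T
  have h1 : (T : E) * (R a * R b) = (g * g') • ((R (τ a) : E) * R (τ b) * T) := by
    rw [← mul_assoc, hg, smul_mul_assoc, mul_assoc, hg', mul_smul_comm, smul_smul, mul_assoc]
  have h2 : (T : E) * (R b * R a) = (g * g') • ((R (τ b) : E) * R (τ a) * T) := by
    rw [← mul_assoc, hg', smul_mul_assoc, mul_assoc, hg, mul_smul_comm, smul_smul, mul_assoc,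
      mul_comm g' g]
  rw [D.comm a b, mul_smul_comm, h2, D.comm (τ a) (τ b), smul_mul_assoc, smul_smul, smul_smul] at h1
  have h3 : c a b * (g * g') = g * g' * c (τ a) (τ b) :=
    smul_unit_inj (R (τ b) * R (τ a) * T) (by
      simp only [Units.val_mul]
      exact h1)
  have h4 : c a b * (g * g') = c (τ a) (τ b) * (g * g') := by rw [h3]; ring
  exact (mul_right_cancel₀ (mul_ne_zero hg0 hg0') h4).symm

theorem conjT_mem (D : Data R c) (hT : ∀ a, ∃ g : K, (T : E) * R a = g • ((R (τ a) : E) * T))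
    {b : A} {S : E} (hS : S ∈ Ecomp R c b) : conjR K T S ∈ Ecomp R c (τ b) := by
  intro a'
  obtain ⟨a, rfl⟩ := τ.surjective a'
  rw [D.c_tau hT]
  obtain ⟨g, hg⟩ := hT a
  have hg0 : g ≠ 0 := by
    rintro rfl
    rw [zero_smul] at hg
    exact (T * R a).ne_zero (by simpa using hg)
  -- R (τ a) = g⁻¹ T R a T⁻¹
  have h1 : (R (τ a) : E) = g⁻¹ • ((T : E) * R a * (↑T⁻¹ : E)) := by
    rw [hg, smul_mul_assoc, smul_smul, inv_mul_cancel₀ hg0, one_smul, mul_assoc, Units.mul_inv, mul_one]
  rw [h1, conjR_apply]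
  simp only [smul_mul_assoc, mul_smul_comm]
  rw [smul_comm]
  congr 1
  have h2 := hS a
  calc (T : E) * R a * (↑T⁻¹ : E) * ((T : E) * S * (↑T⁻¹ : E))
      = (T : E) * ((R a : E) * S) * (↑T⁻¹ : E) := by simp [mul_assoc]
    _ = c a b • ((T : E) * (S * R a) * (↑T⁻¹ : E)) := by
        rw [h2, mul_smul_comm, smul_mul_assoc]
    _ = c a b • ((T : E) * S * (↑T⁻¹ : E) * ((T : E) * R a * (↑T⁻¹ : E))) := by simp [mul_assoc]

theorem Pr_conjT [Fintype A] [DecidableEq A] (D : Data R c) (hN : (Fintype.card A : K) ≠ 0)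
    (hT : ∀ a, ∃ g : K, (T : E) * R a = g • ((R (τ a) : E) * T)) (b : A) (S : E) :
    Pr R c (τ b) (conjR K T S) = conjR K T (Pr R c b S) := by
  conv_lhs => rw [← D.sum_Pr hN S]
  rw [map_sum, map_sum]
  have : ∀ b', Pr R c (τ b) (conjR K T (Pr R c b' S))
      = if b = b' then conjR K T (Pr R c b' S) else 0 := by
    intro b'
    rw [D.Pr_of_mem hN (D.conjT_mem hT (D.Pr_mem b' S))]
    simp only [EmbeddingLike.apply_eq_iff_eq]
  simp_rw [this]
  rw [Finset.sum_ite_eq Finset.univ b]
  simp

/-- the centralizer of `T`. -/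
def cent (K : Type*) {E : Type*} [Field K] [Ring E] [Algebra K E] (T : E) : Submodule K E where
  carrier := {S | T * S = S * T}
  add_mem' := by
    intro x y hx hy
    simp only [Set.mem_ofPred_eq] at hx hy ⊢
    rw [mul_add, add_mul, hx, hy]
  zero_mem' := by simp
  smul_mem' := by
    intro r x hx
    simp only [Set.mem_ofPred_eq] at hx ⊢
    rw [mul_smul_comm, smul_mul_assoc, hx]

theorem finrank_cent_le [Fintype A] [Module.Finite K E] (D : Data R c) (hN : (Fintype.card A : K) ≠ 0)
    (hT : ∀ a, ∃ g : K, (T : E) * R a = g • ((R (τ a) : E) * T))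
    (Rep : Finset A) (hRep : ∀ a, ∃ b ∈ Rep, ∃ i : ℕ, (τ ^ i) b = a) :
    finrank K (cent K (T : E)) ≤ Rep.card * finrank K (Ecomp R c 1) := by
  classical
  let Φ : cent K (T : E) →ₗ[K] (∀ b : Rep, Ecomp R c (b : A)) :=
    { toFun := fun S b => ⟨Pr R c b (S : E), D.Pr_mem b S⟩
      map_add' := by intro x y; ext b; simp
      map_smul' := by intro r x; ext b; simp }
  have hfix : ∀ S : cent K (T : E), conjR K T (S : E) = S := by
    intro S
    symm
    apply eq_conjR_of_mul
    exact S.2.symm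
  have hinj : Function.Injective Φ := by
    rw [← LinearMap.ker_eq_bot, LinearMap.ker_eq_bot']
    intro S hS
    have h0 : ∀ b ∈ Rep, Pr R c b (S : E) = 0 := by
      intro b hb
      have := congrFun hS ⟨b, hb⟩
      simpa [Φ] using congrArg Subtype.val this
    have h1 : ∀ (i : ℕ) (b : A), b ∈ Rep → Pr R c ((τ ^ i) b) (S : E) = 0 := by
      intro i
      induction i with
      | zero => intro b hb; simpa using h0 b hb
      | succ i ih =>
        intro b hb
        rw [pow_succ', Equiv.Perm.mul_apply, ← hfix S, D.Pr_conjT hN hT, ih b hb, map_zero]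
    have h2 : ∀ a, Pr R c a (S : E) = 0 := by
      intro a
      obtain ⟨b, hb, i, rfl⟩ := hRep a
      exact h1 i b hb
    have h3 := D.sum_Pr hN (S : E)
    simp_rw [h2] at h3
    ext
    simpa using h3.symm
  have h := LinearMap.finrank_le_finrank_of_injective hinj
  rw [Module.finrank_pi_fintype] at h
  simp_rw [D.finrank_Ecomp] at h
  simpa using h

end Data

end Cfsg.Agent.Lib.Helper79.Heis
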