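import Mathlib
import Cfsg.Agent.Lib.Helper79.HeisAlg

/-! # Lower bound for the dimension of the centralizer of an operator of finite order without fixed vectors -/

set_option autoImplicit false

namespace Cfsg.Agent.Lib.Helper79.Heis

open Module Polynomial

universe u v

variable {K : Type u} {U : Type v} [Field K] [AddCommGroup U] [Module K U]

theorem isSemisimple_of_pow_eq_one (T : Module.End K U) (m : ℕ) (hm : (m : K) ≠ 0) (hT : T ^ m = 1) :
    T.IsSemisimple := by
  have hsep : (X ^ m - C (1 : K)).Separable := separable_X_pow_sub_C 1 hm one_ne_zero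
  apply Module.End.isSemisimple_of_squarefree_aeval_eq_zero hsep.squarefree
  simp [hT]

theorem exists_eigenbasis [IsAlgClosed K] [FiniteDimensional K U] (T : Module.End K U)
    (hT : T.IsSemisimple) :
    ∃ (ι : Type u) (_ : Fintype ι) (b : Basis ι K U) (t : ι → K), ∀ i, T (b i) = t i • b i := by
  classical
  have hint : DirectSum.IsInternal (fun μ : K => T.eigenspace μ) :=
    DirectSum.isInternal_submodule_of_iSupIndep_of_iSup_eq_top
      (Module.End.eigenspaces_iSupIndep T) hT.iSup_eigenspace_eq_top
  let b := hint.collectedBasis (fun μ => Module.finBasis K (T.eigenspace μ))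
  haveI : Finite (Σ μ : K, Fin (finrank K (T.eigenspace μ))) := Module.Finite.finite_basis b
  refine ⟨_, Fintype.ofFinite _, b, fun a => a.1, fun a => ?_⟩
  have := hint.collectedBasis_mem (fun μ => Module.finBasis K (T.eigenspace μ)) a
  exact Module.End.mem_eigenspace_iff.mp this

theorem sq_finrank_le [IsAlgClosed K] [FiniteDimensional K U] (T : Module.End K U) (P : ℕ) (hP0 : 0 < P)
    (hP : (P : K) ≠ 0) (hT : T ^ P = 1) (hfix : ∀ w, T w = w → w = 0) :
    (finrank K U) ^ 2 ≤ (P - 1) * finrank K (Data.cent K T) := by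
  classical
  obtain ⟨ι, _, b, t, hb⟩ := exists_eigenbasis T (isSemisimple_of_pow_eq_one T P hP hT)
  -- eigenvalues are P-th roots of unity different from 1
  have ht1 : ∀ i, t i ≠ 1 := by
    intro i h
    have := hfix (b i) (by rw [hb i, h, one_smul])
    exact b.ne_zero i this
  have htP : ∀ i, t i ^ P = 1 := by
    intro i
    have h1 : ∀ k : ℕ, (T ^ k) (b i) = t i ^ k • b i := by
      intro k
      induction k with
      | zero => simp
      | succ k ih => rw [pow_succ', Module.End.mul_apply, ih, map_smul, hb i, smul_smul, pow_succ]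
    have h2 := h1 P
    rw [hT, Module.End.one_apply] at h2
    have h3 : (t i ^ P - 1) • b i = 0 := by rw [sub_smul, ← h2, one_smul, sub_self]
    rcases smul_eq_zero.mp h3 with h | h
    · exact sub_eq_zero.mp h
    · exact absurd h (b.ne_zero i)
  let s : Finset K := Finset.univ.image t
  have hs : s ⊆ (nthRootsFinset P (1 : K)).erase 1 := by
    intro x hx
    obtain ⟨i, _, rfl⟩ := Finset.mem_image.mp hx
    refine Finset.mem_erase.mpr ⟨ht1 i, ?_⟩
    rw [mem_nthRootsFinset hP0]
    exact htP i
  have hscard : s.card ≤ P - 1 := by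
    have h1 := Finset.card_le_card hs
    have h2 : (1 : K) ∈ nthRootsFinset P (1 : K) := by rw [mem_nthRootsFinset hP0]; simp
    rw [Finset.card_erase_of_mem h2] at h1
    have h3 : (nthRootsFinset P (1 : K)).card ≤ P := by
      unfold nthRootsFinset
      exact (Multiset.toFinset_card_le _).trans (card_nthRoots P 1)
    omega
  let n : K → ℕ := fun x => (Finset.univ.filter (fun i => t i = x)).card
  have hsum : ∑ x ∈ s, n x = finrank K U := by
    rw [finrank_eq_card_basis b, ← Finset.card_univ]
    exact (Finset.card_eq_sum_card_image t Finset.univ).symm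
  -- pairs
  let Pairs := {q : ι × ι // t q.1 = t q.2}
  have hpairs : Fintype.card Pairs = ∑ x ∈ s, (n x) ^ 2 := by
    rw [Fintype.card_subtype]
    have h1 : (Finset.univ.filter (fun q : ι × ι => t q.1 = t q.2))
        = s.biUnion (fun x => (Finset.univ.filter (fun i => t i = x)) ×ˢ (Finset.univ.filter (fun i => t i = x))) := by
      ext ⟨i, j⟩
      simp only [Finset.mem_filter, Finset.mem_univ, true_and, Finset.mem_biUnion, Finset.mem_product]
      constructor
      · intro h
        exact ⟨t i, Finset.mem_image_of_mem _ (Finset.mem_univ _), rfl, h.symm⟩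
      · rintro ⟨x, _, h1, h2⟩
        rw [h1, h2]
    rw [h1, Finset.card_biUnion]
    · refine Finset.sum_congr rfl (fun x _ => ?_)
      rw [Finset.card_product, sq]
    · intro x _ y _ hxy
      simp only [Function.onFun]
      rw [Finset.disjoint_left]
      rintro ⟨i, j⟩ h1 h2
      simp only [Finset.mem_product, Finset.mem_filter, Finset.mem_univ, true_and] at h1 h2
      exact hxy (h1.1.symm.trans h2.1)
  -- injective linear map (Pairs → K) → cent
  let Ψ0 : (Pairs → K) →ₗ[K] Matrix ι ι K :=
    { toFun := fun v => Matrix.of (fun i j => if h : t i = t j then v ⟨(i, j), h⟩ else 0)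
      map_add' := by
        intro v w; ext i j
        simp only [Matrix.of_apply, Matrix.add_apply, Pi.add_apply]
        split_ifs <;> simp
      map_smul' := by
        intro r v; ext i j
        simp only [Matrix.of_apply, Matrix.smul_apply, Pi.smul_apply, RingHom.id_apply]
        split_ifs <;> simp }
  have hTm : LinearMap.toMatrix b b T = Matrix.diagonal t := by
    ext i j
    rw [LinearMap.toMatrix_apply, hb j, map_smul, Finsupp.smul_apply, b.repr_self, Matrix.diagonal_apply]
    by_cases hij : i = j
    · subst hij; simp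
    · rw [if_neg hij, Finsupp.single_apply, if_neg (fun h => hij h.symm)]; simp
  have hcomm : ∀ v, T * (Matrix.toLin b b (Ψ0 v)) = (Matrix.toLin b b (Ψ0 v)) * T := by
    intro v
    apply (LinearMap.toMatrix b b).injective
    rw [LinearMap.toMatrix_mul, LinearMap.toMatrix_mul, LinearMap.toMatrix_toLin, hTm]
    ext i j
    rw [Matrix.diagonal_mul, Matrix.mul_diagonal]
    simp only [Ψ0, LinearMap.coe_mk, AddHom.coe_mk, Matrix.of_apply]
    split_ifs with h
    · rw [h, mul_comm]
    · simp
  let Ψ : (Pairs → K) →ₗ[K] Data.cent K T :=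
    LinearMap.codRestrict (Data.cent K T) ((Matrix.toLin b b).toLinearMap ∘ₗ Ψ0) (fun v => hcomm v)
  have hinj : Function.Injective Ψ := by
    intro v w hvw
    have h1 : Matrix.toLin b b (Ψ0 v) = Matrix.toLin b b (Ψ0 w) := congrArg Subtype.val hvw
    have h2 : Ψ0 v = Ψ0 w := (Matrix.toLin b b).injective h1
    funext ⟨⟨i, j⟩, h⟩
    have h3 := congrFun (congrFun h2 i) j
    simp only [Ψ0, LinearMap.coe_mk, AddHom.coe_mk, Matrix.of_apply] at h3
    have h' : t i = t j := h
    rw [dif_pos h', dif_pos h'] at h3
    exact h3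
  have hle := LinearMap.finrank_le_finrank_of_injective hinj
  rw [Module.finrank_fintype_fun_eq_card, hpairs] at hle
  calc (finrank K U) ^ 2 = (∑ x ∈ s, n x) ^ 2 := by rw [hsum]
    _ ≤ s.card * ∑ x ∈ s, (n x) ^ 2 := sq_sum_le_card_mul_sum_sq
    _ ≤ (P - 1) * finrank K (Data.cent K T) := Nat.mul_le_mul hscard hle

end Cfsg.Agent.Lib.Helper79.Heis
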