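import Mathlib

/-! # Orbit representatives for a permutation acting freely off one fixed point -/

set_option autoImplicit false

namespace Cfsg.Agent.Lib.Helper79.Heis

open Function

theorem exists_rep {A : Type*} [Fintype A] [DecidableEq A] (o : A) (τ : Equiv.Perm A) (P : ℕ)
    (ho : τ o = o) (hper : ∀ a, a ≠ o → minimalPeriod τ a = P) :
    ∃ (Rep : Finset A) (m : ℕ), (∀ a, ∃ b ∈ Rep, ∃ i : ℕ, (τ ^ i) b = a) ∧ Rep.card = m + 1 ∧
      Fintype.card A = P * m + 1 := by
  classical
  let s := Equiv.Perm.SameCycle.setoid τ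
  let out' : A → A := fun a => (Quotient.mk s a).out
  have hout : ∀ a, τ.SameCycle (out' a) a := fun a => Quotient.exact (Quotient.out_eq (Quotient.mk s a))
  have hout2 : ∀ a b, τ.SameCycle a b → out' a = out' b := by
    intro a b h
    have : Quotient.mk s a = Quotient.mk s b := Quotient.sound h
    simp only [out', this]
  have hpowo : ∀ i : ℕ, (τ ^ i) o = o := by
    intro i
    induction i with
    | zero => simp
    | succ i ih => rw [pow_succ, Equiv.Perm.mul_apply, ho, ih]
  have hso : ∀ x, τ.SameCycle o x → x = o := by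
    intro x h
    obtain ⟨i, hi⟩ := h.exists_nat_pow_eq
    rw [hpowo] at hi
    exact hi.symm
  let Rep : Finset A := Finset.univ.image out'
  have hoRep : o ∈ Rep := by
    refine Finset.mem_image.mpr ⟨o, Finset.mem_univ _, ?_⟩
    exact hso _ (hout o).symm
  let Rep' := Rep.erase o
  refine ⟨Rep, Rep'.card, ?_, ?_, ?_⟩
  · intro a
    obtain ⟨i, hi⟩ := (hout a).exists_nat_pow_eq
    exact ⟨out' a, Finset.mem_image_of_mem _ (Finset.mem_univ _), i, hi⟩
  · exact (Finset.card_erase_add_one hoRep).symm
  · have h1 : (Finset.univ.erase o : Finset A)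
        = (Rep' ×ˢ Finset.range P).image (fun x => (τ ^ x.2) x.1) := by
      ext a
      simp only [Finset.mem_erase, Finset.mem_univ, and_true, Finset.mem_image, Finset.mem_product,
        Finset.mem_range, Prod.exists]
      constructor
      · intro ha
        have hb : out' a ≠ o := by
          intro h
          have := hout a
          rw [h] at this
          exact ha (hso a this)
        obtain ⟨i, hi⟩ := (hout a).exists_nat_pow_eq
        have hP : 0 < P := by
          rw [← hper a ha]
          apply minimalPeriod_pos_of_mem_periodicPts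
          have : IsPeriodicPt τ (orderOf τ) a := by
            unfold IsPeriodicPt IsFixedPt
            rw [Equiv.Perm.iterate_eq_pow, pow_orderOf_eq_one]; rfl
          exact ⟨orderOf τ, orderOf_pos τ, this⟩
        refine ⟨out' a, i % P, ⟨Finset.mem_erase.mpr ⟨hb, Finset.mem_image_of_mem _ (Finset.mem_univ _)⟩,
          Nat.mod_lt _ hP⟩, ?_⟩
        have h5 : (τ ^ (i % P)) (out' a) = (τ ^ i) (out' a) := by
          rw [← Equiv.Perm.iterate_eq_pow, ← Equiv.Perm.iterate_eq_pow, ← hper _ hb]
          exact iterate_mod_minimalPeriod_eq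
        exact h5.trans hi
      · rintro ⟨b, i, ⟨hb, _⟩, rfl⟩
        intro h
        have hb' := (Finset.mem_erase.mp hb).1
        apply hb'
        have : (τ ^ i) b = (τ ^ i) o := by rw [h, hpowo]
        exact (τ ^ i).injective this
    have h2 : Set.InjOn (fun x : A × ℕ => (τ ^ x.2) x.1) (Rep' ×ˢ Finset.range P : Finset (A × ℕ)) := by
      rintro ⟨b, i⟩ hbi ⟨b', i'⟩ hbi' h
      simp only [Finset.coe_product, Set.mem_prod, Finset.mem_coe, Finset.mem_range] at hbi hbi'
      simp only at h
      obtain ⟨hb, hi⟩ := hbi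
      obtain ⟨hb', hi'⟩ := hbi'
      obtain ⟨hbo, hbR⟩ := Finset.mem_erase.mp hb
      obtain ⟨hbo', hbR'⟩ := Finset.mem_erase.mp hb'
      obtain ⟨x, _, rfl⟩ := Finset.mem_image.mp hbR
      obtain ⟨x', _, rfl⟩ := Finset.mem_image.mp hbR'
      have hs : τ.SameCycle (out' x) (out' x') := by
        have h3 : τ.SameCycle ((τ ^ i) (out' x)) ((τ ^ i') (out' x')) := by rw [h]
        rwa [Equiv.Perm.sameCycle_pow_left, Equiv.Perm.sameCycle_pow_right] at h3
      have hxx : out' x = out' x' := by
        apply hout2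
        exact ((hout x).symm.trans hs).trans (hout x')
      rw [← hxx] at h
      have hii : i = i' := by
        apply iterate_injOn_Iio_minimalPeriod (f := τ) (x := out' x)
        · rw [hper _ hbo]; exact hi
        · rw [hper _ hbo]; exact hi'
        · simp only [Equiv.Perm.iterate_eq_pow]; exact h
      rw [hxx, hii]
    have h3 : (Finset.univ.erase o : Finset A).card = Rep'.card * P := by
      rw [h1, Finset.card_image_of_injOn h2, Finset.card_product, Finset.card_range]
    have h4 := Finset.card_erase_add_one (Finset.mem_univ o)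
    rw [h3, Finset.card_univ] at h4
    rw [← h4, mul_comm]

theorem minimalPeriod_eq_of_free {A : Type*} (o : A) (τ : Equiv.Perm A) (p s : ℕ) (hp : p.Prime)
    (hs : 0 < s) (hτ : τ ^ (p ^ s) = 1) (hfree : ∀ a, (τ ^ (p ^ (s - 1))) a = a → a = o) (a : A) (ha : a ≠ o) :
    minimalPeriod τ a = p ^ s := by
  have h1 : IsPeriodicPt τ (p ^ s) a := by
    unfold IsPeriodicPt IsFixedPt
    rw [Equiv.Perm.iterate_eq_pow, hτ]; rfl
  obtain ⟨e, he, hpe⟩ := (Nat.dvd_prime_pow hp).mp h1.minimalPeriod_dvd
  rcases Nat.lt_or_ge e s with hlt | hge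
  · exfalso
    apply ha
    apply hfree
    have h2 : IsPeriodicPt τ (minimalPeriod τ a) a := isPeriodicPt_minimalPeriod τ a
    have h3 : minimalPeriod τ a ∣ p ^ (s - 1) := by
      rw [hpe]; exact pow_dvd_pow p (by omega)
    have h4 : IsPeriodicPt τ (p ^ (s - 1)) a := h2.trans_dvd h3
    unfold IsPeriodicPt IsFixedPt at h4
    rwa [Equiv.Perm.iterate_eq_pow] at h4
  · have : e = s := le_antisymm he hge
    rw [hpe, this]

end Cfsg.Agent.Lib.Helper79.Heis
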