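import Mathlib
import Cfsg.Agent.Lib.Helper79.HeisAlg
import Cfsg.Agent.Lib.Helper79.HeisOrbit
import Cfsg.Agent.Lib.Helper79.HeisComm

/-! # The non-modular Hall–Higman estimate for Heisenberg data on `End U` -/

set_option autoImplicit false

namespace Cfsg.Agent.Lib.Helper79.Heis

open Module

universe u v w

variable {K : Type u} {U : Type v} [Field K] [AddCommGroup U] [Module K U]
variable {A : Type w} [Group A]

theorem heis_bound [IsAlgClosed K] [FiniteDimensional K U] [Nontrivial U] [Fintype A]
    {R : A → (Module.End K U)ˣ} {c : A → A → K} (D : Data R c) (hN : (Fintype.card A : K) ≠ 0)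
    {T : (Module.End K U)ˣ} {τ : Equiv.Perm A}
    (hT : ∀ a, ∃ g : K, (T : Module.End K U) * R a = g • ((R (τ a) : Module.End K U) * T))
    (p s : ℕ) (hp : p.Prime) (hs : 0 < s) (hpK : (p : K) ≠ 0) (hTP : T ^ (p ^ s) = 1)
    (hτ1 : τ 1 = 1) (hτP : τ ^ (p ^ s) = 1) (hfree : ∀ a, (τ ^ (p ^ (s - 1))) a = a → a = 1)
    (hfix : ∀ x : U, (T : Module.End K U) x = x → x = 0) :
    Fintype.card A ≤ (p ^ s - 1) ^ 2 ∧ ∃ m, Fintype.card A = p ^ s * m + 1 := by
  classical
  obtain ⟨Rep, m, hRep, hcard, hA⟩ := exists_rep (1 : A) τ (p ^ s) hτ1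
    (fun a ha => minimalPeriod_eq_of_free 1 τ p s hp hs hτP hfree a ha)
  refine ⟨?_, m, hA⟩
  set P := p ^ s with hPdef
  have hP0 : 0 < P := pow_pos hp.pos s
  have hPK : (P : K) ≠ 0 := by rw [hPdef]; push_cast; exact pow_ne_zero s hpK
  have h1 := D.finrank_eq hN
  have h2 := D.finrank_cent_le hN hT Rep hRep
  have hTP' : (T : Module.End K U) ^ P = 1 := by
    have := congrArg Units.val hTP
    simpa using this
  have h3 := sq_finrank_le (T : Module.End K U) P hP0 hPK hTP' hfix
  have h4 : finrank K (Module.End K U) = (finrank K U) ^ 2 := by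
    rw [Module.finrank_linearMap, sq]
  set c0 := finrank K (Ecomp R c 1)
  set uu := finrank K U
  have hu : 0 < uu := Module.finrank_pos
  rw [h4] at h1
  have hc0 : 0 < c0 := by
    rcases Nat.eq_zero_or_pos c0 with h | h
    · rw [h, mul_zero] at h1
      have : 0 < uu ^ 2 := by positivity
      omega
    · exact h
  have h5 : Fintype.card A * c0 ≤ ((P - 1) * (m + 1)) * c0 := by
    calc Fintype.card A * c0 = uu ^ 2 := h1.symm
      _ ≤ (P - 1) * finrank K (Data.cent K (T : Module.End K U)) := h3
      _ ≤ (P - 1) * (Rep.card * c0) := Nat.mul_le_mul_left _ h2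
      _ = ((P - 1) * (m + 1)) * c0 := by rw [hcard]; ring
  have h6 : Fintype.card A ≤ (P - 1) * (m + 1) := Nat.le_of_mul_le_mul_right h5 hc0
  rw [hA] at h6 ⊢
  obtain ⟨P', hP'⟩ : ∃ P', P = P' + 1 := ⟨P - 1, by omega⟩
  rw [hP'] at h6 ⊢
  simp only [Nat.add_sub_cancel] at h6 ⊢
  have h7 : m + 1 ≤ P' := by nlinarith
  nlinarith

/-- restriction of a unit of `End U` to an invariant submodule. -/
def restrictUnit (x : (Module.End K U)ˣ) (q : Submodule K U)
    (h : ∀ y ∈ q, (x : Module.End K U) y ∈ q) (h' : ∀ y ∈ q, ((x⁻¹ : (Module.End K U)ˣ) : Module.End K U) y ∈ q) :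
    (Module.End K q)ˣ where
  val := (x : Module.End K U).restrict h
  inv := ((x⁻¹ : (Module.End K U)ˣ) : Module.End K U).restrict h'
  val_inv := by
    ext y
    simp only [Module.End.mul_apply, LinearMap.restrict_coe_apply, Module.End.one_apply]
    rw [← Module.End.mul_apply, Units.mul_inv, Module.End.one_apply]
  inv_val := by
    ext y
    simp only [Module.End.mul_apply, LinearMap.restrict_coe_apply, Module.End.one_apply]
    rw [← Module.End.mul_apply, Units.inv_mul, Module.End.one_apply]

@[simp] theorem restrictUnit_apply (x : (Module.End K U)ˣ) (q : Submodule K U) (h h') (y : q) :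
    (((restrictUnit x q h h' : (Module.End K q)ˣ) : Module.End K q) y : U) = (x : Module.End K U) y := rfl

theorem exists_sq_aux [IsAlgClosed K] [Fintype A] (n : ℕ) :
    ∀ (U : Type v) [AddCommGroup U] [Module K U] [FiniteDimensional K U] [Nontrivial U]
      (R : A → (Module.End K U)ˣ) (c : A → A → K), Data R c → (Fintype.card A : K) ≠ 0 →
      finrank K U = n → ∃ d, Fintype.card A = d ^ 2 := by
  induction n using Nat.strong_induction_on with
  | _ n ih =>
    intro U _ _ _ _ R c D hN hn
    by_cases hsc : ∀ S ∈ Ecomp R c 1, ∃ l : K, S = l • (1 : Module.End K U)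
    · -- commutant is scalar
      have h1 : finrank K (Ecomp R c 1) = 1 := by
        have h1mem : (1 : Module.End K U) ∈ Ecomp R c 1 := by
          intro a
          rw [D.c_one_right]; simp
        rw [finrank_eq_one_iff_of_nonzero' (⟨1, h1mem⟩ : Ecomp R c 1) (by
          intro h
          have := congrArg Subtype.val h
          exact one_ne_zero this)]
        rintro ⟨S, hS⟩
        obtain ⟨l, hl⟩ := hsc S hS
        exact ⟨l, by ext1; simp [hl]⟩
      have h2 := D.finrank_eq hN
      rw [h1, mul_one, Module.finrank_linearMap] at h2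
      exact ⟨finrank K U, by rw [← h2, sq]⟩
    · push Not at hsc
      obtain ⟨S, hS, hSne⟩ := hsc
      obtain ⟨l, hl⟩ := Module.End.exists_eigenvalue S
      set q := S.eigenspace l with hq
      have hcomm : ∀ a, (R a : Module.End K U) * S = S * R a := by
        intro a
        have := hS a
        rwa [D.c_one_right, one_smul] at this
      have hinv : ∀ a, ∀ y ∈ q, (R a : Module.End K U) y ∈ q := by
        intro a y hy
        rw [hq, Module.End.mem_eigenspace_iff] at hy ⊢
        rw [← Module.End.mul_apply, ← hcomm a, Module.End.mul_apply, hy, map_smul]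
      have hcomm' : ∀ a, (((R a)⁻¹ : (Module.End K U)ˣ) : Module.End K U) * S
          = S * (((R a)⁻¹ : (Module.End K U)ˣ) : Module.End K U) := by
        intro a
        have h := hcomm a
        have h2 := congrArg (fun X => (((R a)⁻¹ : (Module.End K U)ˣ) : Module.End K U) * X *
          (((R a)⁻¹ : (Module.End K U)ˣ) : Module.End K U)) h
        simp only [← mul_assoc, Units.inv_mul, one_mul] at h2
        simp only [mul_assoc, Units.mul_inv, mul_one] at h2
        exact h2.symm
      have hinv' : ∀ a, ∀ y ∈ q, (((R a)⁻¹ : (Module.End K U)ˣ) : Module.End K U) y ∈ q := by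
        intro a y hy
        rw [hq, Module.End.mem_eigenspace_iff] at hy ⊢
        rw [← Module.End.mul_apply, ← hcomm' a, Module.End.mul_apply, hy, map_smul]
      let R' : A → (Module.End K q)ˣ := fun a => restrictUnit (R a) q (hinv a) (hinv' a)
      have hqne : q ≠ ⊥ := hl
      haveI : Nontrivial q := Submodule.nontrivial_iff_ne_bot.mpr hqne
      have hqtop : q ≠ ⊤ := by
        intro h
        apply hSne l
        ext y
        have : y ∈ q := by rw [h]; trivial
        rw [hq, Module.End.mem_eigenspace_iff] at this
        simpa using this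
      have hlt : finrank K q < n := by
        rw [← hn]
        exact Submodule.finrank_lt hqtop
      have D' : Data R' c :=
        { comm := by
            intro a b
            ext y
            have := LinearMap.congr_fun (D.comm a b) (y : U)
            simpa [R'] using this
          mul := by
            intro a b
            obtain ⟨f, hf⟩ := D.mul a b
            refine ⟨f, ?_⟩
            ext y
            have := LinearMap.congr_fun hf (y : U)
            simpa [R'] using this
          nondeg := D.nondeg }
      exact ih _ hlt q R' c D' hN rfl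

theorem exists_sq [IsAlgClosed K] [Fintype A] [FiniteDimensional K U] [Nontrivial U]
    {R : A → (Module.End K U)ˣ} {c : A → A → K} (D : Data R c) (hN : (Fintype.card A : K) ≠ 0) :
    ∃ d, Fintype.card A = d ^ 2 :=
  exists_sq_aux (finrank K U) U R c D hN rfl

end Cfsg.Agent.Lib.Helper79.Heis
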