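import Mathlib
import Cfsg.Agent.Lib.Helper79.HeisMain

/-! # The span of Heisenberg data -/

set_option autoImplicit false

namespace Cfsg.Agent.Lib.Helper79.Heis

open Module

universe u v w

variable {K : Type u} {U : Type v} [Field K] [AddCommGroup U] [Module K U] [Nontrivial U]
variable {A : Type w} [Group A]
variable {R : A → (Module.End K U)ˣ} {c : A → A → K}

/-- the span of the `R a`. -/
def spanR (R : A → (Module.End K U)ˣ) : Submodule K (Module.End K U) :=
  Submodule.span K (Set.range fun a => (R a : Module.End K U))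

omit [Nontrivial U] [Group A] in
theorem R_mem_spanR (a : A) : (R a : Module.End K U) ∈ spanR R := Submodule.subset_span ⟨a, rfl⟩

namespace Data

theorem mul_mem_spanR (D : Data R c) {X Y : Module.End K U} (hX : X ∈ spanR R) (hY : Y ∈ spanR R) :
    X * Y ∈ spanR R := by
  have h1 : spanR R * spanR R ≤ spanR R := by
    unfold spanR
    rw [Submodule.span_mul_span, Submodule.span_le]
    rintro _ ⟨_, ⟨a, rfl⟩, _, ⟨b, rfl⟩, rfl⟩
    obtain ⟨f, hf⟩ := D.mul a b
    have hf0 : f ≠ 0 := by
      rintro rfl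
      rw [zero_smul] at hf
      exact (R (a * b)).ne_zero hf
    have h2 : (R a : Module.End K U) * R b = f⁻¹ • (R (a * b) : Module.End K U) := by
      rw [hf, smul_smul, inv_mul_cancel₀ hf0, one_smul]
    show (R a : Module.End K U) * R b ∈ Submodule.span K _
    rw [h2]
    exact Submodule.smul_mem _ _ (Submodule.subset_span ⟨a * b, rfl⟩)
  exact h1 (Submodule.mul_mem_mul hX hY)

theorem one_mem_spanR (D : Data R c) : (1 : Module.End K U) ∈ spanR R := by
  obtain ⟨f, hf⟩ := D.R_one
  have hf0 : f ≠ 0 := by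
    rintro rfl
    rw [zero_smul] at hf
    exact (R 1).ne_zero hf
  have : (1 : Module.End K U) = f⁻¹ • (R 1 : Module.End K U) := by
    rw [hf, smul_smul, inv_mul_cancel₀ hf0, one_smul]
  rw [this]
  exact Submodule.smul_mem _ _ (R_mem_spanR 1)

theorem pow_mem_spanR (D : Data R c) {X : Module.End K U} (hX : X ∈ spanR R) (k : ℕ) :
    X ^ k ∈ spanR R := by
  induction k with
  | zero => rw [pow_zero]; exact D.one_mem_spanR
  | succ k ih => rw [pow_succ]; exact D.mul_mem_spanR ih hX

theorem inv_eq (D : Data R c) (a : A) :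
    ∃ κ : K, (↑(R a)⁻¹ : Module.End K U) = κ • (R a⁻¹ : Module.End K U) := by
  obtain ⟨f, hf⟩ := D.mul a⁻¹ a
  obtain ⟨f', hf'⟩ := D.R_one
  have hf0 : f' ≠ 0 := by
    rintro rfl
    rw [zero_smul] at hf'
    exact (R 1).ne_zero hf'
  rw [inv_mul_cancel, hf'] at hf
  refine ⟨f'⁻¹ * f, ?_⟩
  have h1 := congrArg (fun t => t * (↑(R a)⁻¹ : Module.End K U)) hf
  simp only [smul_mul_assoc, one_mul, mul_assoc, Units.mul_inv, mul_one] at h1
  rw [mul_smul, ← h1, smul_smul, inv_mul_cancel₀ hf0, one_smul]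

theorem inv_mem_spanR (D : Data R c) (a : A) : (↑(R a)⁻¹ : Module.End K U) ∈ spanR R := by
  obtain ⟨κ, hκ⟩ := D.inv_eq a
  rw [hκ]
  exact Submodule.smul_mem _ _ (R_mem_spanR _)

theorem R_mem_Ecomp (D : Data R c) (a : A) : (R a : Module.End K U) ∈ Ecomp R c a :=
  fun x => D.comm x a

theorem Pr_spanR [Fintype A] [DecidableEq A] (D : Data R c) (hN : (Fintype.card A : K) ≠ 0)
    {X : Module.End K U} (hX : X ∈ spanR R) (b : A) :
    ∃ γ : K, Pr R c b X = γ • (R b : Module.End K U) := by
  unfold spanR at hX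
  induction hX using Submodule.span_induction with
  | mem x h =>
    obtain ⟨a, rfl⟩ := h
    simp only
    rw [D.Pr_of_mem hN (D.R_mem_Ecomp a)]
    by_cases hab : b = a
    · subst hab
      exact ⟨1, by simp⟩
    · exact ⟨0, by simp [hab]⟩
  | zero => exact ⟨0, by simp⟩
  | add x y _ _ hx hy =>
    obtain ⟨γ, hγ⟩ := hx
    obtain ⟨γ', hγ'⟩ := hy
    exact ⟨γ + γ', by rw [map_add, hγ, hγ', add_smul]⟩
  | smul r x _ hx =>
    obtain ⟨γ, hγ⟩ := hx
    exact ⟨r * γ, by rw [map_smul, hγ, smul_smul]⟩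

theorem inv_invariant (D : Data R c) (q : Submodule K U)
    (hinv : ∀ a, ∀ y ∈ q, (R a : Module.End K U) y ∈ q) :
    ∀ a, ∀ y ∈ q, (↑(R a)⁻¹ : Module.End K U) y ∈ q := by
  intro a y hy
  obtain ⟨κ, hκ⟩ := D.inv_eq a
  rw [hκ, LinearMap.smul_apply]
  exact q.smul_mem _ (hinv _ y hy)

omit [Nontrivial U] [Group A] in
theorem _root_.Cfsg.Agent.Lib.Helper79.Heis.spanR_invariant (q : Submodule K U)
    (hinv : ∀ a, ∀ y ∈ q, (R a : Module.End K U) y ∈ q) {X : Module.End K U} (hX : X ∈ spanR R) :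
    ∀ y ∈ q, X y ∈ q := by
  unfold spanR at hX
  induction hX using Submodule.span_induction with
  | mem x h =>
    obtain ⟨a, rfl⟩ := h
    exact hinv a
  | zero => intro y _; simp
  | add x y _ _ hx hy =>
    intro z hz
    rw [LinearMap.add_apply]
    exact q.add_mem (hx z hz) (hy z hz)
  | smul r x _ hx =>
    intro z hz
    rw [LinearMap.smul_apply]
    exact q.smul_mem _ (hx z hz)

theorem eq_zero_of_vanish [Fintype A] [DecidableEq A] (D : Data R c) (hN : (Fintype.card A : K) ≠ 0)
    {X : Module.End K U} (hX : X ∈ spanR R) (q : Submodule K U) (hq : q ≠ ⊥)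
    (hinv : ∀ a, ∀ y ∈ q, (R a : Module.End K U) y ∈ q) (hX0 : ∀ y ∈ q, X y = 0) : X = 0 := by
  obtain ⟨w, hw, hw0⟩ := Submodule.exists_mem_ne_zero_of_ne_bot hq
  have hinv' := D.inv_invariant q hinv
  rw [← D.sum_Pr hN X]
  apply Finset.sum_eq_zero
  intro b _
  obtain ⟨γ, hγ⟩ := D.Pr_spanR hN hX b
  have h1 : Pr R c b X w = 0 := by
    rw [Pr_apply, LinearMap.smul_apply, LinearMap.sum_apply]
    rw [Finset.sum_eq_zero, smul_zero]
    intro a _
    rw [LinearMap.smul_apply, conjR_apply, Module.End.mul_apply, Module.End.mul_apply,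
      hX0 _ (hinv' a w hw), map_zero, smul_zero]
  rw [hγ, LinearMap.smul_apply] at h1
  rcases smul_eq_zero.mp h1 with h | h
  · rw [hγ, h, zero_smul]
  · exfalso
    apply hw0
    have := congrArg (fun t => (↑(R b)⁻¹ : Module.End K U) t) h
    simp only [map_zero] at this
    rwa [← Module.End.mul_apply, Units.inv_mul, Module.End.one_apply] at this

theorem spanR_comm (D : Data R c) {X S : Module.End K U} (hX : X ∈ spanR R) (hS : S ∈ Ecomp R c 1) :
    X * S = S * X := by
  have h1 : spanR R ≤ cent K S := by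
    unfold spanR
    rw [Submodule.span_le]
    rintro _ ⟨a, rfl⟩
    have := hS a
    rw [D.c_one_right, one_smul] at this
    exact this.symm
  exact (h1 hX).symm

theorem scalar_of_mem [Fintype A] [DecidableEq A] (D : Data R c) (hN : (Fintype.card A : K) ≠ 0)
    {X : Module.End K U} (hX : X ∈ spanR R) (hS : X ∈ Ecomp R c 1) :
    ∃ l : K, X = l • (1 : Module.End K U) := by
  obtain ⟨γ, hγ⟩ := D.Pr_spanR hN hX 1
  rw [D.Pr_of_mem hN hS, if_pos rfl] at hγ
  obtain ⟨f, hf⟩ := D.R_one
  exact ⟨γ * f, by rw [hγ, hf, smul_smul]⟩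

end Data

/-- the restricted family. -/
def resR (R : A → (Module.End K U)ˣ) (q : Submodule K U)
    (hinv : ∀ a, ∀ y ∈ q, (R a : Module.End K U) y ∈ q)
    (hinv' : ∀ a, ∀ y ∈ q, (↑(R a)⁻¹ : Module.End K U) y ∈ q) : A → (Module.End K q)ˣ :=
  fun a => restrictUnit (R a) q (hinv a) (hinv' a)

omit [Nontrivial U] [Group A] in
@[simp] theorem resR_apply (q : Submodule K U) (hinv hinv') (a : A) (y : q) :
    (((resR R q hinv hinv' a : (Module.End K q)ˣ) : Module.End K q) y : U) = (R a : Module.End K U) y := rfl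

theorem Data.restrict (D : Data R c) (q : Submodule K U) [Nontrivial q] (hinv hinv') :
    Data (resR R q hinv hinv') c :=
  { comm := by
      intro a b
      ext y
      have := LinearMap.congr_fun (D.comm a b) (y : U)
      simpa using this
    mul := by
      intro a b
      obtain ⟨f, hf⟩ := D.mul a b
      refine ⟨f, ?_⟩
      ext y
      have := LinearMap.congr_fun hf (y : U)
      simpa using this
    nondeg := D.nondeg }

end Cfsg.Agent.Lib.Helper79.Heis
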