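import Mathlib
import Cfsg.Agent.Lib.Helper79.GSpan

/-! # An intertwiner inside the span of Heisenberg data -/

set_option autoImplicit false

namespace Cfsg.Agent.Lib.Helper79.Heis

open Module

universe u v w

variable {K : Type u} {U : Type v} [Field K] [AddCommGroup U] [Module K U] [Nontrivial U]
variable {A : Type w} [Group A]
variable {R : A → (Module.End K U)ˣ} {c : A → A → K}

namespace Data

theorem inv_mul_eq (D : Data R c) (a b : A) (f : K)
    (hf : (R (a * b) : Module.End K U) = f • ((R a : Module.End K U) * R b)) :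
    (↑(R (a * b))⁻¹ : Module.End K U) = f⁻¹ • ((↑(R b)⁻¹ : Module.End K U) * ↑(R a)⁻¹) := by
  have hf0 : f ≠ 0 := by
    rintro rfl
    rw [zero_smul] at hf
    exact (R (a * b)).ne_zero hf
  apply Units.inv_eq_of_mul_eq_one_right
  rw [hf, smul_mul_assoc, mul_smul_comm, smul_smul, mul_inv_cancel₀ hf0, one_smul]
  calc (R a : Module.End K U) * R b * (↑(R b)⁻¹ * ↑(R a)⁻¹)
      = (R a : Module.End K U) * ((R b : Module.End K U) * ↑(R b)⁻¹) * ↑(R a)⁻¹ := by
        simp only [mul_assoc]
    _ = 1 := by rw [Units.mul_inv, mul_one, Units.mul_inv]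

theorem conjT_eq {T : (Module.End K U)ˣ} {τ : Equiv.Perm A} (b : A) (g : K)
    (hg : (T : Module.End K U) * R b = g • ((R (τ b) : Module.End K U) * T)) :
    (T : Module.End K U) * R b * ↑T⁻¹ = g • (R (τ b) : Module.End K U) := by
  rw [hg, smul_mul_assoc, mul_assoc, Units.mul_inv, mul_one]

theorem exists_inter [FiniteDimensional K U] [Fintype A] [DecidableEq A] (D : Data R c)
    (hN : (Fintype.card A : K) ≠ 0) {T : (Module.End K U)ˣ} {τ : Equiv.Perm A}
    (hT : ∀ a, ∃ g : K, (T : Module.End K U) * R a = g • ((R (τ a) : Module.End K U) * T)) :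
    ∃ G : (Module.End K U)ˣ, (G : Module.End K U) ∈ spanR R ∧
      ∀ a, (T : Module.End K U) * R a * ↑T⁻¹ * G = G * R a := by
  let M : A → Module.End K U → Module.End K U :=
    fun b X => (T : Module.End K U) * R b * ↑T⁻¹ * X * ↑(R b)⁻¹
  let PP : Module.End K U →ₗ[K] Module.End K U :=
    ∑ b, (LinearMap.mulLeft K ((T : Module.End K U) * R b * ↑T⁻¹)) ∘ₗ
      (LinearMap.mulRight K (↑(R b)⁻¹ : Module.End K U))
  have hPP : ∀ X, PP X = ∑ b, M b X := by
    intro X
    simp only [PP, M, LinearMap.sum_apply, LinearMap.comp_apply, LinearMap.mulLeft_apply,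
      LinearMap.mulRight_apply, mul_assoc]
  have hM : ∀ a b X, M (a * b) X = (T : Module.End K U) * R a * ↑T⁻¹ * M b X * ↑(R a)⁻¹ := by
    intro a b X
    obtain ⟨f, hf⟩ := D.mul a b
    have hf0 : f ≠ 0 := by
      rintro rfl
      rw [zero_smul] at hf
      exact (R (a * b)).ne_zero hf
    simp only [M]
    rw [D.inv_mul_eq a b f hf, hf]
    simp only [mul_smul_comm, smul_mul_assoc, smul_smul, inv_mul_cancel₀ hf0, one_smul]
    simp only [mul_assoc, Units.inv_mul_cancel_left]
  have hint0 : ∀ a X, PP X = (T : Module.End K U) * R a * ↑T⁻¹ * PP X * ↑(R a)⁻¹ := by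
    intro a X
    rw [hPP, Finset.mul_sum, Finset.sum_mul]
    rw [← Fintype.sum_equiv (Equiv.mulLeft a) (fun b => M (a * b) X) (fun b => M b X) (fun b => rfl)]
    exact Finset.sum_congr rfl (fun b _ => hM a b X)
  have hint : ∀ a X, (T : Module.End K U) * R a * ↑T⁻¹ * PP X = PP X * R a := by
    intro a X
    conv_rhs => rw [hint0 a X]
    rw [mul_assoc _ (↑(R a)⁻¹ : Module.End K U), Units.inv_mul, mul_one]
  have hPPS : ∀ X S, S ∈ Ecomp R c 1 → PP (X * S) = PP X * S := by
    intro X S hS
    rw [hPP, hPP, Finset.sum_mul]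
    refine Finset.sum_congr rfl (fun b _ => ?_)
    simp only [M]
    have := D.spanR_comm (D.inv_mem_spanR b) hS
    rw [mul_assoc _ (↑(R b)⁻¹ : Module.End K U) S, this]
    simp only [mul_assoc]
  have hPPT : PP (T : Module.End K U) = (Fintype.card A : K) • (T : Module.End K U) := by
    rw [hPP]
    have : ∀ b, M b (T : Module.End K U) = T := by
      intro b
      simp only [M]
      rw [mul_assoc _ (↑T⁻¹ : Module.End K U) (T : Module.End K U), Units.inv_mul, mul_one, mul_assoc,
        Units.mul_inv, mul_one]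
    simp_rw [this]
    rw [Finset.sum_const, Finset.card_univ, Nat.cast_smul_eq_nsmul]
  obtain ⟨a0, ha0⟩ : ∃ a0, PP (R a0 : Module.End K U) ≠ 0 := by
    by_contra hcon
    push Not at hcon
    have h1 : PP (T : Module.End K U) = 0 := by
      conv_lhs => rw [← D.sum_Pr hN (T : Module.End K U)]
      rw [map_sum]
      apply Finset.sum_eq_zero
      intro a _
      have h2 := D.Pr_mem a (T : Module.End K U)
      rw [← D.map_Ecomp_one a] at h2
      obtain ⟨S, hS, hS2⟩ := h2
      rw [← hS2, LinearMap.mulLeft_apply, hPPS _ _ hS, hcon a, zero_mul]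
    rw [hPPT] at h1
    rcases smul_eq_zero.mp h1 with h | h
    · exact hN h
    · exact T.ne_zero h
  set G0 := PP (R a0 : Module.End K U) with hG0
  have hG0span : G0 ∈ spanR R := by
    rw [hG0, hPP]
    apply Submodule.sum_mem
    intro b _
    simp only [M]
    obtain ⟨g, hg⟩ := hT b
    rw [conjT_eq b g hg]
    exact D.mul_mem_spanR (D.mul_mem_spanR (Submodule.smul_mem _ _ (R_mem_spanR _)) (R_mem_spanR _))
      (D.inv_mem_spanR b)
  obtain ⟨b0, hb0⟩ : ∃ b0, Pr R c b0 G0 ≠ 0 := by
    by_contra hcon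
    push Not at hcon
    apply ha0
    rw [← D.sum_Pr hN G0]
    exact Finset.sum_eq_zero (fun b _ => hcon b)
  obtain ⟨γ, hγ⟩ := D.Pr_spanR hN hG0span b0
  have hinvrel : ∀ a, G0 * ↑(R a)⁻¹ = (T : Module.End K U) * ↑(R a)⁻¹ * ↑T⁻¹ * G0 := by
    intro a
    have h1 := hint a (R a0 : Module.End K U)
    rw [← hG0] at h1
    have h2 := congrArg (fun t => (T : Module.End K U) * ↑(R a)⁻¹ * ↑T⁻¹ * t * ↑(R a)⁻¹) h1
    simp only [mul_assoc, Units.inv_mul_cancel_left, Units.mul_inv_cancel_left, Units.mul_inv, mul_one] at h2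
    simp only [mul_assoc]
    exact h2
  have hker : LinearMap.ker G0 = ⊥ := by
    rw [LinearMap.ker_eq_bot']
    intro w hw
    have h1 : Pr R c b0 G0 w = 0 := by
      rw [Pr_apply, LinearMap.smul_apply, LinearMap.sum_apply]
      rw [Finset.sum_eq_zero, smul_zero]
      intro a _
      rw [LinearMap.smul_apply, conjR_apply, mul_assoc, hinvrel a]
      simp only [Module.End.mul_apply, hw, map_zero, smul_zero]
    rw [hγ, LinearMap.smul_apply] at h1
    rcases smul_eq_zero.mp h1 with h | h
    · exfalso; apply hb0; rw [hγ, h, zero_smul]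
    · have := congrArg (fun t => (↑(R b0)⁻¹ : Module.End K U) t) h
      simp only [map_zero] at this
      rwa [← Module.End.mul_apply, Units.inv_mul, Module.End.one_apply] at this
  obtain ⟨G, hG⟩ := (LinearMap.isUnit_iff_ker_eq_bot G0).mpr hker
  refine ⟨G, by rw [hG]; exact hG0span, ?_⟩
  intro a
  rw [hG]
  exact hint a _

end Data

end Cfsg.Agent.Lib.Helper79.Heis
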