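import Mathlib
import Cfsg.Agent.Lib.Helper79.GSpec
import Cfsg.Agent.Lib.Helper79.GInter

/-! # Free action, irreducible case -/

set_option autoImplicit false

namespace Cfsg.Agent.Lib.Helper79.Heis

open Module Polynomial

universe u v w

variable {K : Type u} {U : Type v} [Field K] [AddCommGroup U] [Module K U]
variable {A : Type w} [Group A]

theorem free_irr [IsAlgClosed K] [FiniteDimensional K U] [Nontrivial U] [Fintype A]
    {R : A → (Module.End K U)ˣ} {c : A → A → K} (D : Data R c) (hN : (Fintype.card A : K) ≠ 0)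
    (hirr : finrank K (Ecomp R c 1) = 1)
    {T : (Module.End K U)ˣ} {τ : Equiv.Perm A}
    (hT : ∀ a, ∃ g : K, (T : Module.End K U) * R a = g • ((R (τ a) : Module.End K U) * T))
    (p s : ℕ) (hp : p.Prime) (hs : 0 < s) (hpK : (p : K) ≠ 0) (hTP : T ^ (p ^ s) = 1)
    (hτ1 : τ 1 = 1) (hτP : τ ^ (p ^ s) = 1) (hfree : ∀ a, (τ ^ (p ^ (s - 1))) a = a → a = 1)
    (hA1 : 1 < Fintype.card A) :
    (∀ l₁ l₂ : K, l₁ ^ (p ^ s) = 1 → l₂ ^ (p ^ s) = 1 →
      (∀ w : U, (T : Module.End K U) w = l₁ • w → w = 0) →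
      (∀ w : U, (T : Module.End K U) w = l₂ • w → w = 0) → l₁ = l₂) ∧
    (∀ l : K, l ^ (p ^ s) = 1 → (∀ w : U, (T : Module.End K U) w = l • w → w = 0) →
      Fintype.card A = (p ^ s - 1) ^ 2) := by
  classical
  obtain ⟨Rep, m, hRep, hcard, hA⟩ := exists_rep (1 : A) τ (p ^ s) hτ1
    (fun a ha => minimalPeriod_eq_of_free 1 τ p s hp hs hτP hfree a ha)
  set P := p ^ s with hPdef
  have hP0 : 0 < P := pow_pos hp.pos s
  have hP2 : 2 ≤ P := by
    calc 2 ≤ p := hp.two_le
      _ = p ^ 1 := (pow_one p).symm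
      _ ≤ p ^ s := Nat.pow_le_pow_right hp.pos hs
  have hPK : (P : K) ≠ 0 := by rw [hPdef]; push_cast; exact pow_ne_zero s hpK
  have h1 := D.finrank_eq hN
  have h2 := D.finrank_cent_le hN hT Rep hRep
  have hTP' : (T : Module.End K U) ^ P = 1 := by
    have := congrArg Units.val hTP
    simpa using this
  obtain ⟨sp, n, hsp, hnpos, hsum, hsq⟩ := spec_data (T : Module.End K U) P hPK hTP'
  have h4 : finrank K (Module.End K U) = (finrank K U) ^ 2 := by
    rw [Module.finrank_linearMap, sq]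
  set uu := finrank K U
  rw [h4, hirr, mul_one] at h1
  rw [hirr, mul_one, hcard] at h2
  have hle1 : uu ≤ m + 1 := by
    calc uu = ∑ x ∈ sp, n x := hsum.symm
      _ ≤ ∑ x ∈ sp, (n x) ^ 2 := Finset.sum_le_sum (fun x _ => Nat.le_self_pow (by norm_num) _)
      _ ≤ m + 1 := hsq.trans h2
  have hcs : uu ^ 2 ≤ sp.card * (m + 1) := by
    calc uu ^ 2 = (∑ x ∈ sp, n x) ^ 2 := by rw [hsum]
      _ ≤ sp.card * ∑ x ∈ sp, (n x) ^ 2 := sq_sum_le_card_mul_sum_sq
      _ ≤ sp.card * (m + 1) := Nat.mul_le_mul_left _ (hsq.trans h2)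
  have huu : 2 ≤ uu := by
    by_contra h
    have : uu ≤ 1 := by omega
    have : uu ^ 2 ≤ 1 := by nlinarith
    omega
  obtain ⟨P', hP'⟩ : ∃ P', P = P' + 2 := ⟨P - 2, by omega⟩
  obtain ⟨u', hu'⟩ : ∃ u', uu = u' + 2 := ⟨uu - 2, by omega⟩
  have hrel : uu ^ 2 = P * m + 1 := by rw [h1, hA]
  have hm0 : 0 < m := by
    rcases Nat.eq_zero_or_pos m with h | h
    · rw [h, mul_zero] at hrel
      nlinarith
    · exact h
  -- P ≤ uu + 1
  have hPle : P ≤ uu + 1 := by
    by_contra h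
    have h5 : uu + 2 ≤ P := by omega
    have h6 : (uu + 2) * m ≤ P * m := Nat.mul_le_mul_right _ h5
    rw [hu'] at h6 hrel hle1
    nlinarith
  have hmge : P' ≤ m := by
    by_contra h
    have h5 : m + 1 ≤ P' := by omega
    rw [hP', hu'] at hrel
    rw [hP', hu'] at hPle
    have h6 : P' ≤ u' + 1 := by omega
    nlinarith
  have hroots : (nthRootsFinset P (1 : K)).card ≤ P := by
    unfold nthRootsFinset
    exact (Multiset.toFinset_card_le _).trans (card_nthRoots P 1)
  have hsub : ∀ l : K, (∀ w : U, (T : Module.End K U) w = l • w → w = 0) → l ∉ sp := by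
    intro l hl hmem
    obtain ⟨-, w, hw0, hw⟩ := hsp l hmem
    exact hw0 (hl w hw)
  have hsp' : sp ⊆ nthRootsFinset P (1 : K) := by
    intro x hx
    rw [mem_nthRootsFinset hP0]
    exact (hsp x hx).1
  refine ⟨?_, ?_⟩
  · intro l₁ l₂ h₁ h₂ hm₁ hm₂
    by_contra hne
    have hs2 : sp ⊆ ((nthRootsFinset P (1 : K)).erase l₁).erase l₂ := by
      intro x hx
      refine Finset.mem_erase.mpr ⟨?_, Finset.mem_erase.mpr ⟨?_, hsp' hx⟩⟩
      · rintro rfl; exact hsub _ hm₂ hx
      · rintro rfl; exact hsub _ hm₁ hx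
    have hc := Finset.card_le_card hs2
    have hl1 : l₁ ∈ nthRootsFinset P (1 : K) := by rw [mem_nthRootsFinset hP0]; exact h₁
    have hl2 : l₂ ∈ (nthRootsFinset P (1 : K)).erase l₁ := by
      refine Finset.mem_erase.mpr ⟨fun h => hne h.symm, ?_⟩
      rw [mem_nthRootsFinset hP0]; exact h₂
    rw [Finset.card_erase_of_mem hl2, Finset.card_erase_of_mem hl1] at hc
    have hc2 : sp.card ≤ P' := by omega
    have h7 : uu ^ 2 ≤ P' * (m + 1) := hcs.trans (Nat.mul_le_mul_right _ hc2)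
    rw [hrel, hP'] at h7
    have h7' : P' * m + 2 * m + 1 ≤ P' * m + P' := by
      calc P' * m + 2 * m + 1 = (P' + 2) * m + 1 := by ring
        _ ≤ P' * (m + 1) := h7
        _ = P' * m + P' := by ring
    generalize P' * m = z at h7'
    omega
  · intro l h₁ hm₁
    have hs2 : sp ⊆ (nthRootsFinset P (1 : K)).erase l := by
      intro x hx
      refine Finset.mem_erase.mpr ⟨?_, hsp' hx⟩
      rintro rfl; exact hsub _ hm₁ hx
    have hc := Finset.card_le_card hs2
    have hl1 : l ∈ nthRootsFinset P (1 : K) := by rw [mem_nthRootsFinset hP0]; exact h₁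
    rw [Finset.card_erase_of_mem hl1] at hc
    have hc2 : sp.card ≤ P' + 1 := by omega
    have h7 : uu ^ 2 ≤ (P' + 1) * (m + 1) := hcs.trans (Nat.mul_le_mul_right _ hc2)
    rw [hrel, hP'] at h7
    have h7' : P' * m + 2 * m + 1 ≤ P' * m + P' + m + 1 := by
      calc P' * m + 2 * m + 1 = (P' + 2) * m + 1 := by ring
        _ ≤ (P' + 1) * (m + 1) := h7
        _ = P' * m + P' + m + 1 := by ring
    have h8 : m ≤ P' := by
      generalize P' * m = z at h7'
      omega
    have h9 : m = P' := le_antisymm h8 hmge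
    rw [hA, hP', h9]
    have : P' + 2 - 1 = P' + 1 := by omega
    rw [this]; ring

end Cfsg.Agent.Lib.Helper79.Heis
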