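import Mathlib
import Cfsg.Agent.Lib.Helper79.HeisComm

/-! # Weight decompositions and orbit sums -/

set_option autoImplicit false

namespace Cfsg.Agent.Lib.Helper79.HW

open Module

universe u v w

variable {K : Type u} [Field K] {W : Type v} [AddCommGroup W] [Module K W]

theorem orbit_sum_ne_zero {I : Type*} (Wf : I → Submodule K W) (hind : iSupIndep Wf) (π : I → I)
    (T : Module.End K W) (hT : ∀ i, ∀ x ∈ Wf i, T x ∈ Wf (π i)) (i0 : I) (m : ℕ) (hm : 0 < m)
    (hmin : ∀ l, 0 < l → l < m → π^[l] i0 ≠ i0) (x : W) (hx : x ∈ Wf i0) (hx0 : x ≠ 0) :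
    ∑ l ∈ Finset.range m, (T ^ l) x ≠ 0 := by
  intro hsum
  have hTl : ∀ l, (T ^ l) x ∈ Wf (π^[l] i0) := by
    intro l
    induction l with
    | zero => simpa using hx
    | succ l ih =>
      rw [pow_succ', Module.End.mul_apply, Function.iterate_succ_apply']
      exact hT _ _ ih
  obtain ⟨m', rfl⟩ : ∃ m', m = m' + 1 := ⟨m - 1, by omega⟩
  rw [Finset.sum_range_succ'] at hsum
  simp only [pow_zero, Module.End.one_apply] at hsum
  have h1 : x = - ∑ l ∈ Finset.range m', (T ^ (l + 1)) x := by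
    rw [eq_neg_iff_add_eq_zero, add_comm]; exact hsum
  have h2 : x ∈ ⨆ j, ⨆ (_ : j ≠ i0), Wf j := by
    rw [h1]
    apply Submodule.neg_mem
    apply Submodule.sum_mem
    intro l hl
    have hl' := Finset.mem_range.mp hl
    have hne := hmin (l + 1) (by omega) (by omega)
    exact Submodule.mem_iSup_of_mem _ (Submodule.mem_iSup_of_mem hne (hTl (l + 1)))
  exact hx0 (Submodule.disjoint_def.mp (hind i0) x hx h2)

theorem orbit_sum_fixed (T : Module.End K W) (m : ℕ) (x : W) (hTx : (T ^ m) x = x) :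
    T (∑ l ∈ Finset.range m, (T ^ l) x) = ∑ l ∈ Finset.range m, (T ^ l) x := by
  rw [map_sum]
  have h1 : ∀ l, T ((T ^ l) x) = (T ^ (l + 1)) x := by
    intro l; rw [pow_succ', Module.End.mul_apply]
  simp_rw [h1]
  have h2 := Finset.sum_range_succ' (fun l => (T ^ l) x) m
  have h3 := Finset.sum_range_succ (fun l => (T ^ l) x) m
  rw [h3] at h2
  simp only [pow_zero, Module.End.one_apply, hTx] at h2
  exact (add_right_cancel h2).symm

variable {Q : Type w} [Group Q]

/-- restriction of a representation to an invariant subspace. -/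
def resRep (ρ : Q →* Module.End K W) (q : Submodule K W) (h : ∀ x, ∀ y ∈ q, ρ x y ∈ q) :
    Q →* Module.End K q where
  toFun x := (ρ x).restrict (h x)
  map_one' := by ext; simp
  map_mul' := by intro a b; ext; simp

@[simp] theorem resRep_apply (ρ : Q →* Module.End K W) (q : Submodule K W) (h) (x : Q) (y : q) :
    ((resRep ρ q h x) y : W) = ρ x y := rfl

open scoped Classical in
/-- the commuting family attached to a subgroup acting centrally. -/
noncomputable def fam (ρ : Q →* Module.End K W) (Y : Subgroup Q) (x : Q) : Module.End K W :=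
  if x ∈ Y then ρ x else 1

theorem fam_of_mem (ρ : Q →* Module.End K W) {Y : Subgroup Q} {x : Q} (h : x ∈ Y) : fam ρ Y x = ρ x := by
  simp [fam, h]

theorem fam_of_not_mem (ρ : Q →* Module.End K W) {Y : Subgroup Q} {x : Q} (h : x ∉ Y) : fam ρ Y x = 1 := by
  simp [fam, h]

/-- weight spaces. -/
noncomputable def wt (ρ : Q →* Module.End K W) (Y : Subgroup Q) (χ : Q → K) : Submodule K W :=
  ⨅ x, (fam ρ Y x).maxGenEigenspace (χ x)

theorem rep_pow_card [Finite Q] (ρ : Q →* Module.End K W) (x : Q) : (ρ x) ^ (Nat.card Q) = 1 := by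
  rw [← map_pow, pow_card_eq_one', map_one]

theorem fam_semisimple [Finite Q] (ρ : Q →* Module.End K W) (Y : Subgroup Q) (hQ : (Nat.card Q : K) ≠ 0)
    (x : Q) : (fam ρ Y x).IsSemisimple := by
  apply Heis.isSemisimple_of_pow_eq_one _ (Nat.card Q) hQ
  by_cases h : x ∈ Y
  · rw [fam_of_mem ρ h]; exact rep_pow_card ρ x
  · rw [fam_of_not_mem ρ h, one_pow]

theorem mem_wt [Finite Q] (ρ : Q →* Module.End K W) (Y : Subgroup Q) (hQ : (Nat.card Q : K) ≠ 0)
    (χ : Q → K) (y : W) : y ∈ wt ρ Y χ ↔ ∀ x, fam ρ Y x y = χ x • y := by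
  unfold wt
  rw [Submodule.mem_iInf]
  refine forall_congr' (fun x => ?_)
  rw [(fam_semisimple ρ Y hQ x).isFinitelySemisimple.maxGenEigenspace_eq_eigenspace,
    Module.End.mem_eigenspace_iff]

theorem fam_commute (ρ : Q →* Module.End K W) (Y : Subgroup Q)
    (hY : ∀ y ∈ Y, ∀ x, ρ y * ρ x = ρ x * ρ y) (x x' : Q) : Commute (fam ρ Y x) (fam ρ Y x') := by
  by_cases h : x ∈ Y
  · by_cases h' : x' ∈ Y
    · rw [fam_of_mem ρ h, fam_of_mem ρ h']; exact hY x h x'
    · rw [fam_of_not_mem ρ h']; exact Commute.one_right _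
  · rw [fam_of_not_mem ρ h]; exact Commute.one_left _

theorem wt_indep (ρ : Q →* Module.End K W) (Y : Subgroup Q)
    (hY : ∀ y ∈ Y, ∀ x, ρ y * ρ x = ρ x * ρ y) : iSupIndep (wt ρ Y) := by
  apply Module.End.independent_iInf_maxGenEigenspace_of_forall_mapsTo
  intro i j φ
  exact Module.End.mapsTo_maxGenEigenspace_of_comm (fam_commute ρ Y hY j i) φ

theorem wt_iSup [IsAlgClosed K] [FiniteDimensional K W] (ρ : Q →* Module.End K W) (Y : Subgroup Q)
    (hY : ∀ y ∈ Y, ∀ x, ρ y * ρ x = ρ x * ρ y) : ⨆ χ, wt ρ Y χ = ⊤ := by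
  apply Module.End.iSup_iInf_maxGenEigenspace_eq_top_of_iSup_maxGenEigenspace_eq_top_of_commute
  · intro i j _
    exact fam_commute ρ Y hY i j
  · intro i
    exact Module.End.iSup_maxGenEigenspace_eq_top _

theorem wt_invariant [Finite Q] (ρ : Q →* Module.End K W) (Y : Subgroup Q) (hQ : (Nat.card Q : K) ≠ 0)
    (hY : ∀ y ∈ Y, ∀ x, ρ y * ρ x = ρ x * ρ y) (χ : Q → K) (x : Q) (y : W) (hy : y ∈ wt ρ Y χ) :
    ρ x y ∈ wt ρ Y χ := by
  rw [mem_wt ρ Y hQ] at hy ⊢
  intro z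
  by_cases h : z ∈ Y
  · have h1 := hy z
    rw [fam_of_mem ρ h] at h1 ⊢
    rw [← Module.End.mul_apply, hY z h x, Module.End.mul_apply, h1, map_smul]
  · have h1 := hy z
    rw [fam_of_not_mem ρ h] at h1 ⊢
    simp only [Module.End.one_apply] at h1 ⊢
    conv_lhs => rw [h1]
    rw [map_smul]

theorem wt_map [Finite Q] (ρ : Q →* Module.End K W) (Y : Subgroup Q) (hQ : (Nat.card Q : K) ≠ 0)
    (θ : MulAut Q) (hθY : ∀ x, x ∈ Y ↔ θ x ∈ Y) (T : Module.End K W) (hT : ∀ x, T * ρ x = ρ (θ x) * T)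
    (χ : Q → K) (y : W) (hy : y ∈ wt ρ Y χ) : T y ∈ wt ρ Y (fun x => χ (θ⁻¹ x)) := by
  rw [mem_wt ρ Y hQ] at hy ⊢
  intro z
  have hz : θ⁻¹ z ∈ Y ↔ z ∈ Y := by
    rw [hθY (θ⁻¹ z)]; simp
  have h1 := hy (θ⁻¹ z)
  by_cases h : z ∈ Y
  · rw [fam_of_mem ρ h]
    rw [fam_of_mem ρ (hz.mpr h)] at h1
    have h2 := hT (θ⁻¹ z)
    rw [MulAut.apply_inv_self] at h2
    rw [← Module.End.mul_apply, ← h2, Module.End.mul_apply, h1, map_smul]
  · rw [fam_of_not_mem ρ h]
    rw [fam_of_not_mem ρ (fun h' => h (hz.mp h'))] at h1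
    simp only [Module.End.one_apply] at h1 ⊢
    conv_lhs => rw [h1]
    rw [map_smul]

end Cfsg.Agent.Lib.Helper79.HW
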