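import Mathlib
import Cfsg.Agent.Lib.Helper79.GFreeIrr
import Cfsg.Agent.Lib.Helper79.HWeights

/-! # Free action, general commutant -/

set_option autoImplicit false

namespace Cfsg.Agent.Lib.Helper79.Heis

open Module Polynomial

universe u v w

variable {K : Type u} {U : Type v} [Field K] [AddCommGroup U] [Module K U]
variable {A : Type w} [Group A]

theorem exists_irr_sub [IsAlgClosed K] [FiniteDimensional K U] [Nontrivial U]
    {R : A → (Module.End K U)ˣ} {c : A → A → K} (D : Data R c) :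
    ∃ (H : Submodule K U) (_ : H ≠ ⊥) (hinv : ∀ a, ∀ y ∈ H, (R a : Module.End K U) y ∈ H)
      (hinv' : ∀ a, ∀ y ∈ H, (↑(R a)⁻¹ : Module.End K U) y ∈ H),
      finrank K (Ecomp (resR R H hinv hinv') c 1) = 1 := by
  let 𝒮 : Set (Submodule K U) := {q | q ≠ ⊥ ∧ ∀ a, ∀ y ∈ q, (R a : Module.End K U) y ∈ q}
  have hne : 𝒮.Nonempty := ⟨⊤, top_ne_bot, fun _ _ _ => trivial⟩
  obtain ⟨H, ⟨hH0, hinv⟩, hmin⟩ := WellFounded.has_min (wellFounded_lt (α := Submodule K U)) 𝒮 hne
  have hinv' := D.inv_invariant H hinv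
  refine ⟨H, hH0, hinv, hinv', ?_⟩
  haveI : Nontrivial H := Submodule.nontrivial_iff_ne_bot.mpr hH0
  have D' := D.restrict H hinv hinv'
  set R' := resR R H hinv hinv' with hR'
  have hsc : ∀ S ∈ Ecomp R' c 1, ∃ l : K, S = l • (1 : Module.End K H) := by
    intro S hS
    obtain ⟨l, hl⟩ := Module.End.exists_eigenvalue S
    refine ⟨l, ?_⟩
    have hcomm : ∀ a, (R' a : Module.End K H) * S = S * R' a := by
      intro a
      have := hS a
      rwa [D'.c_one_right, one_smul] at this
    set q := (S.eigenspace l).map H.subtype with hq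
    have hqH : q ≤ H := by
      rintro _ ⟨y, _, rfl⟩
      exact y.2
    have hq𝒮 : q ∈ 𝒮 := by
      refine ⟨?_, ?_⟩
      · intro h
        apply hl
        rw [Submodule.eq_bot_iff]
        intro y hy
        have h1 : (y : U) ∈ q := ⟨y, hy, rfl⟩
        rw [h, Submodule.mem_bot] at h1
        exact Subtype.ext h1
      · rintro a _ ⟨y, hy, rfl⟩
        refine ⟨(R' a : Module.End K H) y, ?_, rfl⟩
        rw [SetLike.mem_coe, Module.End.mem_eigenspace_iff] at hy ⊢
        rw [← Module.End.mul_apply, ← hcomm a, Module.End.mul_apply, hy, map_smul]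
    have hqeq : q = H := by
      by_contra hne'
      exact hmin q hq𝒮 (lt_of_le_of_ne hqH hne')
    ext y
    have hy : (y : U) ∈ q := by rw [hqeq]; exact y.2
    obtain ⟨y', hy', hyy⟩ := hy
    have : y' = y := Subtype.ext hyy
    rw [this, SetLike.mem_coe, Module.End.mem_eigenspace_iff] at hy'
    rw [hy']; simp
  have h1mem : (1 : Module.End K H) ∈ Ecomp R' c 1 := by
    intro a
    rw [D'.c_one_right]; simp
  rw [finrank_eq_one_iff_of_nonzero' (⟨1, h1mem⟩ : Ecomp R' c 1) (by
    intro h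
    have := congrArg Subtype.val h
    exact one_ne_zero this)]
  rintro ⟨S, hS⟩
  obtain ⟨l, hl⟩ := hsc S hS
  exact ⟨l, by ext1; simp [hl]⟩

theorem no_eigen_global [Nontrivial U] [Fintype A]
    {R : A → (Module.End K U)ˣ} {c : A → A → K} (D : Data R c) (hN : (Fintype.card A : K) ≠ 0)
    (G : Module.End K U) (hG : G ∈ spanR R) (P : ℕ) (hPK : (P : K) ≠ 0) (hGP : G ^ P = 1)
    (l : K) (hl : l ^ P = 1) (q : Submodule K U) (hq : q ≠ ⊥)
    (hinv : ∀ a, ∀ y ∈ q, (R a : Module.End K U) y ∈ q)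
    (hno : ∀ w ∈ q, G w = l • w → w = 0) : ∀ w, G w = l • w → w = 0 := by
  classical
  have hl0 : l ≠ 0 := by
    rintro rfl
    have hP0 : P ≠ 0 := by rintro rfl; simp at hPK
    rw [zero_pow hP0] at hl
    exact zero_ne_one hl
  set Tt : Module.End K U := l⁻¹ • G with hTt
  have hTtspan : Tt ∈ spanR R := Submodule.smul_mem _ _ hG
  have hTtP : Tt ^ P = 1 := by
    rw [hTt, _root_.smul_pow, hGP, inv_pow, hl, inv_one, one_smul]
  set e : Module.End K U := ∑ i ∈ Finset.range P, Tt ^ i with he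
  have hespan : e ∈ spanR R := Submodule.sum_mem _ (fun i _ => D.pow_mem_spanR hTtspan i)
  have heapp : ∀ w, e w = ∑ i ∈ Finset.range P, (Tt ^ i) w := by
    intro w; rw [he, LinearMap.sum_apply]
  have hfix : ∀ w, G (e w) = l • e w := by
    intro w
    have h1 := HW.orbit_sum_fixed Tt P w (by rw [hTtP]; rfl)
    rw [← heapp, hTt, LinearMap.smul_apply] at h1
    calc G (e w) = l • (l⁻¹ • G (e w)) := by rw [smul_smul, mul_inv_cancel₀ hl0, one_smul]
      _ = l • e w := by rw [h1]
  have he0 : e = 0 := by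
    apply D.eq_zero_of_vanish hN hespan q hq hinv
    intro y hy
    exact hno _ (spanR_invariant q hinv hespan y hy) (hfix y)
  intro w hw
  have h1 : Tt w = w := by
    rw [hTt, LinearMap.smul_apply, hw, smul_smul, inv_mul_cancel₀ hl0, one_smul]
  have h2 : ∀ i : ℕ, (Tt ^ i) w = w := by
    intro i
    induction i with
    | zero => simp
    | succ i ih => rw [pow_succ, Module.End.mul_apply, h1, ih]
  have h3 := heapp w
  rw [he0] at h3
  simp_rw [h2] at h3
  rw [Finset.sum_const, Finset.card_range, LinearMap.zero_apply, ← Nat.cast_smul_eq_nsmul K] at h3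
  rcases smul_eq_zero.mp h3.symm with h | h
  · exact absurd h hPK
  · exact h

end Cfsg.Agent.Lib.Helper79.Heis
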