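import Mathlib
import Cfsg.Agent.Lib.Helper79.GFreeMain

/-! # Free action, general commutant: the main statement -/

set_option autoImplicit false

namespace Cfsg.Agent.Lib.Helper79.Heis

open Module

universe u v w

variable {K : Type u} {U : Type v} [Field K] [AddCommGroup U] [Module K U]
variable {A : Type w} [Group A]

theorem Data.mem_Ecomp_one [Nontrivial U] {R : A → (Module.End K U)ˣ} {c : A → A → K} (D : Data R c)
    {X : Module.End K U} (h : ∀ a, (R a : Module.End K U) * X = X * R a) : X ∈ Ecomp R c 1 := by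
  intro a
  rw [D.c_one_right, one_smul]
  exact h a

theorem free_main [IsAlgClosed K] [FiniteDimensional K U] [Nontrivial U] [Fintype A]
    {R : A → (Module.End K U)ˣ} {c : A → A → K} (D : Data R c) (hN : (Fintype.card A : K) ≠ 0)
    {T : (Module.End K U)ˣ} {τ : Equiv.Perm A}
    (hT : ∀ a, ∃ g : K, (T : Module.End K U) * R a = g • ((R (τ a) : Module.End K U) * T))
    (p s : ℕ) (hp : p.Prime) (hs : 0 < s) (hpK : (p : K) ≠ 0) (hTP : T ^ (p ^ s) = 1)
    (hτ1 : τ 1 = 1) (hτP : τ ^ (p ^ s) = 1) (hfree : ∀ a, (τ ^ (p ^ (s - 1))) a = a → a = 1)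
    (hA1 : 1 < Fintype.card A) (l₁ l₂ : K) (h₁ : l₁ ^ (p ^ s) = 1) (h₂ : l₂ ^ (p ^ s) = 1)
    (hm₁ : ∀ w : U, (T : Module.End K U) w = l₁ • w → w = 0)
    (hm₂ : ∀ w : U, (T : Module.End K U) w = l₂ • w → w = 0) :
    l₁ = l₂ ∧ Fintype.card A = (p ^ s - 1) ^ 2 ∧
      ∀ S ∈ Ecomp R c 1, (T : Module.End K U) * S = S * T := by
  classical
  set P := p ^ s with hPdef
  have hP0 : 0 < P := pow_pos hp.pos s
  have hPK : (P : K) ≠ 0 := by rw [hPdef]; push_cast; exact pow_ne_zero s hpK
  obtain ⟨G, hGspan, hGint⟩ := D.exists_inter hN hT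
  set S0 : (Module.End K U)ˣ := G⁻¹ * T with hS0
  have hcommR : ∀ a, Commute (R a) S0 := by
    intro a
    have h1 : T * R a * T⁻¹ * G = G * R a := Units.ext (by simpa using hGint a)
    have h2 : R a = G⁻¹ * (T * R a * T⁻¹ * G) := by rw [h1]; group
    show R a * S0 = S0 * R a
    rw [hS0]
    calc R a * (G⁻¹ * T) = G⁻¹ * (T * R a * T⁻¹ * G) * (G⁻¹ * T) := by rw [← h2]
      _ = G⁻¹ * T * R a := by group
  have hS0mem : (S0 : Module.End K U) ∈ Ecomp R c 1 := by
    apply D.mem_Ecomp_one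
    intro a
    have := congrArg Units.val (hcommR a).eq
    simpa using this
  have hGS : Commute G S0 := by
    show G * S0 = S0 * G
    exact Units.ext (by simpa using D.spanR_comm hGspan hS0mem)
  have hTGS : T = G * S0 := by rw [hS0]; group
  have hGP : G ^ P * S0 ^ P = 1 := by rw [← hGS.mul_pow, ← hTGS, hTP]
  have hGPinv : G ^ P = (S0 ^ P)⁻¹ := eq_inv_of_mul_eq_one_left hGP
  have hGPmem : (G : Module.End K U) ^ P ∈ Ecomp R c 1 := by
    apply D.mem_Ecomp_one
    intro a
    have h1 : Commute (R a) (G ^ P) := by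
      rw [hGPinv]
      exact ((hcommR a).pow_right P).inv_right
    have := congrArg Units.val h1.eq
    simpa using this
  obtain ⟨κ, hκ⟩ := D.scalar_of_mem hN (D.pow_mem_spanR hGspan P) hGPmem
  have hκ0 : κ ≠ 0 := by
    rintro rfl
    rw [zero_smul] at hκ
    have := (G ^ P).ne_zero
    apply this
    simpa using hκ
  obtain ⟨ν, hν⟩ := IsAlgClosed.exists_pow_nat_eq κ hP0
  have hν0 : ν ≠ 0 := by
    rintro rfl
    rw [zero_pow hP0.ne'] at hν
    exact hκ0 hν.symm
  set G1 : Module.End K U := ν⁻¹ • (G : Module.End K U) with hG1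
  set S1 : Module.End K U := ν • (S0 : Module.End K U) with hS1
  have hG1P : G1 ^ P = 1 := by
    rw [hG1, smul_pow, hκ, inv_pow, hν, smul_smul, inv_mul_cancel₀ hκ0, one_smul]
  have hT1 : (T : Module.End K U) = G1 * S1 := by
    rw [hG1, hS1, smul_mul_assoc, mul_smul_comm, smul_smul, inv_mul_cancel₀ hν0, one_smul, hTGS]
    simp
  have hG1span : G1 ∈ spanR R := Submodule.smul_mem _ _ hGspan
  have hS1mem : S1 ∈ Ecomp R c 1 := Submodule.smul_mem _ _ hS0mem
  have hG1S1 : Commute G1 S1 := D.spanR_comm hG1span hS1mem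
  have hS1P : S1 ^ P = 1 := by
    have h1 : ((T : Module.End K U)) ^ P = 1 := by
      have := congrArg Units.val hTP
      simpa using this
    rw [hT1, hG1S1.mul_pow, hG1P, one_mul] at h1
    exact h1
  have hS1comm : ∀ a, (R a : Module.End K U) * S1 = S1 * R a := by
    intro a
    have := hS1mem a
    rwa [D.c_one_right, one_smul] at this
  have hG1int : ∀ a, ∃ g : K, G1 * R a = g • ((R (τ a) : Module.End K U) * G1) := by
    intro a
    obtain ⟨g, hg⟩ := hT a
    refine ⟨g, ?_⟩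
    have h1 := hGint a
    rw [Data.conjT_eq a g hg] at h1
    rw [hG1, smul_mul_assoc, ← h1, mul_smul_comm, smul_mul_assoc, smul_comm]
  obtain ⟨H, hH0, hinv, hinv', hirr⟩ := exists_irr_sub D
  haveI : Nontrivial H := Submodule.nontrivial_iff_ne_bot.mpr hH0
  have D' := D.restrict H hinv hinv'
  set G1H : Module.End K H := G1.restrict (spanR_invariant H hinv hG1span) with hG1H
  have hG1HP : G1H ^ P = 1 := by
    rw [hG1H, Module.End.pow_restrict]
    ext y
    simp only [LinearMap.restrict_coe_apply, Module.End.one_apply]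
    rw [hG1P]; rfl
  set Gu : (Module.End K H)ˣ := Units.ofPowEqOne G1H P hG1HP hP0.ne' with hGu
  have hGuval : (Gu : Module.End K H) = G1H := rfl
  obtain ⟨F1, F2⟩ := free_irr D' hN hirr (T := Gu) (τ := τ)
    (by
      intro a
      obtain ⟨g, hg⟩ := hG1int a
      refine ⟨g, ?_⟩
      ext y
      have := LinearMap.congr_fun hg (y : U)
      simpa [hGuval, hG1H] using this)
    p s hp hs hpK
    (by
      ext1
      simp [hGuval, hG1HP, ← hPdef])
    hτ1 hτP hfree hA1
  have key : ∀ σ₀ : K, S1.HasEigenvalue σ₀ → ∀ l : K, l ^ P = 1 →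
      (∀ w : U, (T : Module.End K U) w = l • w → w = 0) →
      σ₀ ≠ 0 ∧ (l * σ₀⁻¹) ^ P = 1 ∧ ∀ w : H, (Gu : Module.End K H) w = (l * σ₀⁻¹) • w → w = 0 := by
    intro σ₀ hσ l hl hml
    obtain ⟨w0, hw0⟩ := hσ.exists_hasEigenvector
    have hw0e : S1 w0 = σ₀ • w0 := hw0.apply_eq_smul
    have hpw : ∀ k : ℕ, (S1 ^ k) w0 = σ₀ ^ k • w0 := by
      intro k
      induction k with
      | zero => simp
      | succ k ih => rw [pow_succ', Module.End.mul_apply, ih, map_smul, hw0e, smul_smul, pow_succ]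
    have hσP : σ₀ ^ P = 1 := by
      have h2 := hpw P
      rw [hS1P, Module.End.one_apply] at h2
      have h3 : (σ₀ ^ P - 1) • w0 = 0 := by rw [sub_smul, ← h2, one_smul, sub_self]
      rcases smul_eq_zero.mp h3 with h | h
      · exact sub_eq_zero.mp h
      · exact absurd h hw0.2
    have hσ0 : σ₀ ≠ 0 := by
      rintro rfl
      rw [zero_pow hP0.ne'] at hσP
      exact zero_ne_one hσP
    have hlP : (l * σ₀⁻¹) ^ P = 1 := by rw [mul_pow, inv_pow, hl, hσP]; simp
    refine ⟨hσ0, hlP, ?_⟩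
    have hglob := no_eigen_global D hN G1 hG1span P hPK hG1P (l * σ₀⁻¹) hlP (S1.eigenspace σ₀) hσ
      (by
        intro a y hy
        rw [Module.End.mem_eigenspace_iff] at hy ⊢
        rw [← Module.End.mul_apply, ← hS1comm a, Module.End.mul_apply, hy, map_smul])
      (by
        intro w hw hGw
        rw [Module.End.mem_eigenspace_iff] at hw
        apply hml
        rw [hT1, Module.End.mul_apply, hw, map_smul, hGw, smul_smul]
        congr 1
        field_simp)
    intro w hw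
    have h1 := congrArg Subtype.val hw
    have h2 : G1 (w : U) = (l * σ₀⁻¹) • (w : U) := by simpa [hGuval, hG1H] using h1
    exact Subtype.ext (hglob _ h2)
  obtain ⟨σ₀, hσ₀⟩ := Module.End.exists_eigenvalue S1
  obtain ⟨hσ0, ha1, ha2⟩ := key σ₀ hσ₀ l₁ h₁ hm₁
  obtain ⟨-, hb1, hb2⟩ := key σ₀ hσ₀ l₂ h₂ hm₂
  have hl10 : l₁ ≠ 0 := by
    rintro rfl
    rw [zero_pow hP0.ne'] at h₁
    exact zero_ne_one h₁
  refine ⟨?_, F2 _ ha1 ha2, ?_⟩
  · exact mul_right_cancel₀ (inv_ne_zero hσ0) (F1 _ _ ha1 hb1 ha2 hb2)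
  · have huniq : ∀ σ₁ : K, S1.HasEigenvalue σ₁ → σ₁ = σ₀ := by
      intro σ₁ hσ₁
      obtain ⟨-, hc1, hc2⟩ := key σ₁ hσ₁ l₁ h₁ hm₁
      have := mul_left_cancel₀ hl10 (F1 _ _ hc1 ha1 hc2 ha2)
      exact inv_injective this
    have htop : S1.eigenspace σ₀ = ⊤ := by
      rw [eq_top_iff, ← (isSemisimple_of_pow_eq_one S1 P hPK hS1P).iSup_eigenspace_eq_top]
      apply iSup_le
      intro μ
      by_cases hμ : S1.eigenspace μ = ⊥
      · rw [hμ]; exact bot_le
      · rw [huniq μ hμ]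
    have hS1sc : S1 = σ₀ • (1 : Module.End K U) := by
      ext y
      have : y ∈ S1.eigenspace σ₀ := by rw [htop]; trivial
      rw [Module.End.mem_eigenspace_iff] at this
      simpa using this
    have hTspan : (T : Module.End K U) ∈ spanR R := by
      rw [hT1, hS1sc, mul_smul_comm, mul_one]
      exact Submodule.smul_mem _ _ hG1span
    intro S hS
    exact D.spanR_comm hTspan hS

end Cfsg.Agent.Lib.Helper79.Heis
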