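import Mathlib

/-! # Elementary facts on fixed-point-free automorphisms -/

set_option autoImplicit false

namespace Cfsg.Agent.Lib.Helper79.HW

universe u

variable {G : Type u} [Group G]

/-- if `σ` is fixed-point-free, `M` is `σ`-invariant and `x⁻¹ σ(x) ∈ M` then `x ∈ M`. -/
theorem fpf_mem [Finite G] (σ : MulAut G) (hfpf : ∀ g, σ g = g → g = 1) (M : Subgroup G)
    (hM : ∀ m ∈ M, σ m ∈ M) (x : G) (hx : x⁻¹ * σ x ∈ M) : x ∈ M := by
  let δ : M → M := fun m => ⟨(m : G)⁻¹ * σ m, mul_mem (inv_mem m.2) (hM m m.2)⟩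
  have hinj : Function.Injective δ := by
    intro a b hab
    have h1 : (a : G)⁻¹ * σ a = (b : G)⁻¹ * σ b := congrArg Subtype.val hab
    have h2 : σ ((a : G) * (b : G)⁻¹) = (a : G) * (b : G)⁻¹ := by
      rw [map_mul, map_inv]
      have h3 : σ (a : G) = a * ((b : G)⁻¹ * σ b) := by rw [← h1]; group
      rw [h3]; group
    have h4 := hfpf _ h2
    exact Subtype.ext (mul_inv_eq_one.mp h4)
  obtain ⟨m, hm⟩ := Finite.surjective_of_injective hinj ⟨_, hx⟩
  have h1 : (m : G)⁻¹ * σ m = x⁻¹ * σ x := congrArg Subtype.val hm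
  have h2 : σ (x * (m : G)⁻¹) = x * (m : G)⁻¹ := by
    rw [map_mul, map_inv]
    have h3 : σ x = x * ((m : G)⁻¹ * σ m) := by rw [h1]; group
    rw [h3]; group
  have h4 := hfpf _ h2
  rw [mul_inv_eq_one.mp h4]
  exact m.2

theorem fpf_coprime [Finite G] (σ : MulAut G) (p n : ℕ) (hp : p.Prime) (hσ : σ ^ (p ^ n) = 1)
    (hfpf : ∀ g, σ g = g → g = 1) : (Nat.card G).Coprime p := by
  haveI : Fact p.Prime := ⟨hp⟩
  have hP : IsPGroup p (Subgroup.zpowers σ) := by
    obtain ⟨k, -, hk⟩ := (Nat.dvd_prime_pow hp).mp (orderOf_dvd_of_pow_eq_one hσ)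
    exact IsPGroup.of_card (n := k) (by rw [Nat.card_zpowers, hk])
  have h1 := hP.card_modEq_card_fixedPoints G
  have h2 : Nat.card (MulAction.fixedPoints (Subgroup.zpowers σ) G) = 1 := by
    rw [Nat.card_eq_one_iff_unique]
    refine ⟨⟨?_⟩, ⟨⟨1, ?_⟩⟩⟩
    · rintro ⟨a, ha⟩ ⟨b, hb⟩
      have ha' : σ a = a := ha ⟨σ, Subgroup.mem_zpowers σ⟩
      have hb' : σ b = b := hb ⟨σ, Subgroup.mem_zpowers σ⟩
      exact Subtype.ext ((hfpf a ha').trans (hfpf b hb').symm)
    · rintro ⟨τ, hτ⟩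
      exact map_one τ
  rw [h2] at h1
  rw [Nat.coprime_comm, Nat.Prime.coprime_iff_not_dvd hp]
  intro hdvd
  have h3 : Nat.card G ≡ 0 [MOD p] := (Nat.modEq_zero_iff_dvd).mpr hdvd
  have h4 : 1 ≡ 0 [MOD p] := h1.symm.trans h3
  have h5 := (Nat.modEq_zero_iff_dvd).mp h4
  exact hp.one_lt.ne' (Nat.dvd_one.mp h5)

/-- `τ x = x h`, `τ h = h`, `τ^p = 1`, `p` prime to `|G|`: `h = 1`. -/
theorem eq_one_of_shift' [Finite G] (τ : MulAut G) (p : ℕ) (hcop : (Nat.card G).Coprime p) (hτp : τ ^ p = 1)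
    (x h : G) (hx : τ x = x * h) (hh : τ h = h) : h = 1 := by
  have h1 : ∀ k : ℕ, (τ ^ k) x = x * h ^ k := by
    intro k
    induction k with
    | zero => simp
    | succ k ih => rw [pow_succ', MulAut.mul_apply, ih, map_mul, map_pow, hx, hh, pow_succ', mul_assoc]
  have h2 := h1 p
  rw [hτp, MulAut.one_apply] at h2
  have h3 : h ^ p = 1 := by
    have := h2.symm
    rwa [mul_eq_left] at this
  have h4 : orderOf h ∣ p := orderOf_dvd_of_pow_eq_one h3
  have h5 : orderOf h ∣ Nat.card G := orderOf_dvd_natCard h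
  exact orderOf_eq_one_iff.mp (Nat.eq_one_of_dvd_coprimes hcop h5 h4)

/-- the automorphism induced on the quotient by an invariant normal subgroup. -/
noncomputable def quotAut (σ : MulAut G) (M : Subgroup G) [M.Normal] (h : ∀ x, x ∈ M ↔ σ x ∈ M) :
    MulAut (G ⧸ M) :=
  QuotientGroup.congr M M σ (by
    ext y
    constructor
    · rintro ⟨x, hx, rfl⟩
      exact (h x).mp hx
    · intro hy
      refine ⟨σ⁻¹ y, (h _).mpr ?_, ?_⟩
      · simpa using hy
      · simp)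

theorem quotAut_mk (σ : MulAut G) (M : Subgroup G) [M.Normal] (h : ∀ x, x ∈ M ↔ σ x ∈ M) (x : G) :
    quotAut σ M h (x : G ⧸ M) = ((σ x : G) : G ⧸ M) := rfl

theorem quotAut_pow_mk (σ : MulAut G) (M : Subgroup G) [M.Normal] (h : ∀ x, x ∈ M ↔ σ x ∈ M) (k : ℕ)
    (x : G) : ((quotAut σ M h) ^ k) (x : G ⧸ M) = (((σ ^ k) x : G) : G ⧸ M) := by
  induction k generalizing x with
  | zero => simp
  | succ k ih => rw [pow_succ, MulAut.mul_apply, quotAut_mk, ih, pow_succ, MulAut.mul_apply]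

theorem quotAut_fpf [Finite G] (σ : MulAut G) (hfpf : ∀ g, σ g = g → g = 1) (M : Subgroup G) [M.Normal]
    (h : ∀ x, x ∈ M ↔ σ x ∈ M) : ∀ g, quotAut σ M h g = g → g = 1 := by
  intro g hg
  obtain ⟨x, rfl⟩ := QuotientGroup.mk_surjective g
  rw [quotAut_mk] at hg
  rw [QuotientGroup.eq_one_iff]
  exact fpf_mem σ hfpf M (fun m hm => (h m).mp hm) x (QuotientGroup.eq.mp hg.symm)

theorem aut_mem_iff [Finite G] (σ : MulAut G) (M : Subgroup G) (h : ∀ x ∈ M, σ x ∈ M) (x : G) :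
    x ∈ M ↔ σ x ∈ M := by
  refine ⟨h x, fun hx => ?_⟩
  have hk : ∀ (k : ℕ), ∀ y ∈ M, (σ ^ k) y ∈ M := by
    intro k
    induction k with
    | zero => intro y hy; simpa using hy
    | succ k ih => intro y hy; rw [pow_succ', MulAut.mul_apply]; exact h _ (ih y hy)
  have ho : 0 < orderOf σ := orderOf_pos σ
  have := hk (orderOf σ - 1) _ hx
  rw [← MulAut.mul_apply, ← pow_succ, Nat.sub_add_cancel ho, pow_orderOf_eq_one] at this
  simpa using this

/-- restriction of an automorphism to an invariant subgroup. -/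
def resAut (σ : MulAut G) (M : Subgroup G) (h : ∀ x, x ∈ M ↔ σ x ∈ M) : MulAut M where
  toFun x := ⟨σ x, (h x).mp x.2⟩
  invFun x := ⟨σ⁻¹ x, (h _).mpr (by simpa using x.2)⟩
  left_inv x := by ext; simp
  right_inv x := by ext; simp
  map_mul' x y := by ext; simp

@[simp] theorem resAut_apply (σ : MulAut G) (M : Subgroup G) (h : ∀ x, x ∈ M ↔ σ x ∈ M) (x : M) :
    ((resAut σ M h x : M) : G) = σ x := rfl

theorem resAut_pow_apply (σ : MulAut G) (M : Subgroup G) (h : ∀ x, x ∈ M ↔ σ x ∈ M) (k : ℕ) (x : M) :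
    (((resAut σ M h) ^ k) x : G) = (σ ^ k) x := by
  induction k generalizing x with
  | zero => simp
  | succ k ih => rw [pow_succ, MulAut.mul_apply, ih, resAut_apply, pow_succ, MulAut.mul_apply]

end Cfsg.Agent.Lib.Helper79.HW
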