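import Mathlib
import Cfsg.Agent.Lib.Helper79.GFreeMain2
import Cfsg.Agent.Lib.Helper79.HFpf

/-! # The non-free case for an automorphism of 2-power order -/

set_option autoImplicit false

namespace Cfsg.Agent.Lib.Helper79.Heis

open Module

universe u v w

variable {K : Type u} {U : Type v} [Field K] [AddCommGroup U] [Module K U]
variable {A : Type w} [Group A]

theorem Data.c_pow_left [Nontrivial U] {R : A → (Module.End K U)ˣ} {c : A → A → K} (D : Data R c)
    (a b : A) (k : ℕ) : c (a ^ k) b = (c a b) ^ k := by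
  induction k with
  | zero => simp [D.c_one_left]
  | succ k ih => rw [pow_succ, D.c_mul_left, ih, pow_succ]

theorem eq_one_of_sq_of_odd_pow {M : Type*} [Monoid M] (x : M) (n : ℕ) (hn : Odd n) (h2 : x ^ 2 = 1)
    (h : x ^ n = 1) : x = 1 := by
  obtain ⟨m, rfl⟩ := hn
  rw [pow_succ, pow_mul, h2, one_pow, one_mul] at h
  exact h

theorem nonfree_main [IsAlgClosed K] [FiniteDimensional K U] [Nontrivial U] [Fintype A]
    {R : A → (Module.End K U)ˣ} {c : A → A → K} (D : Data R c) (hN : (Fintype.card A : K) ≠ 0)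
    (hodd : Odd (Fintype.card A)) {T : (Module.End K U)ˣ} (τ : MulAut A)
    (hT : ∀ a, ∃ g : K, (T : Module.End K U) * R a = g • ((R (τ a) : Module.End K U) * T))
    (s : ℕ) (hs : 0 < s) (h2K : (2 : K) ≠ 0) (hTP : T ^ (2 ^ s) = 1) (hτP : τ ^ (2 ^ s) = 1)
    (hβ : ∃ a, (τ ^ (2 ^ (s - 1))) a ≠ a) (l₁ l₂ : K) (h₁ : l₁ ^ (2 ^ s) = 1) (h₂ : l₂ ^ (2 ^ s) = 1)
    (hm₁ : ∀ w : U, (T : Module.End K U) w = l₁ • w → w = 0)
    (hm₂ : ∀ w : U, (T : Module.End K U) w = l₂ • w → w = 0) :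
    l₁ = l₂ ∧ (∀ a, (τ ^ (2 ^ (s - 1))) a = a → τ a = a) ∧
      ∃ a : A, a ≠ 1 ∧ a ^ ((2 ^ s - 1) ^ 2) = 1 := by
  classical
  set β : MulAut A := τ ^ (2 ^ (s - 1)) with hβdef
  have hββ : ∀ a, β (β a) = a := by
    intro a
    rw [← MulAut.mul_apply, hβdef, ← pow_add]
    have : 2 ^ (s - 1) + 2 ^ (s - 1) = 2 ^ s := by
      obtain ⟨s', rfl⟩ : ∃ s', s = s' + 1 := ⟨s - 1, by omega⟩
      rw [Nat.add_sub_cancel, pow_succ]; ring
    rw [this, hτP]; rfl
  have hcτ : ∀ a b, c (τ a) (τ b) = c a b := fun a b => D.c_tau (τ := τ.toEquiv) hT a b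
  have hcτk : ∀ (k : ℕ) a b, c ((τ ^ k) a) ((τ ^ k) b) = c a b := by
    intro k
    induction k with
    | zero => intro a b; simp
    | succ k ih => intro a b; rw [pow_succ', MulAut.mul_apply, MulAut.mul_apply, hcτ, ih]
  have hcβ : ∀ a b, c (β a) (β b) = c a b := hcτk _
  have hAcomm : ∀ a b : A, a * b = b * a := by
    intro a b
    have h1 : a * b * a⁻¹ * b⁻¹ = 1 := by
      apply D.nondeg
      intro x
      rw [D.c_mul_left, D.c_mul_left, D.c_mul_left, D.c_inv_left, D.c_inv_left]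
      have ha := D.c_ne_zero a x
      have hb := D.c_ne_zero b x
      field_simp
    calc a * b = (a * b * a⁻¹ * b⁻¹) * (b * a) := by group
      _ = b * a := by rw [h1, one_mul]
  have hA2 : ∀ a : A, a ^ 2 = 1 → a = 1 := fun a h =>
    eq_one_of_sq_of_odd_pow a _ hodd h (pow_card_eq_one)
  have hc2 : ∀ a b : A, (c a b) ^ 2 = 1 → c a b = 1 := by
    intro a b h
    apply eq_one_of_sq_of_odd_pow _ _ hodd h
    rw [← D.c_pow_left, pow_card_eq_one, D.c_one_left]
  let A₁ : Subgroup A :=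
    { carrier := {a | β a = a⁻¹}
      mul_mem' := by
        intro a b ha hb
        simp only [Set.mem_ofPred_eq] at ha hb ⊢
        rw [map_mul, ha, hb, mul_inv_rev, hAcomm]
      one_mem' := by simp
      inv_mem' := by
        intro a ha
        simp only [Set.mem_ofPred_eq] at ha ⊢
        rw [map_inv, ha] }
  have hA₁ : ∀ a, a ∈ A₁ ↔ β a = a⁻¹ := fun a => Iff.rfl
  have hβτ : ∀ a, β (τ a) = τ (β a) := by
    intro a
    rw [← MulAut.mul_apply, ← MulAut.mul_apply, hβdef, ← pow_succ, ← pow_succ']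
  have hτA₁ : ∀ a, a ∈ A₁ ↔ τ a ∈ A₁ := by
    intro a
    rw [hA₁, hA₁, hβτ, ← map_inv]
    exact (τ.injective.eq_iff).symm
  -- orthogonality
  have horth : ∀ x a : A, x ∈ A₁ → β a = a → c x a = 1 := by
    intro x a hx ha
    apply hc2
    have h1 := hcβ x a
    rw [(hA₁ x).mp hx, ha, D.c_inv_left] at h1
    have h0 := D.c_ne_zero x a
    field_simp at h1
    exact h1.symm
  let τ₁ : MulAut A₁ := HW.resAut τ A₁ hτA₁
  let R₁ : A₁ → (Module.End K U)ˣ := fun a => R a
  let c₁ : A₁ → A₁ → K := fun a b => c a b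
  have D₁ : Data R₁ c₁ :=
    { comm := fun a b => D.comm a b
      mul := fun a b => D.mul a b
      nondeg := by
        intro a ha
        apply Subtype.ext
        apply D.nondeg
        intro w
        apply hc2
        have hw₁ : w * (β w)⁻¹ ∈ A₁ := by
          rw [hA₁, map_mul, map_inv, hββ, mul_inv_rev, inv_inv]
        have hw₀ : β (w * β w) = w * β w := by
          rw [map_mul, hββ, hAcomm]
        have e : w ^ 2 = (w * β w) * (w * (β w)⁻¹) := by
          rw [sq]
          calc w * w = w * (β w * (β w)⁻¹) * w := by simp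
            _ = (w * β w) * ((β w)⁻¹ * w) := by group
            _ = (w * β w) * (w * (β w)⁻¹) := by rw [hAcomm (β w)⁻¹ w]
        have h1 : c (a : A) (w ^ 2) = 1 := by
          rw [e, D.c_mul_right, horth a _ a.2 hw₀, one_mul]
          exact ha ⟨_, hw₁⟩
        rw [sq, D.c_mul_right] at h1
        rw [sq]; exact h1 }
  have hcard₁ : Fintype.card A₁ ∣ Fintype.card A := by
    have := Subgroup.card_subgroup_dvd_card A₁
    rwa [Nat.card_eq_fintype_card, Nat.card_eq_fintype_card] at this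
  have hN₁ : (Fintype.card A₁ : K) ≠ 0 := by
    intro h
    apply hN
    obtain ⟨k, hk⟩ := hcard₁
    rw [hk]; push_cast; rw [h, zero_mul]
  obtain ⟨a₀, ha₀⟩ := hβ
  have hx₀ : a₀⁻¹ * β a₀ ∈ A₁ := by
    rw [hA₁, map_mul, map_inv, hββ, mul_inv_rev, inv_inv]
  have hx₀1 : a₀⁻¹ * β a₀ ≠ 1 := by
    intro h
    exact ha₀ (inv_mul_eq_one.mp h).symm
  have hA1 : 1 < Fintype.card A₁ := by
    rw [Fintype.one_lt_card_iff]
    exact ⟨⟨_, hx₀⟩, 1, fun h => hx₀1 (congrArg Subtype.val h)⟩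
  obtain ⟨r1, r2, r3⟩ := free_main D₁ hN₁ (T := T) (τ := τ₁.toEquiv) (fun a => hT a) 2 s Nat.prime_two hs
    (by exact_mod_cast h2K) hTP (map_one τ₁)
    (by
      ext a
      have h1 : ∀ k : ℕ, ((τ₁.toEquiv : Equiv.Perm A₁) ^ k) a = (τ₁ ^ k) a := by
        intro k
        induction k generalizing a with
        | zero => rfl
        | succ k ih => rw [pow_succ, pow_succ, Equiv.Perm.mul_apply, MulAut.mul_apply, ih]; rfl
      rw [h1, HW.resAut_pow_apply, hτP]; rfl)
    (by
      intro a ha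
      have h1 : ∀ (k : ℕ) (a : A₁), ((τ₁.toEquiv : Equiv.Perm A₁) ^ k) a = (τ₁ ^ k) a := by
        intro k
        induction k with
        | zero => intro a; rfl
        | succ k ih => intro a; rw [pow_succ, pow_succ, Equiv.Perm.mul_apply, MulAut.mul_apply, ih]; rfl
      rw [h1] at ha
      have h2 := congrArg Subtype.val ha
      rw [HW.resAut_pow_apply] at h2
      have h3 : β (a : A) = (a : A)⁻¹ := a.2
      apply Subtype.ext
      apply hA2
      rw [sq]
      have h4 : (a : A) = (a : A)⁻¹ := by rw [← h3]; exact h2.symm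
      calc (a : A) * a = (a : A)⁻¹ * a := by rw [← h4]
        _ = 1 := inv_mul_cancel _)
    hA1 l₁ l₂ h₁ h₂ hm₁ hm₂
  refine ⟨r1, ?_, ⟨_, hx₀1, ?_⟩⟩
  · intro a ha
    have hmem : (R a : Module.End K U) ∈ Ecomp R₁ c₁ 1 := by
      apply D₁.mem_Ecomp_one
      intro x
      have := D.comm x a
      rw [horth x a x.2 ha, one_smul] at this
      exact this
    have h1 := r3 _ hmem
    obtain ⟨g, hg⟩ := hT a
    rw [hg, ← smul_mul_assoc] at h1
    have hRa : g • (R (τ a) : Module.End K U) = R a := T.mul_left_inj.mp h1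
    have h2 := D.Pr_of_mem hN (b := τ a) (D.R_mem_Ecomp a)
    have h3 : Pr R c (τ a) (R a : Module.End K U) = R a := by
      conv_lhs => rw [← hRa]
      rw [map_smul, D.Pr_of_mem hN (D.R_mem_Ecomp (τ a)), if_pos rfl, hRa]
    by_contra hne
    rw [if_neg hne, h3] at h2
    exact (R a).ne_zero h2
  · have h1 : (⟨_, hx₀⟩ : A₁) ^ (Fintype.card A₁) = 1 := pow_card_eq_one
    rw [r2] at h1
    exact congrArg Subtype.val h1

end Cfsg.Agent.Lib.Helper79.Heis
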