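import Mathlib
import Cfsg.Agent.Lib.Helper79.HeisMain

/-! # The Heisenberg estimate for a representation of a group of class two modulo scalars -/

set_option autoImplicit false

namespace Cfsg.Agent.Lib.Helper79.Heis

open Module

universe u v w

variable {K : Type u} {W : Type v} [Field K] [AddCommGroup W] [Module K W]
variable {Q : Type w} [Group Q]

/-- the unit of `End W` attached to a group element. -/
def repUnit (ρ : Q →* Module.End K W) (x : Q) : (Module.End K W)ˣ where
  val := ρ x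
  inv := ρ x⁻¹
  val_inv := by rw [← map_mul, mul_inv_cancel, map_one]
  inv_val := by rw [← map_mul, inv_mul_cancel, map_one]

@[simp] theorem repUnit_val (ρ : Q →* Module.End K W) (x : Q) :
    ((repUnit ρ x : (Module.End K W)ˣ) : Module.End K W) = ρ x := rfl

theorem heis_group [IsAlgClosed K] [FiniteDimensional K W] [Nontrivial W] [Finite Q]
    (ρ : Q →* Module.End K W) (Y : Subgroup Q) [Y.Normal]
    (hsc : ∀ y ∈ Y, ∃ l : K, ρ y = l • (1 : Module.End K W))
    (hcomm : ∀ x y : Q, x * y * x⁻¹ * y⁻¹ ∈ Y)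
    (hrad : ∀ x : Q, (∀ y, ρ x * ρ y = ρ y * ρ x) → x ∈ Y)
    (hQK : (Nat.card Q : K) ≠ 0) :
    (∃ d, Y.index = d ^ 2) ∧
    ∀ (θ : MulAut Q) (T : Module.End K W) (p s : ℕ), p.Prime → 0 < s → (p : K) ≠ 0 →
      (∀ x, x ∈ Y ↔ θ x ∈ Y) → T ^ (p ^ s) = 1 → (∀ x, T * ρ x = ρ (θ x) * T) → θ ^ (p ^ s) = 1 →
      (∀ x, x⁻¹ * (θ ^ (p ^ (s - 1))) x ∈ Y → x ∈ Y) → (∀ x : W, T x = x → x = 0) →
      Y.index ≤ (p ^ s - 1) ^ 2 ∧ ∃ m, Y.index = p ^ s * m + 1 := by
  classical
  haveI : Fintype (Q ⧸ Y) := Fintype.ofFinite _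
  have hidx : Y.index = Fintype.card (Q ⧸ Y) := by
    rw [Subgroup.index_eq_card, Nat.card_eq_fintype_card]
  have hNK : (Fintype.card (Q ⧸ Y) : K) ≠ 0 := by
    rw [← hidx]
    intro h
    apply hQK
    obtain ⟨k, hk⟩ := Subgroup.index_dvd_card Y
    rw [hk]; push_cast; rw [h, zero_mul]
  let R : Q ⧸ Y → (Module.End K W)ˣ := fun a => repUnit ρ a.out
  let c : Q ⧸ Y → Q ⧸ Y → K := fun a b => Classical.choose (hsc _ (hcomm a.out b.out))
  have hc : ∀ a b : Q ⧸ Y, ρ (a.out * b.out * a.out⁻¹ * b.out⁻¹) = c a b • (1 : Module.End K W) :=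
    fun a b => Classical.choose_spec (hsc _ (hcomm a.out b.out))
  have hout : ∀ x : Q, ∃ y ∈ Y, ((x : Q ⧸ Y)).out = x * y := by
    intro x
    obtain ⟨y, hy⟩ := QuotientGroup.mk_out_eq_mul Y x
    exact ⟨y, y.2, hy⟩
  have D : Data R c :=
    { comm := by
        intro a b
        simp only [R, repUnit_val]
        have h1 : a.out * b.out = (a.out * b.out * a.out⁻¹ * b.out⁻¹) * (b.out * a.out) := by
          group
        rw [← map_mul, h1, map_mul, hc, map_mul, smul_mul_assoc, one_mul]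
      mul := by
        intro a b
        simp only [R, repUnit_val]
        obtain ⟨y, hy, hy2⟩ := hout (a.out * b.out)
        have h1 : ((a.out * b.out : Q) : Q ⧸ Y) = a * b := by
          rw [QuotientGroup.mk_mul, QuotientGroup.out_eq', QuotientGroup.out_eq']
        rw [h1] at hy2
        obtain ⟨l, hl⟩ := hsc y hy
        refine ⟨l, ?_⟩
        rw [hy2, map_mul, hl, map_mul, mul_smul_comm, mul_one]
      nondeg := by
        intro a ha
        have h1 : a.out ∈ Y := by
          apply hrad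
          intro y
          obtain ⟨y', hy', hy2⟩ := hout y
          obtain ⟨l, hl⟩ := hsc y'⁻¹ (Y.inv_mem hy')
          have h2 : y = ((y : Q ⧸ Y)).out * y'⁻¹ := by rw [hy2]; group
          have h3 : ρ a.out * ρ ((y : Q ⧸ Y)).out = ρ ((y : Q ⧸ Y)).out * ρ a.out := by
            have h4 : a.out * ((y : Q ⧸ Y)).out
                = (a.out * ((y : Q ⧸ Y)).out * a.out⁻¹ * ((y : Q ⧸ Y)).out⁻¹) * (((y : Q ⧸ Y)).out * a.out) := by
              group
            rw [← map_mul, h4, map_mul, hc, ha, one_smul, one_mul, map_mul]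
          rw [h2, map_mul, hl]
          simp only [mul_smul_comm, smul_mul_assoc, mul_one]
          rw [h3]
        rw [← QuotientGroup.out_eq' a]
        exact (QuotientGroup.eq_one_iff _).mpr h1 }
  refine ⟨?_, ?_⟩
  · rw [hidx]; exact exists_sq D hNK
  · intro θ T p s hp hs hpK hθY hTP hTρ hθP hfree hfix
    rw [hidx]
    have hmap : Y.map (θ : Q ≃* Q).toMonoidHom = Y := by
      ext x
      constructor
      · rintro ⟨y, hy, rfl⟩
        exact (hθY y).mp hy
      · intro hx
        refine ⟨θ⁻¹ x, ?_, by simp⟩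
        rw [SetLike.mem_coe, hθY]
        simpa using hx
    let τe : Q ⧸ Y ≃* Q ⧸ Y := QuotientGroup.congr Y Y θ hmap
    let τ : Equiv.Perm (Q ⧸ Y) := τe.toEquiv
    have hτmk : ∀ x : Q, τ (x : Q ⧸ Y) = ((θ x : Q) : Q ⧸ Y) := fun x => rfl
    have hτpow : ∀ (k : ℕ) (x : Q), (τ ^ k) (x : Q ⧸ Y) = (((θ ^ k) x : Q) : Q ⧸ Y) := by
      intro k
      induction k with
      | zero => intro x; simp
      | succ k ih =>
        intro x
        rw [pow_succ', Equiv.Perm.mul_apply, ih, hτmk, pow_succ', MulAut.mul_apply]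
    let Tu : (Module.End K W)ˣ := Units.ofPowEqOne T (p ^ s) hTP (pow_pos hp.pos s).ne'
    have hTu : (Tu : Module.End K W) = T := rfl
    apply heis_bound D hNK (T := Tu) (τ := τ) ?_ p s hp hs hpK ?_ ?_ ?_ ?_ ?_
    · intro a
      simp only [R, repUnit_val, hTu]
      obtain ⟨y, hy, hy2⟩ := hout (θ a.out)
      have h1 : ((θ a.out : Q) : Q ⧸ Y) = τ a := by
        rw [← hτmk, QuotientGroup.out_eq']
      rw [h1] at hy2
      obtain ⟨l, hl⟩ := hsc y⁻¹ (Y.inv_mem hy)
      refine ⟨l, ?_⟩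
      have h2 : θ a.out = (τ a).out * y⁻¹ := by rw [hy2]; group
      rw [hTρ, h2, map_mul, hl, mul_smul_comm, mul_one, smul_mul_assoc]
    · ext1
      simp [hTu, hTP]
    · exact map_one τe
    · ext a
      obtain ⟨x, rfl⟩ := QuotientGroup.mk_surjective a
      rw [hτpow, hθP]; rfl
    · intro a ha
      obtain ⟨x, rfl⟩ := QuotientGroup.mk_surjective a
      rw [hτpow] at ha
      rw [QuotientGroup.eq_one_iff]
      apply hfree
      exact QuotientGroup.eq.mp ha.symm
    · exact hfix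

end Cfsg.Agent.Lib.Helper79.Heis
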