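import Mathlib
import Cfsg.Agent.Lib.Helper79.GNonfree
import Cfsg.Agent.Lib.Helper79.HeisGroup

/-! # The non-free Heisenberg statement for a representation of a group of class two modulo scalars -/

set_option autoImplicit false

namespace Cfsg.Agent.Lib.Helper79.Heis

open Module

universe u v w

variable {K : Type u} {W : Type v} [Field K] [AddCommGroup W] [Module K W]
variable {Q : Type w} [Group Q]

theorem heis_group2 [IsAlgClosed K] [FiniteDimensional K W] [Nontrivial W] [Finite Q]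
    (ρ : Q →* Module.End K W) (Y : Subgroup Q) [Y.Normal]
    (hsc : ∀ y ∈ Y, ∃ l : K, ρ y = l • (1 : Module.End K W))
    (hcomm : ∀ x y : Q, x * y * x⁻¹ * y⁻¹ ∈ Y)
    (hrad : ∀ x : Q, (∀ y, ρ x * ρ y = ρ y * ρ x) → x ∈ Y)
    (hQK : (Nat.card Q : K) ≠ 0) (hodd : Odd (Nat.card Q))
    (θ : MulAut Q) (T : Module.End K W) (s : ℕ) (hs : 0 < s) (h2K : (2 : K) ≠ 0)
    (hθY : ∀ x, x ∈ Y ↔ θ x ∈ Y) (hTP : T ^ (2 ^ s) = 1) (hTρ : ∀ x, T * ρ x = ρ (θ x) * T)
    (hθP : θ ^ (2 ^ s) = 1) (hβ : ∃ x, x⁻¹ * (θ ^ (2 ^ (s - 1))) x ∉ Y)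
    (l₁ l₂ : K) (h₁ : l₁ ^ (2 ^ s) = 1) (h₂ : l₂ ^ (2 ^ s) = 1)
    (hm₁ : ∀ w : W, T w = l₁ • w → w = 0) (hm₂ : ∀ w : W, T w = l₂ • w → w = 0) :
    l₁ = l₂ ∧ (∀ x, x⁻¹ * (θ ^ (2 ^ (s - 1))) x ∈ Y → x⁻¹ * θ x ∈ Y) ∧
      ∃ x, x ∉ Y ∧ x ^ ((2 ^ s - 1) ^ 2) ∈ Y := by
  classical
  haveI : Fintype (Q ⧸ Y) := Fintype.ofFinite _
  have hidx : Y.index = Fintype.card (Q ⧸ Y) := by
    rw [Subgroup.index_eq_card, Nat.card_eq_fintype_card]
  have hNK : (Fintype.card (Q ⧸ Y) : K) ≠ 0 := by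
    rw [← hidx]
    intro h
    apply hQK
    obtain ⟨k, hk⟩ := Subgroup.index_dvd_card Y
    rw [hk]; push_cast; rw [h, zero_mul]
  let R : Q ⧸ Y → (Module.End K W)ˣ := fun a => repUnit ρ a.out
  let c : Q ⧸ Y → Q ⧸ Y → K := fun a b => Classical.choose (hsc _ (hcomm a.out b.out))
  have hc : ∀ a b : Q ⧸ Y, ρ (a.out * b.out * a.out⁻¹ * b.out⁻¹) = c a b • (1 : Module.End K W) :=
    fun a b => Classical.choose_spec (hsc _ (hcomm a.out b.out))
  have hout : ∀ x : Q, ∃ y ∈ Y, ((x : Q ⧸ Y)).out = x * y := by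
    intro x
    obtain ⟨y, hy⟩ := QuotientGroup.mk_out_eq_mul Y x
    exact ⟨y, y.2, hy⟩
  have D : Data R c :=
    { comm := by
        intro a b
        simp only [R, repUnit_val]
        have h1 : a.out * b.out = (a.out * b.out * a.out⁻¹ * b.out⁻¹) * (b.out * a.out) := by
          group
        rw [← map_mul, h1, map_mul, hc, map_mul, smul_mul_assoc, one_mul]
      mul := by
        intro a b
        simp only [R, repUnit_val]
        obtain ⟨y, hy, hy2⟩ := hout (a.out * b.out)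
        have h1 : ((a.out * b.out : Q) : Q ⧸ Y) = a * b := by
          rw [QuotientGroup.mk_mul, QuotientGroup.out_eq', QuotientGroup.out_eq']
        rw [h1] at hy2
        obtain ⟨l, hl⟩ := hsc y hy
        refine ⟨l, ?_⟩
        rw [hy2, map_mul, hl, map_mul, mul_smul_comm, mul_one]
      nondeg := by
        intro a ha
        have h1 : a.out ∈ Y := by
          apply hrad
          intro y
          obtain ⟨y', hy', hy2⟩ := hout y
          obtain ⟨l, hl⟩ := hsc y'⁻¹ (Y.inv_mem hy')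
          have h2 : y = ((y : Q ⧸ Y)).out * y'⁻¹ := by rw [hy2]; group
          have h3 : ρ a.out * ρ ((y : Q ⧸ Y)).out = ρ ((y : Q ⧸ Y)).out * ρ a.out := by
            have h4 : a.out * ((y : Q ⧸ Y)).out
                = (a.out * ((y : Q ⧸ Y)).out * a.out⁻¹ * ((y : Q ⧸ Y)).out⁻¹) * (((y : Q ⧸ Y)).out * a.out) := by
              group
            rw [← map_mul, h4, map_mul, hc, ha, one_smul, one_mul, map_mul]
          rw [h2, map_mul, hl]
          simp only [mul_smul_comm, smul_mul_assoc, mul_one]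
          rw [h3]
        rw [← QuotientGroup.out_eq' a]
        exact (QuotientGroup.eq_one_iff _).mpr h1 }
  let τ : MulAut (Q ⧸ Y) := HW.quotAut θ Y hθY
  have hτmk : ∀ x : Q, τ (x : Q ⧸ Y) = ((θ x : Q) : Q ⧸ Y) := fun x => HW.quotAut_mk θ Y hθY x
  have hτpow : ∀ (k : ℕ) (x : Q), (τ ^ k) (x : Q ⧸ Y) = (((θ ^ k) x : Q) : Q ⧸ Y) :=
    fun k x => HW.quotAut_pow_mk θ Y hθY k x
  let Tu : (Module.End K W)ˣ := Units.ofPowEqOne T (2 ^ s) hTP (pow_pos (by norm_num) s).ne'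
  have hTu : (Tu : Module.End K W) = T := rfl
  have hoddA : Odd (Fintype.card (Q ⧸ Y)) := by
    rw [← hidx]
    exact Odd.of_dvd_nat hodd (Subgroup.index_dvd_card Y)
  obtain ⟨x0, hx0⟩ := hβ
  obtain ⟨r1, r2, a, ha1, ha2⟩ := nonfree_main D hNK hoddA (T := Tu) τ
    (by
      intro a
      simp only [R, repUnit_val, hTu]
      obtain ⟨y, hy, hy2⟩ := hout (θ a.out)
      have h1 : ((θ a.out : Q) : Q ⧸ Y) = τ a := by
        rw [← hτmk, QuotientGroup.out_eq']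
      rw [h1] at hy2
      obtain ⟨l, hl⟩ := hsc y⁻¹ (Y.inv_mem hy)
      refine ⟨l, ?_⟩
      have h2 : θ a.out = (τ a).out * y⁻¹ := by rw [hy2]; group
      rw [hTρ, h2, map_mul, hl, mul_smul_comm, mul_one, smul_mul_assoc])
    s hs h2K
    (by ext1; simp [hTu, hTP])
    (by
      ext a
      obtain ⟨x, rfl⟩ := QuotientGroup.mk_surjective a
      rw [hτpow, hθP]; rfl)
    ⟨(x0 : Q ⧸ Y), by
      rw [hτpow]
      intro h
      exact hx0 (QuotientGroup.eq.mp h.symm)⟩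
    l₁ l₂ h₁ h₂ hm₁ hm₂
  refine ⟨r1, ?_, ?_⟩
  · intro x hx
    have h1 := r2 (x : Q ⧸ Y) (by rw [hτpow]; exact (QuotientGroup.eq.mpr hx).symm)
    rw [hτmk] at h1
    exact QuotientGroup.eq.mp h1.symm
  · obtain ⟨x, rfl⟩ := QuotientGroup.mk_surjective a
    refine ⟨x, ?_, ?_⟩
    · intro h
      exact ha1 ((QuotientGroup.eq_one_iff x).mpr h)
    · rw [← QuotientGroup.eq_one_iff, QuotientGroup.mk_pow]
      exact ha2

end Cfsg.Agent.Lib.Helper79.Heis
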