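import Mathlib
import Cfsg.Agent.Lib.Helper79.HClaim
import Cfsg.Agent.Lib.Helper79.GHeisGroup

/-! # The general module-theoretic claim for cyclic 2-groups -/

set_option autoImplicit false

namespace Cfsg.Agent.Lib.Helper79.HW

open Module Function

universe u v w

variable {K : Type u} [Field K] {Q : Type w} [Group Q]

/-- class two configuration with an automorphism of 2-power order. -/
structure Cfg2 (σ : MulAut Q) (n : ℕ) (Z : Subgroup Q) : Prop where
  pow : σ ^ (2 ^ n) = 1
  central : ∀ z ∈ Z, ∀ x, z * x = x * z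
  comm : ∀ x y : Q, x * y * x⁻¹ * y⁻¹ ∈ Z
  Zinv : ∀ z ∈ Z, σ z ∈ Z

/-- the outcome. -/
def Out2 (K : Type u) [Field K] (σ : MulAut Q) (n : ℕ) (Z : Subgroup Q) (z₀ : Q) (j : ℕ) (l₁ l₂ : K) :
    Prop :=
  ∃ j', j ≤ j' ∧ j' < n ∧ ∃ (μ : Q → K) (Y : Subgroup Q),
    (∀ z ∈ Z, ∀ z' ∈ Z, μ (z * z') = μ z * μ z') ∧ μ 1 = 1 ∧
    (∀ z ∈ Z, μ ((σ ^ (2 ^ j')) z) = μ z) ∧
    (∀ x, x ∈ Y ↔ ∀ y, μ (x * y * x⁻¹ * y⁻¹) = 1) ∧ μ z₀ ≠ 1 ∧
    ((∃ x, x⁻¹ * (σ ^ (2 ^ (n - 1))) x ∉ Y) →
      l₁ ^ (2 ^ (j' - j)) = l₂ ^ (2 ^ (j' - j)) ∧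
      (∀ x, x⁻¹ * (σ ^ (2 ^ (n - 1))) x ∈ Y → x⁻¹ * (σ ^ (2 ^ j')) x ∈ Y) ∧
      ∃ x, x ∉ Y ∧ x ^ ((2 ^ (n - j') - 1) ^ 2) ∈ Y)

theorem claimG [IsAlgClosed K] [Finite Q] {σ : MulAut Q} {n : ℕ} {Z : Subgroup Q} (C : Cfg2 σ n Z)
    (hQK : (Nat.card Q : K) ≠ 0) (hodd : Odd (Nat.card Q)) (h2K : (2 : K) ≠ 0) (z₀ : Q) (hz₀ : z₀ ∈ Z)
    (d : ℕ) :
    ∀ (W : Type v) [AddCommGroup W] [Module K W] [FiniteDimensional K W] (j : ℕ)
      (ρ : Q →* Module.End K W) (T : Module.End K W) (l₁ l₂ : K), finrank K W = d → j ≤ n →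
      T ^ (2 ^ (n - j)) = 1 → (∀ x, T * ρ x = ρ ((σ ^ (2 ^ j)) x) * T) → ρ z₀ ≠ 1 →
      l₁ ^ (2 ^ (n - j)) = 1 → l₂ ^ (2 ^ (n - j)) = 1 →
      (∀ w : W, T w = l₁ • w → w = 0) → (∀ w : W, T w = l₂ • w → w = 0) →
      Out2 K σ n Z z₀ j l₁ l₂ := by
  induction d using Nat.strong_induction_on with
  | _ d ih =>
  intro W _ _ _ j ρ T l₁ l₂ hd hj hTP hTρ hnt h₁ h₂ hm₁ hm₂
  set θ : MulAut Q := σ ^ (2 ^ j) with hθ
  have hPpos : 0 < 2 ^ (n - j) := pow_pos (by norm_num) _
  -- cancellation of T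
  obtain ⟨T', hT'l, hT'r⟩ : ∃ T' : Module.End K W, T' * T = 1 ∧ T * T' = 1 := by
    refine ⟨T ^ (2 ^ (n - j) - 1), ?_, ?_⟩
    · rw [← pow_succ, Nat.sub_add_cancel hPpos, hTP]
    · rw [← pow_succ', Nat.sub_add_cancel hPpos, hTP]
  have hTl : ∀ X X' : Module.End K W, T * X = T * X' → X = X' := by
    intro X X' h
    have := congrArg (fun t => T' * t) h
    simpa [← mul_assoc, hT'l] using this
  have hTr : ∀ X X' : Module.End K W, X * T = X' * T → X = X' := by
    intro X X' h
    have := congrArg (fun t => t * T') h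
    simpa [mul_assoc, hT'r] using this
  haveI : Nontrivial W := by
    by_contra h
    rw [not_nontrivial_iff_subsingleton] at h
    exact hnt (by ext y; exact Subsingleton.elim _ _)
  have hθP : θ ^ (2 ^ (n - j)) = 1 := by
    rw [hθ, ← pow_mul, ← pow_add, Nat.add_sub_cancel' hj, C.pow]
  let Y : Subgroup Q :=
    { carrier := {y | ∀ x, ρ y * ρ x = ρ x * ρ y}
      mul_mem' := by
        intro a b ha hb x
        simp only [Set.mem_ofPred_eq] at ha hb
        rw [map_mul, mul_assoc, hb x, ← mul_assoc, ha x, mul_assoc]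
      one_mem' := by intro x; simp
      inv_mem' := by
        intro a ha x
        simp only [Set.mem_ofPred_eq] at ha
        have e1 : ρ a⁻¹ * ρ a = 1 := by rw [← map_mul, inv_mul_cancel, map_one]
        have e2 : ρ a * ρ a⁻¹ = 1 := by rw [← map_mul, mul_inv_cancel, map_one]
        calc ρ a⁻¹ * ρ x = ρ a⁻¹ * (ρ x * ρ a) * ρ a⁻¹ := by
              rw [mul_assoc, mul_assoc, e2, mul_one]
          _ = ρ a⁻¹ * (ρ a * ρ x) * ρ a⁻¹ := by rw [ha x]
          _ = ρ x * ρ a⁻¹ := by rw [← mul_assoc, e1, one_mul] }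
  have hYmem : ∀ y, y ∈ Y ↔ ∀ x, ρ y * ρ x = ρ x * ρ y := fun y => Iff.rfl
  have hθY : ∀ x, x ∈ Y ↔ θ x ∈ Y := by
    intro y
    constructor
    · intro hy x
      obtain ⟨x', rfl⟩ : ∃ x', θ x' = x := ⟨θ⁻¹ x, by simp⟩
      apply hTr
      calc ρ (θ y) * ρ (θ x') * T = ρ (θ y) * (T * ρ x') := by rw [mul_assoc, hTρ]
        _ = T * (ρ y * ρ x') := by rw [← mul_assoc, ← hTρ, mul_assoc]
        _ = T * (ρ x' * ρ y) := by rw [hy x']
        _ = ρ (θ x') * (T * ρ y) := by rw [← mul_assoc, hTρ, mul_assoc]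
        _ = ρ (θ x') * ρ (θ y) * T := by rw [hTρ, mul_assoc]
    · intro hy x
      apply hTl
      calc T * (ρ y * ρ x) = ρ (θ y) * (T * ρ x) := by rw [← mul_assoc, hTρ, mul_assoc]
        _ = ρ (θ y) * ρ (θ x) * T := by rw [hTρ, mul_assoc]
        _ = ρ (θ x) * ρ (θ y) * T := by rw [hy (θ x)]
        _ = ρ (θ x) * (T * ρ y) := by rw [mul_assoc, hTρ]
        _ = T * (ρ x * ρ y) := by rw [← mul_assoc, ← hTρ, mul_assoc]
  have hTpow : ∀ (l : ℕ) (x : Q), T ^ l * ρ x = ρ ((θ ^ l) x) * T ^ l := by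
    intro l
    induction l with
    | zero => intro x; simp
    | succ l ih' =>
      intro x
      rw [pow_succ', mul_assoc, ih', ← mul_assoc, hTρ, mul_assoc, pow_succ' θ, MulAut.mul_apply]
  by_cases hB : ∀ y ∈ Y, ∃ l : K, ρ y = l • (1 : Module.End K W)
  · -- Case B
    rcases Nat.eq_or_lt_of_le hj with hjn | hjn
    · exfalso
      rw [hjn, Nat.sub_self, pow_zero, pow_one] at hTP h₁
      obtain ⟨y, hy⟩ := exists_ne (0 : W)
      exact hy (hm₁ y (by rw [hTP, h₁, one_smul]; rfl))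
    have hs : 0 < n - j := by omega
    have hτ : σ ^ (2 ^ (n - 1)) = θ ^ (2 ^ (n - j - 1)) := by
      rw [hθ, ← pow_mul, ← pow_add]
      congr 2; omega
    have hZY : Z ≤ Y := by
      intro z hz x
      rw [← map_mul, C.central z hz x, map_mul]
    · haveI : Y.Normal := by
        constructor
        intro y hy g
        have : g * y * g⁻¹ = (g * y * g⁻¹ * y⁻¹) * y := by group
        rw [this]
        exact Y.mul_mem (hZY (C.comm g y)) hy
      -- the scalar function
      let μ : Q → K := fun x => Classical.epsilon (fun l => ρ x = l • (1 : Module.End K W))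
      have hμ : ∀ y ∈ Y, ρ y = μ y • (1 : Module.End K W) := fun y hy => Classical.epsilon_spec (hB y hy)
      have hZθ : ∀ z ∈ Z, θ z ∈ Z := by
        have : ∀ (l : ℕ), ∀ z ∈ Z, (σ ^ l) z ∈ Z := by
          intro l
          induction l with
          | zero => intro z hz; simpa using hz
          | succ l ih' => intro z hz; rw [pow_succ', MulAut.mul_apply]; exact C.Zinv _ (ih' z hz)
        exact this _
      refine ⟨j, le_rfl, hjn, μ, Y, ?_, ?_, ?_, ?_, ?_, ?_⟩
      · intro z hz z' hz'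
        apply smul_one_inj (W := W)
        rw [← hμ _ (hZY (Z.mul_mem hz hz')), map_mul, hμ z (hZY hz), hμ z' (hZY hz')]
        rw [smul_mul_assoc, one_mul, smul_smul]
      · apply smul_one_inj (W := W)
        rw [← hμ 1 Y.one_mem, map_one, one_smul]
      · intro z hz
        apply smul_one_inj (W := W)
        rw [← hμ _ (hZY (hZθ z hz))]
        apply hTr
        rw [← hTρ, hμ z (hZY hz)]; simp
      · intro x
        have key : ∀ y, ρ x * ρ y = ρ y * ρ x ↔ μ (x * y * x⁻¹ * y⁻¹) = 1 := by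
          intro y
          have h1 : ρ x * ρ y = ρ (x * y * x⁻¹ * y⁻¹) * (ρ y * ρ x) := by
            rw [← map_mul, ← map_mul, ← map_mul]; congr 1; group
          rw [h1, hμ _ (hZY (C.comm x y))]
          constructor
          · intro h
            have h2 : μ (x * y * x⁻¹ * y⁻¹) • (1 : Module.End K W) = (1 : K) • (1 : Module.End K W) := by
              have h3 := congrArg (fun t => t * (ρ x⁻¹ * ρ y⁻¹)) h
              have e : ρ y * ρ x * (ρ x⁻¹ * ρ y⁻¹) = 1 := by
                rw [← map_mul, ← map_mul, ← map_mul]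
                have : y * x * (x⁻¹ * y⁻¹) = 1 := by group
                rw [this, map_one]
              rw [mul_assoc, e, mul_one] at h3
              rw [h3, one_smul]
            exact smul_one_inj (W := W) h2
          · intro h
            rw [h, one_smul, one_mul]
        rw [hYmem]
        exact forall_congr' key
      · intro h
        apply hnt
        rw [hμ z₀ (hZY hz₀), h, one_smul]
      · intro hβ
        rw [hτ] at hβ ⊢
        obtain ⟨r1, r2, r3⟩ := Heis.heis_group2 ρ Y hB (fun x y => hZY (C.comm x y)) (fun x hx => hx) hQK hodd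
          θ T (n - j) hs h2K hθY hTP hTρ hθP hβ l₁ l₂ h₁ h₂ hm₁ hm₂
        exact ⟨by rw [r1], r2, r3⟩
  · -- Case A
    push Not at hB
    obtain ⟨y0, hy0, hy0ne⟩ := hB
    have hYc : ∀ y ∈ Y, ∀ x, ρ y * ρ x = ρ x * ρ y := fun y hy => hy
    obtain ⟨χ, w0, hw0, hne0⟩ : ∃ (χ : Q → K) (w0 : W), w0 ∈ wt ρ Y χ ∧ ρ z₀ w0 ≠ w0 := by
      by_contra hcon
      push Not at hcon
      apply hnt
      have h1 : (ρ z₀).eigenspace 1 = ⊤ := by
        rw [eq_top_iff, ← wt_iSup ρ Y hYc]
        apply iSup_le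
        intro χ y hy
        rw [Module.End.mem_eigenspace_iff, one_smul]
        exact hcon χ y hy
      ext y
      have : y ∈ (ρ z₀).eigenspace 1 := by rw [h1]; trivial
      rw [Module.End.mem_eigenspace_iff, one_smul] at this
      simpa using this
    let π : (Q → K) → (Q → K) := fun χ x => χ (θ⁻¹ x)
    have hπpow : ∀ (l : ℕ) (χ : Q → K), π^[l] χ = fun x => χ ((θ⁻¹ ^ l) x) := by
      intro l
      induction l with
      | zero => intro χ; simp
      | succ l ih' =>
        intro χ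
        rw [Function.iterate_succ_apply', ih']
        funext x
        simp only [π]
        rw [pow_succ, MulAut.mul_apply]
    have hper : IsPeriodicPt π (2 ^ (n - j)) χ := by
      unfold IsPeriodicPt IsFixedPt
      rw [hπpow, inv_pow, hθP]
      simp
    set m := minimalPeriod π χ with hm
    obtain ⟨i, hi, hmi0⟩ := (Nat.dvd_prime_pow Nat.prime_two).mp hper.minimalPeriod_dvd
    have hmi : m = 2 ^ i := hmi0
    have hmpos : 0 < m := by rw [hmi]; exact pow_pos (by norm_num) i
    have hTwt : ∀ χ' : Q → K, ∀ y ∈ wt ρ Y χ', T y ∈ wt ρ Y (π χ') :=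
      fun χ' y hy => wt_map ρ Y hQK θ hθY T hTρ χ' y hy
    have hTlwt : ∀ (l : ℕ), ∀ y ∈ wt ρ Y χ, (T ^ l) y ∈ wt ρ Y (π^[l] χ) := by
      intro l
      induction l with
      | zero => intro y hy; simpa using hy
      | succ l ih' =>
        intro y hy
        rw [pow_succ', Module.End.mul_apply, Function.iterate_succ_apply']
        exact hTwt _ _ (ih' y hy)
    set q := wt ρ Y χ with hq
    have hTm : ∀ y ∈ q, (T ^ m) y ∈ q := by
      intro y hy
      have := hTlwt m y hy
      rwa [hm, iterate_minimalPeriod] at this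
    have hqtop : q ≠ ⊤ := by
      intro h
      apply hy0ne (χ y0)
      ext y
      have hy : y ∈ q := by rw [h]; trivial
      rw [hq, mem_wt ρ Y hQK] at hy
      have := hy y0
      rw [fam_of_mem ρ hy0] at this
      simpa using this
    have hlt : finrank K q < d := by rw [← hd]; exact Submodule.finrank_lt hqtop
    let ρ' : Q →* Module.End K q := resRep ρ q (fun x y hy => wt_invariant ρ Y hQK hYc χ x y hy)
    let Tq : Module.End K q := (T ^ m).restrict hTm
    have hji : j + i ≤ n := by omega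
    have hmiss : ∀ l : K, l ^ (2 ^ (n - j)) = 1 → (∀ w : W, T w = l • w → w = 0) →
        ∀ w : q, Tq w = l ^ m • w → w = 0 := by
      intro l hl hml y hy
      by_contra hy0'
      have hl0 : l ≠ 0 := by
        rintro rfl
        rw [zero_pow (pow_pos (by norm_num) _).ne'] at hl
        exact zero_ne_one hl
      have hyT : (T ^ m) (y : W) = l ^ m • (y : W) := congrArg Subtype.val hy
      set Tt : Module.End K W := l⁻¹ • T with hTt
      have hTtm : (Tt ^ m) (y : W) = y := by
        rw [hTt, smul_pow, LinearMap.smul_apply, hyT, smul_smul, inv_pow,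
          inv_mul_cancel₀ (pow_ne_zero _ hl0), one_smul]
      have hfix := orbit_sum_fixed Tt m y hTtm
      have hTtwt : ∀ χ' : Q → K, ∀ y ∈ wt ρ Y χ', Tt y ∈ wt ρ Y (π χ') := by
        intro χ' y hy
        rw [hTt, LinearMap.smul_apply]
        exact Submodule.smul_mem _ _ (hTwt χ' y hy)
      have hne := orbit_sum_ne_zero (wt ρ Y) (wt_indep ρ Y hYc) π Tt hTtwt χ m hmpos
        (by
          intro l' hl0' hlm
          exact not_isPeriodicPt_of_pos_of_lt_minimalPeriod hl0'.ne' hlm) y y.2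
        (by intro h; exact hy0' (Subtype.ext h))
      apply hne
      apply hml
      set v := ∑ l' ∈ Finset.range m, (Tt ^ l') (y : W) with hv
      rw [hTt, LinearMap.smul_apply] at hfix
      calc T v = l • (l⁻¹ • T v) := by rw [smul_smul, mul_inv_cancel₀ hl0, one_smul]
        _ = l • v := by rw [hfix]
    have hexp : m * 2 ^ (n - (j + i)) = 2 ^ (n - j) := by
      rw [hmi, ← pow_add]; congr 1; omega
    have hres := ih (finrank K q) hlt q (j + i) ρ' Tq (l₁ ^ m) (l₂ ^ m) rfl hji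
      (by
        rw [Module.End.pow_restrict]
        ext y
        simp only [LinearMap.restrict_coe_apply, Module.End.one_apply]
        rw [← pow_mul, hexp, hTP]; rfl)
      (by
        intro x
        ext y
        simp only [Module.End.mul_apply, Tq, ρ', LinearMap.restrict_coe_apply, resRep_apply]
        have h1 := LinearMap.congr_fun (hTpow m x) (y : W)
        simp only [Module.End.mul_apply] at h1
        rw [h1]
        have h2 : θ ^ m = σ ^ (2 ^ (j + i)) := by rw [hθ, ← pow_mul, hmi, ← pow_add]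
        rw [h2])
      (by
        intro h
        apply hne0
        have := LinearMap.congr_fun h ⟨w0, hw0⟩
        exact congrArg Subtype.val this)
      (by rw [← pow_mul, hexp, h₁]) (by rw [← pow_mul, hexp, h₂])
      (hmiss l₁ h₁ hm₁) (hmiss l₂ h₂ hm₂)
    obtain ⟨j', hj1, hj2, μ, Y', a1, a2, a3, a4, a5, a6⟩ := hres
    refine ⟨j', by omega, hj2, μ, Y', a1, a2, a3, a4, a5, ?_⟩
    intro hβ
    obtain ⟨b1, b2, b3⟩ := a6 hβ
    refine ⟨?_, b2, b3⟩
    have e : m * 2 ^ (j' - (j + i)) = 2 ^ (j' - j) := by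
      rw [hmi, ← pow_add]; congr 1; omega
    rw [← pow_mul, ← pow_mul, e] at b1
    exact b1

end Cfsg.Agent.Lib.Helper79.HW
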