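import Mathlib
import Cfsg.Agent.Lib.Helper79.HClaim

/-! # Minimal configurations give `Cfg` -/

set_option autoImplicit false

namespace Cfsg.Agent.Lib.Helper79.HW

universe w

variable {Q : Type w} [Group Q]

theorem eq_one_of_pow_coprime {G : Type*} [Group G] (g : G) (a b : ℕ) (hab : a.Coprime b)
    (ha : g ^ a = 1) (hb : g ^ b = 1) : g = 1 := by
  have h1 := orderOf_dvd_of_pow_eq_one ha
  have h2 := orderOf_dvd_of_pow_eq_one hb
  have h3 : orderOf g = 1 := Nat.eq_one_of_dvd_coprimes hab h1 h2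
  exact orderOf_eq_one_iff.mp h3

/-- fixed points of an automorphism. -/
def fixSub (τ : MulAut Q) : Subgroup Q where
  carrier := {x | τ x = x}
  mul_mem' := by
    intro a b ha hb
    simp only [Set.mem_ofPred_eq] at ha hb ⊢
    rw [map_mul, ha, hb]
  one_mem' := by simp
  inv_mem' := by
    intro a ha
    simp only [Set.mem_ofPred_eq] at ha ⊢
    rw [map_inv, ha]

theorem mem_fixSub {τ : MulAut Q} {x : Q} : x ∈ fixSub τ ↔ τ x = x := Iff.rfl

/-- `τ x = x h`, `τ h = h`, `τ^p = 1`, `h` a `q`-element: `h = 1`. -/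
theorem eq_one_of_shift (τ : MulAut Q) (p q : ℕ) (hpq : p.Coprime q) (hQ : IsPGroup q Q) (hτp : τ ^ p = 1)
    (x h : Q) (hx : τ x = x * h) (hh : τ h = h) : h = 1 := by
  have h1 : ∀ k : ℕ, (τ ^ k) x = x * h ^ k := by
    intro k
    induction k with
    | zero => simp
    | succ k ih => rw [pow_succ', MulAut.mul_apply, ih, map_mul, map_pow, hx, hh, pow_succ', mul_assoc]
  have h2 := h1 p
  rw [hτp, MulAut.one_apply] at h2
  have h3 : h ^ p = 1 := by
    have := mul_left_cancel (a := x) (b := 1) (c := h ^ p) (by rw [mul_one]; exact h2)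
    exact this.symm
  obtain ⟨e, he⟩ := hQ h
  exact eq_one_of_pow_coprime h p (q ^ e) (Nat.Coprime.pow_right e hpq) h3 he

theorem free_of (τ : MulAut Q) (p q : ℕ) (hpq : p.Coprime q) (hQ : IsPGroup q Q) (hτp : τ ^ p = 1)
    (hcomm : ∀ x y : Q, τ (x * y * x⁻¹ * y⁻¹) = x * y * x⁻¹ * y⁻¹)
    (Y : Subgroup Q) (hZY : fixSub τ ≤ Y) (hτY : ∀ y ∈ Y, τ y ∈ Y) (x : Q) (hx : x⁻¹ * τ x ∈ Y) : x ∈ Y := by
  haveI : Y.Normal := by
    constructor
    intro y hy g
    have : g * y * g⁻¹ = (g * y * g⁻¹ * y⁻¹) * y := by group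
    rw [this]
    exact Y.mul_mem (hZY (hcomm g y)) hy
  have h1 : ∀ k : ℕ, x⁻¹ * (τ ^ k) x ∈ Y := by
    intro k
    induction k with
    | zero => simp
    | succ k ih =>
      have : x⁻¹ * (τ ^ (k + 1)) x = (x⁻¹ * τ x) * τ (x⁻¹ * (τ ^ k) x) := by
        rw [pow_succ', MulAut.mul_apply, map_mul, map_inv]; group
      rw [this]
      exact Y.mul_mem hx (hτY _ ih)
  let nrm : ℕ → Q := fun k => Nat.rec 1 (fun i acc => acc * (τ ^ i) x) k
  have nrm0 : nrm 0 = 1 := rfl
  have nrmS : ∀ k, nrm (k + 1) = nrm k * (τ ^ k) x := fun k => rfl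
  have h2 : ∀ k, τ (nrm k) = x⁻¹ * nrm (k + 1) := by
    intro k
    induction k with
    | zero => rw [nrmS, nrm0]; simp
    | succ k ih =>
      rw [nrmS k, map_mul, ih, nrmS (k + 1), mul_assoc, ← MulAut.mul_apply, ← pow_succ']
  set wv := nrm p with hwv
  have h3 : τ wv = wv * (wv⁻¹ * x⁻¹ * wv⁻¹⁻¹ * x⁻¹⁻¹) := by
    rw [hwv, h2, nrmS, hτp, MulAut.one_apply]; group
  have h4 : wv⁻¹ * x⁻¹ * wv⁻¹⁻¹ * x⁻¹⁻¹ = 1 :=
    eq_one_of_shift τ p q hpq hQ hτp wv _ h3 (hcomm _ _)
  have h5 : wv ∈ Y := by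
    apply hZY
    rw [mem_fixSub, h3, h4, mul_one]
  have h6 : ∀ k, (QuotientGroup.mk (nrm k) : Q ⧸ Y) = (QuotientGroup.mk x : Q ⧸ Y) ^ k := by
    intro k
    induction k with
    | zero => rw [nrm0]; simp
    | succ k ih =>
      rw [nrmS, QuotientGroup.mk_mul, ih, pow_succ]
      congr 1
      exact (QuotientGroup.eq.mpr (h1 k)).symm
  have h7 : (QuotientGroup.mk x : Q ⧸ Y) ^ p = 1 := by
    rw [← h6 p]
    exact (QuotientGroup.eq_one_iff _).mpr h5
  obtain ⟨e, he⟩ := hQ x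
  have h8 : (QuotientGroup.mk x : Q ⧸ Y) ^ (q ^ e) = 1 := by
    rw [← QuotientGroup.mk_pow, he]; rfl
  have h9 := eq_one_of_pow_coprime _ p (q ^ e) (Nat.Coprime.pow_right e hpq) h7 h8
  exact (QuotientGroup.eq_one_iff _).mp h9

theorem cfg_of_minimal [Finite Q] (σ : MulAut Q) (p q n : ℕ) (hp : p.Prime) (hq : q.Prime) (hpq : p ≠ q)
    (hQ : IsPGroup q Q) (hn : 0 < n) (hσ : σ ^ (p ^ n) = 1) (hτ : σ ^ (p ^ (n - 1)) ≠ 1)
    (hmin : ∀ H : Subgroup Q, (∀ x ∈ H, σ x ∈ H) → H ≠ ⊤ → ∀ x ∈ H, (σ ^ (p ^ (n - 1))) x = x) :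
    Cfg σ p n (fixSub (σ ^ (p ^ (n - 1)))) := by
  set τ := σ ^ (p ^ (n - 1)) with hτdef
  have hcop : p.Coprime q := (Nat.coprime_primes hp hq).mpr hpq
  have hτp : τ ^ p = 1 := by
    rw [hτdef, ← pow_mul, ← pow_succ, Nat.sub_add_cancel hn, hσ]
  have hστ : ∀ x, σ (τ x) = τ (σ x) := by
    intro x
    rw [← MulAut.mul_apply, ← MulAut.mul_apply, hτdef, ← pow_succ', ← pow_succ]
  have hgen : ∀ H : Subgroup Q, (∀ x, x⁻¹ * τ x ∈ H) → H = ⊤ := by
    intro H hH
    let H0 : Subgroup Q := Subgroup.closure {u | ∃ x, u = x⁻¹ * τ x}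
    have hH0 : H0 ≤ H := by
      rw [Subgroup.closure_le]
      rintro u ⟨x, rfl⟩
      exact hH x
    have hinv : ∀ x ∈ H0, σ x ∈ H0 := by
      intro x hx
      induction hx using Subgroup.closure_induction with
      | mem u hu =>
        obtain ⟨y, rfl⟩ := hu
        apply Subgroup.subset_closure
        exact ⟨σ y, by rw [map_mul, map_inv, hστ]⟩
      | one => rw [map_one]; exact H0.one_mem
      | mul a b _ _ ha hb => rw [map_mul]; exact H0.mul_mem ha hb
      | inv a _ ha => rw [map_inv]; exact H0.inv_mem ha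
    by_contra hne
    have hH0ne : H0 ≠ ⊤ := by
      intro h
      apply hne
      rw [eq_top_iff, ← h]; exact hH0
    have hfix := hmin H0 hinv hH0ne
    apply hτ
    ext x
    have hx : x⁻¹ * τ x ∈ H0 := Subgroup.subset_closure ⟨x, rfl⟩
    have h1 := eq_one_of_shift τ p q hcop hQ hτp x (x⁻¹ * τ x) (by group) (hfix _ hx)
    rw [MulAut.one_apply]
    exact (inv_mul_eq_one.mp h1).symm
  haveI : Fact q.Prime := ⟨hq⟩
  haveI : Nontrivial Q := by
    by_contra h
    rw [not_nontrivial_iff_subsingleton] at h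
    apply hτ
    ext x
    exact Subsingleton.elim _ _
  haveI : Group.IsNilpotent Q := hQ.isNilpotent
  have hcomm : ∀ x y : Q, τ (x * y * x⁻¹ * y⁻¹) = x * y * x⁻¹ * y⁻¹ := by
    intro x y
    apply hmin (commutator Q)
    · intro u hu
      have hchar : (commutator Q).Characteristic := by
        rw [commutator_def]; infer_instance
      have := (Subgroup.characteristic_iff_map_le.mp hchar) σ
      exact this ⟨u, hu, rfl⟩
    · exact (Group.IsSolvable.commutator_lt_top_of_nontrivial Q).ne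
    · rw [commutator_def]
      exact Subgroup.commutator_mem_commutator (Subgroup.mem_top x) (Subgroup.mem_top y)
  refine
    { pow := hσ
      npos := hn
      central := ?_
      comm := fun x y => hcomm x y
      Zinv := ?_
      gen := hgen
      free := ?_ }
  · intro z hz x
    have hz' : τ z = z := hz
    have h1 : Subgroup.centralizer {z} = ⊤ := by
      apply hgen
      intro y
      rw [Subgroup.mem_centralizer_singleton_iff]
      have h2 := hcomm z y
      rw [map_mul, map_mul, map_mul, map_inv, map_inv, hz'] at h2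
      -- z τy z⁻¹ (τy)⁻¹ = z y z⁻¹ y⁻¹
      have h3 : τ y * z⁻¹ * (τ y)⁻¹ = y * z⁻¹ * y⁻¹ := by
        have := congrArg (fun t => z⁻¹ * t) h2
        simpa [mul_assoc] using this
      have h4 : (y⁻¹ * τ y) * z⁻¹ = z⁻¹ * (y⁻¹ * τ y) := by
        have := congrArg (fun t => y⁻¹ * t * τ y) h3
        simpa [mul_assoc] using this
      have := congrArg (fun t => z * t * z) h4
      simpa [mul_assoc] using this.symm
    have h5 : x ∈ Subgroup.centralizer {z} := by rw [h1]; trivial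
    exact (Subgroup.mem_centralizer_singleton_iff.mp h5).symm
  · intro z hz
    have hz' : τ z = z := hz
    rw [mem_fixSub, ← hστ, hz']
  · intro Y hZY hτY x hx
    exact free_of τ p q hcop hQ hτp hcomm Y hZY hτY x hx

end Cfsg.Agent.Lib.Helper79.HW
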