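import Mathlib

/-! # Arithmetic lemmas for the exceptional case -/

set_option autoImplicit false

namespace Cfsg.Agent.Lib.Helper79.HW

theorem sq_case (p s d m : ℕ) (hp : p.Prime) (hs : 0 < s) (hodd : p ≠ 2 ∨ s = 1)
    (hle : d ^ 2 ≤ (p ^ s - 1) ^ 2) (hm : d ^ 2 = p ^ s * m + 1) (h1 : 1 < d ^ 2) : d = p ^ s - 1 := by
  set P := p ^ s with hP
  have hPpos : 0 < P := pow_pos hp.pos s
  have hd : d ≤ P - 1 := by
    by_contra h
    push Not at h
    have := Nat.pow_lt_pow_left h (n := 2) (by norm_num)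
    omega
  have hd2 : 2 ≤ d := by
    by_contra h
    push Not at h
    interval_cases d <;> simp at h1
  have hp2 : p ≠ 2 := by
    rcases hodd with h | h
    · exact h
    · intro h2
      rw [h, h2] at hP
      simp at hP
      omega
  obtain ⟨e, rfl⟩ : ∃ e, d = e + 1 := ⟨d - 1, by omega⟩
  have hprod : e * (e + 2) = P * m := by nlinarith
  by_cases hpe : p ∣ e
  · exfalso
    have hne : ¬ p ∣ e + 2 := by
      intro h
      have h2 : p ∣ 2 := (Nat.dvd_add_right hpe).mp h
      have := (Nat.prime_dvd_prime_iff_eq hp Nat.prime_two).mp h2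
      exact hp2 this
    have hcop : Nat.Coprime P (e + 2) := Nat.Coprime.pow_left s ((Nat.Prime.coprime_iff_not_dvd hp).mpr hne)
    have hdvd : P ∣ e := hcop.dvd_of_dvd_mul_right ⟨m, hprod⟩
    have := Nat.le_of_dvd (by omega) hdvd
    omega
  · have hcop : Nat.Coprime P e := Nat.Coprime.pow_left s ((Nat.Prime.coprime_iff_not_dvd hp).mpr hpe)
    have hdvd : P ∣ e + 2 := hcop.dvd_of_dvd_mul_left ⟨m, hprod⟩
    have := Nat.le_of_dvd (by omega) hdvd
    omega

theorem nt_bound (p q s j a f : ℕ) (hp : p.Prime) (hp2 : p ≠ 2) (hq : q.Prime) (hs : 0 < s)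
    (ha : q ^ a = (p ^ s - 1) ^ 2) (hdvd : p ^ (s + j) ∣ q ^ f - 1) (hf : 0 < f) : a * p ^ j ≤ f := by
  haveI : Fact p.Prime := ⟨hp⟩
  set P := p ^ s with hP
  have hp3 : 3 ≤ p := by
    have := hp.two_le
    omega
  have hP3 : 3 ≤ P := le_trans hp3 (by
    calc p = p ^ 1 := (pow_one p).symm
      _ ≤ p ^ s := Nat.pow_le_pow_right hp.pos hs)
  -- P - 1 = q ^ b
  have h1 : (P - 1) ∣ q ^ a := by rw [ha]; exact Dvd.intro_left _ (by ring)
  obtain ⟨b, _, hb⟩ := (Nat.dvd_prime_pow hq).mp h1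
  have hab : a = 2 * b := by
    rw [hb, ← pow_mul] at ha
    have := Nat.pow_right_injective hq.two_le ha
    omega
  have hbpos : 0 < b := by
    rcases Nat.eq_zero_or_pos b with h | h
    · rw [h, pow_zero] at hb; omega
    · exact h
  -- P ∣ q^(2b) - 1
  have hx : q ^ (2 * b) = P * (P - 2) + 1 := by
    rw [← hab, ha]
    obtain ⟨P', hP'⟩ : ∃ P', P = P' + 2 := ⟨P - 2, by omega⟩
    rw [hP']
    simp only [Nat.add_sub_cancel]
    have : P' + 2 - 1 = P' + 1 := by omega
    rw [this]; ring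
  have hP1 : P ∣ q ^ (2 * b) - 1 := by rw [hx]; simp
  have hP2 : P ∣ q ^ f - 1 := by
    refine dvd_trans ?_ hdvd
    rw [pow_add]; exact Dvd.intro _ rfl
  have hg : P ∣ q ^ (Nat.gcd f (2 * b)) - 1 := by
    rw [← Nat.pow_sub_one_gcd_pow_sub_one]
    exact Nat.dvd_gcd hP2 hP1
  set g := Nat.gcd f (2 * b) with hgdef
  have hgpos : 0 < g := Nat.gcd_pos_of_pos_left _ hf
  have hg2b : g ∣ 2 * b := Nat.gcd_dvd_right _ _
  have hgeq : g = 2 * b := by
    by_contra hne
    obtain ⟨k, hk⟩ := hg2b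
    have hk2 : 2 ≤ k := by
      rcases k with _ | _ | k
      · omega
      · exfalso; apply hne; omega
      · omega
    have hgb : g ≤ b := by nlinarith
    have h2 : q ^ g ≤ q ^ b := Nat.pow_le_pow_right hq.pos hgb
    have h3 : 1 < q ^ g := Nat.one_lt_pow hgpos.ne' hq.one_lt
    have h4 := Nat.le_of_dvd (by omega) hg
    omega
  have h2bf : 2 * b ∣ f := by rw [← hgeq]; exact Nat.gcd_dvd_left _ _
  obtain ⟨t, ht⟩ := h2bf
  have htpos : t ≠ 0 := by
    rintro rfl
    omega
  set x := q ^ (2 * b) with hxdef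
  have hx1 : 1 < x := by
    rw [hx]
    have : 0 < P * (P - 2) := Nat.mul_pos (by omega) (by omega)
    omega
  have hpx : p ∣ x - 1 := by
    refine dvd_trans ?_ hP1
    exact dvd_pow_self p hs.ne'
  have hpnx : ¬ p ∣ x := by
    intro h
    have : p ∣ 1 := by
      have h5 : x = (x - 1) + 1 := by omega
      rw [h5] at h
      exact (Nat.dvd_add_right hpx).mp h
    exact hp.one_lt.ne' (Nat.dvd_one.mp this)
  have hlte := padicValNat.pow_sub_pow (p := p) (x := x) (y := 1) (hp.odd_of_ne_two hp2) hx1 hpx hpnx htpos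
  rw [one_pow] at hlte
  have hval : padicValNat p (x - 1) = s := by
    have h6 : x - 1 = p ^ s * (P - 2) := by rw [hx]; simp [hP]
    rw [h6, padicValNat.mul (pow_ne_zero _ hp.ne_zero) (by omega), padicValNat.prime_pow]
    have h7 : ¬ p ∣ P - 2 := by
      intro h
      have h8 : p ∣ P := dvd_pow_self p hs.ne'
      have h9 : p ∣ 2 := by
        have : P = (P - 2) + 2 := by omega
        rw [this] at h8
        exact (Nat.dvd_add_right h).mp h8
      exact hp2 ((Nat.prime_dvd_prime_iff_eq hp Nat.prime_two).mp h9)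
    rw [padicValNat.eq_zero_of_not_dvd h7, add_zero]
  have hxt : x ^ t = q ^ f := by rw [hxdef, ← pow_mul, ← ht]
  rw [hxt, hval] at hlte
  have hne0 : q ^ f - 1 ≠ 0 := by
    have : 1 < q ^ f := Nat.one_lt_pow hf.ne' hq.one_lt
    omega
  have h10 := (padicValNat_dvd_iff_le hne0).mp hdvd
  rw [hlte] at h10
  have h11 : j ≤ padicValNat p t := by omega
  have h12 : p ^ j ∣ t := (padicValNat_dvd_iff_le htpos).mpr h11
  have h13 := Nat.le_of_dvd (Nat.pos_of_ne_zero htpos) h12
  rw [ht, hab]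
  exact Nat.mul_le_mul_left _ h13

end Cfsg.Agent.Lib.Helper79.HW
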