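import Mathlib
import Cfsg.Agent.Lib.Helper79.HMinCfg
import Cfsg.Agent.Lib.Helper79.HNum

/-! # Analysis of the exceptional case -/

set_option autoImplicit false

namespace Cfsg.Agent.Lib.Helper79.HW

open Module Function

universe u w

variable {K : Type u} [Field K] {Q : Type w} [Group Q]

theorem index_eq_of_free [Finite Q] (Y : Subgroup Q) [Y.Normal] (θ : MulAut Q) (hθY : ∀ x, x ∈ Y ↔ θ x ∈ Y)
    (p s : ℕ) (hp : p.Prime) (hs : 0 < s) (hθP : θ ^ (p ^ s) = 1)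
    (hfree : ∀ x, x⁻¹ * (θ ^ (p ^ (s - 1))) x ∈ Y → x ∈ Y) : ∃ m, Y.index = p ^ s * m + 1 := by
  classical
  haveI : Fintype (Q ⧸ Y) := Fintype.ofFinite _
  have hidx : Y.index = Fintype.card (Q ⧸ Y) := by
    rw [Subgroup.index_eq_card, Nat.card_eq_fintype_card]
  have hmap : Y.map (θ : Q ≃* Q).toMonoidHom = Y := by
    ext x
    constructor
    · rintro ⟨y, hy, rfl⟩
      exact (hθY y).mp hy
    · intro hx
      refine ⟨θ⁻¹ x, ?_, by simp⟩
      rw [SetLike.mem_coe, hθY]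
      simpa using hx
  let τe : Q ⧸ Y ≃* Q ⧸ Y := QuotientGroup.congr Y Y θ hmap
  let τ : Equiv.Perm (Q ⧸ Y) := τe.toEquiv
  have hτmk : ∀ x : Q, τ (x : Q ⧸ Y) = ((θ x : Q) : Q ⧸ Y) := fun x => rfl
  have hτpow : ∀ (k : ℕ) (x : Q), (τ ^ k) (x : Q ⧸ Y) = (((θ ^ k) x : Q) : Q ⧸ Y) := by
    intro k
    induction k with
    | zero => intro x; simp
    | succ k ih =>
      intro x
      rw [pow_succ', Equiv.Perm.mul_apply, ih, hτmk, pow_succ', MulAut.mul_apply]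
  obtain ⟨Rep, m, _, _, hA⟩ := Heis.exists_rep (1 : Q ⧸ Y) τ (p ^ s) (map_one τe)
    (fun a ha => Heis.minimalPeriod_eq_of_free 1 τ p s hp hs
      (by
        ext a
        obtain ⟨x, rfl⟩ := QuotientGroup.mk_surjective a
        rw [hτpow, hθP]; rfl)
      (by
        intro a ha
        obtain ⟨x, rfl⟩ := QuotientGroup.mk_surjective a
        rw [hτpow] at ha
        rw [QuotientGroup.eq_one_iff]
        apply hfree
        exact QuotientGroup.eq.mp ha.symm) a ha)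
  exact ⟨m, by rw [hidx, hA]⟩

theorem Exc.refine [Finite Q] {σ : MulAut Q} {p n : ℕ} {Z : Subgroup Q} (hp : p.Prime)
    (hodd : p ≠ 2 ∨ n = 1) (h : Exc K σ p n Z) :
    ∃ j, j < n ∧ ∃ (μ : Q → K) (Y : Subgroup Q),
      (∀ z ∈ Z, ∀ z' ∈ Z, μ (z * z') = μ z * μ z') ∧ μ 1 = 1 ∧
      (∀ z ∈ Z, μ ((σ ^ (p ^ j)) z) = μ z) ∧
      (∀ x, x ∈ Y ↔ ∀ y, μ (x * y * x⁻¹ * y⁻¹) = 1) ∧ Y ≠ ⊤ ∧ Y.index = (p ^ (n - j) - 1) ^ 2 := by
  obtain ⟨j, hj, μ, Y, h1, h2, h3, h4, h5, hle, ⟨m, hm⟩, ⟨d, hd⟩⟩ := h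
  refine ⟨j, hj, μ, Y, h1, h2, h3, h4, h5, ?_⟩
  have hidx1 : 1 < Y.index := by
    have h0 : Y.index ≠ 0 := Subgroup.index_ne_zero_of_finite
    have h1' : Y.index ≠ 1 := fun h => h5 (Subgroup.index_eq_one.mp h)
    omega
  have := sq_case p (n - j) d m hp (by omega) (by
    rcases hodd with h | h
    · exact Or.inl h
    · right; omega) (by rw [← hd]; exact hle) (by rw [← hd]; exact hm) (by rw [← hd]; exact hidx1)
  rw [hd, this]

theorem exc_elim [Finite Q] {σ : MulAut Q} {p q n : ℕ} {Z : Subgroup Q} (C : Cfg σ p n Z) (hp : p.Prime)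
    (hp2 : p ≠ 2) (hq : q.Prime) (hQ : IsPGroup q Q) (hfpf : ∀ x, σ x = x → x = 1)
    (hmin : ∀ H : Subgroup Q, (∀ x ∈ H, σ x ∈ H) → H ≠ ⊤ → H ≤ Z) : ¬ Exc K σ p n Z := by
  intro hexc
  obtain ⟨j, hj, μ, Y, hμmul, hμ1, hμinv, hY, hYtop, hidx⟩ := hexc.refine hp (Or.inl hp2)
  haveI : Fact q.Prime := ⟨hq⟩
  set m0 := p ^ j with hm0
  have hm0pos : 0 < m0 := pow_pos hp.pos j
  have hσZ : ∀ (i : ℕ), ∀ z ∈ Z, (σ ^ i) z ∈ Z := by
    intro i
    induction i with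
    | zero => intro z hz; simpa using hz
    | succ i ih => intro z hz; rw [pow_succ', MulAut.mul_apply]; exact C.Zinv _ (ih z hz)
  have hμne : ∀ z ∈ Z, μ z ≠ 0 := by
    intro z hz h0
    have := hμmul z hz z⁻¹ (Z.inv_mem hz)
    rw [mul_inv_cancel, hμ1, h0, zero_mul] at this
    exact one_ne_zero this
  let ν : Q → K := fun z => ∏ i ∈ Finset.range m0, μ ((σ ^ i) z)
  have hνmul : ∀ z ∈ Z, ∀ z' ∈ Z, ν (z * z') = ν z * ν z' := by
    intro z hz z' hz'
    simp only [ν]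
    rw [← Finset.prod_mul_distrib]
    refine Finset.prod_congr rfl (fun i _ => ?_)
    rw [map_mul]
    exact hμmul _ (hσZ i z hz) _ (hσZ i z' hz')
  have hν1 : ν 1 = 1 := by
    simp only [ν, map_one, hμ1, Finset.prod_const_one]
  have hνσ : ∀ z ∈ Z, ν (σ z) = ν z := by
    intro z hz
    simp only [ν]
    have e1 : ∀ i, (σ ^ i) (σ z) = (σ ^ (i + 1)) z := by
      intro i; rw [pow_succ, MulAut.mul_apply]
    simp_rw [e1]
    have a1 := Finset.prod_range_succ' (fun i => μ ((σ ^ i) z)) m0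
    have a2 := Finset.prod_range_succ (fun i => μ ((σ ^ i) z)) m0
    rw [a2] at a1
    simp only [pow_zero, MulAut.one_apply] at a1
    rw [hμinv z hz] at a1
    exact (mul_right_cancel₀ (hμne z hz) a1).symm
  have hsurj : ∀ z ∈ Z, ∃ w ∈ Z, z = w⁻¹ * σ w := by
    let δ : Z → Z := fun w => ⟨(w : Q)⁻¹ * σ w, Z.mul_mem (Z.inv_mem w.2) (C.Zinv _ w.2)⟩
    have hinj : Injective δ := by
      intro a b hab
      have h1 : (a : Q)⁻¹ * σ a = (b : Q)⁻¹ * σ b := congrArg Subtype.val hab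
      have h2 : σ ((b : Q) * (a : Q)⁻¹) = (b : Q) * (a : Q)⁻¹ := by
        rw [map_mul, map_inv]
        have h3 : σ (b : Q) = (b : Q) * ((a : Q)⁻¹ * σ a) := by rw [h1]; group
        rw [h3]; group
      have h4 := hfpf _ h2
      exact Subtype.ext (mul_inv_eq_one.mp h4).symm
    have hs : Surjective δ := Finite.surjective_of_injective hinj
    intro z hz
    obtain ⟨w, hw⟩ := hs ⟨z, hz⟩
    exact ⟨w, w.2, (congrArg Subtype.val hw).symm⟩
  have hνone : ∀ z ∈ Z, ν z = 1 := by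
    intro z hz
    obtain ⟨w, hw, rfl⟩ := hsurj z hz
    rw [hνmul _ (Z.inv_mem hw) _ (C.Zinv _ hw), hνσ w hw, ← hνmul _ (Z.inv_mem hw) _ hw, inv_mul_cancel, hν1]
  have hcommσ : ∀ (i : ℕ) (x y : Q), (σ ^ i) (x * y * x⁻¹ * y⁻¹)
      = (σ ^ i) x * (σ ^ i) y * ((σ ^ i) x)⁻¹ * ((σ ^ i) y)⁻¹ := by
    intro i x y; simp
  obtain ⟨m1, hm1⟩ : ∃ m1, m0 = m1 + 1 := ⟨m0 - 1, by omega⟩
  have hkey : ∀ x, (∀ i, i < m1 → (σ ^ (i + 1)) x ∈ Y) → x ∈ Y := by
    intro x hx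
    rw [hY]
    intro y
    have h1 := hνone _ (C.comm x y)
    simp only [ν] at h1
    rw [hm1, Finset.prod_range_succ'] at h1
    simp only [pow_zero, MulAut.one_apply] at h1
    rw [Finset.prod_eq_one, one_mul] at h1
    · exact h1
    · intro i hi
      rw [hcommσ]
      exact (hY _).mp (hx i (Finset.mem_range.mp hi)) _
  have hYm0 : ∀ x ∈ Y, (σ ^ m0) x ∈ Y := by
    intro x hx
    rw [hY]
    intro y
    obtain ⟨y', rfl⟩ : ∃ y', (σ ^ m0) y' = y := ⟨(σ ^ m0)⁻¹ y, by simp⟩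
    rw [← hcommσ, hμinv _ (C.comm x y')]
    exact (hY x).mp hx y'
  let R' : Subgroup Q := ⨅ i : Fin m1, Y.comap ((σ ^ ((i : ℕ) + 1) : MulAut Q) : Q ≃* Q).toMonoidHom
  have hR'mem : ∀ x, x ∈ R' ↔ ∀ i, i < m1 → (σ ^ (i + 1)) x ∈ Y := by
    intro x
    simp only [R', Subgroup.mem_iInf, Subgroup.mem_comap]
    constructor
    · intro h i hi; exact h ⟨i, hi⟩
    · intro h i; exact h i i.2
  have hR'Y : R' ≤ Y := fun x hx => hkey x ((hR'mem x).mp hx)
  have hR'inv : ∀ x ∈ R', σ x ∈ R' := by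
    intro x hx
    rw [hR'mem]
    intro i hi
    have e : (σ ^ (i + 1)) (σ x) = (σ ^ (i + 1 + 1)) x := by
      rw [pow_succ σ (i + 1), MulAut.mul_apply]
    rw [e]
    rcases Nat.lt_or_ge (i + 1) m1 with h | h
    · exact (hR'mem x).mp hx (i + 1) h
    · have : i + 1 + 1 = m0 := by omega
      rw [this]
      exact hYm0 x (hR'Y hx)
  have hR'top : R' ≠ ⊤ := by
    intro h
    apply hYtop
    rw [eq_top_iff, ← h]; exact hR'Y
  have hR'Z : R' ≤ Z := hmin R' hR'inv hR'top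
  have hidxR : R'.index ≤ Y.index ^ m1 := by
    have h1 := Subgroup.index_iInf_le
      (fun i : Fin m1 => Y.comap ((σ ^ ((i : ℕ) + 1) : MulAut Q) : Q ≃* Q).toMonoidHom)
    have h2 : ∀ i : Fin m1, (Y.comap ((σ ^ ((i : ℕ) + 1) : MulAut Q) : Q ≃* Q).toMonoidHom).index = Y.index := by
      intro i
      apply Subgroup.index_comap_of_surjective
      exact (σ ^ ((i : ℕ) + 1) : MulAut Q).surjective
    simp_rw [h2] at h1
    rw [Finset.prod_const, Finset.card_univ, Fintype.card_fin] at h1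
    exact h1
  have hidxZ : Z.index ≤ Y.index ^ m1 := by
    refine le_trans ?_ hidxR
    exact Nat.le_of_dvd (Nat.pos_of_ne_zero Subgroup.index_ne_zero_of_finite) (Subgroup.index_dvd_of_le hR'Z)
  have hZY : Z ≤ Y := by
    intro z hz
    rw [hY]
    intro y
    have : z * y * z⁻¹ * y⁻¹ = 1 := by rw [C.central z hz y]; group
    rw [this, hμ1]
  haveI : Z.Normal := by
    constructor
    intro z hz g
    have : g * z * g⁻¹ = z := by rw [← C.central z hz g]; group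
    rw [this]; exact hz
  have hσZiff : ∀ x, x ∈ Z ↔ σ x ∈ Z := by
    intro x
    constructor
    · exact C.Zinv x
    · intro hx
      have h1 := hσZ (p ^ n - 1) _ hx
      rw [← MulAut.mul_apply, ← pow_succ, Nat.sub_add_cancel (pow_pos hp.pos n), C.pow] at h1
      exact h1
  obtain ⟨m', hm'⟩ := index_eq_of_free Z σ hσZiff p n hp C.npos C.pow
    (fun x hx => C.free Z le_rfl (fun y hy => hσZ _ y hy) x hx)
  obtain ⟨f, hf⟩ := hQ.index Z
  obtain ⟨a, ha⟩ := hQ.index Y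
  have hZtop : Z ≠ ⊤ := by
    intro h
    apply hYtop
    rw [eq_top_iff, ← h]; exact hZY
  have hfpos : 0 < f := by
    rcases Nat.eq_zero_or_pos f with h | h
    · rw [h, pow_zero] at hf
      exact absurd (Subgroup.index_eq_one.mp hf) hZtop
    · exact h
  have hapos : 0 < a := by
    rcases Nat.eq_zero_or_pos a with h | h
    · rw [h, pow_zero] at ha
      exact absurd (Subgroup.index_eq_one.mp ha) hYtop
    · exact h
  have hnt := nt_bound p q (n - j) j a f hp hp2 hq (by omega) (by rw [← ha, hidx])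
    (by
      have : n - j + j = n := by omega
      rw [this, ← hf, hm']; simp) hfpos
  rw [hf, ha, ← pow_mul] at hidxZ
  have h1 : f ≤ a * m1 := (Nat.pow_le_pow_iff_right hq.one_lt).mp hidxZ
  have h2 : a * m0 ≤ f := hnt
  rw [hm1] at h2
  nlinarith

end Cfsg.Agent.Lib.Helper79.HW
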