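import Mathlib
import Cfsg.Agent.Lib.Helper79.HClaim
import Cfsg.Agent.Lib.Helper79.HMinCfg
import Cfsg.Agent.Lib.Helper79.HExc

/-! # The main dichotomy inside a finite group acting faithfully on a module -/

set_option autoImplicit false

namespace Cfsg.Agent.Lib.Helper79.HW

open Module Function

universe u v w

variable {K : Type u} [Field K] {N : Type w} [Group N]

/-- conjugation by `t` on a `t`-invariant subgroup. -/
def conjOn (t : N) (Q : Subgroup N) (h : ∀ x, x ∈ Q ↔ t * x * t⁻¹ ∈ Q) : MulAut Q where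
  toFun x := ⟨t * x * t⁻¹, (h x).mp x.2⟩
  invFun x := ⟨t⁻¹ * x * t, (h _).mpr (by
    have : t * (t⁻¹ * (x : N) * t) * t⁻¹ = x := by group
    rw [this]; exact x.2)⟩
  left_inv x := by ext; simp [mul_assoc]
  right_inv x := by ext; simp [mul_assoc]
  map_mul' x y := by ext; simp [mul_assoc]

@[simp] theorem conjOn_apply (t : N) (Q : Subgroup N) (h : ∀ x, x ∈ Q ↔ t * x * t⁻¹ ∈ Q) (x : Q) :
    ((conjOn t Q h x : Q) : N) = t * x * t⁻¹ := rfl

theorem conjOn_pow_apply (t : N) (Q : Subgroup N) (h : ∀ x, x ∈ Q ↔ t * x * t⁻¹ ∈ Q) (k : ℕ) (x : Q) :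
    (((conjOn t Q h) ^ k) x : N) = t ^ k * x * (t ^ k)⁻¹ := by
  induction k generalizing x with
  | zero => simp
  | succ k ih =>
    rw [pow_succ', MulAut.mul_apply, conjOn_apply, ih, pow_succ']
    group

theorem conj_mem_iff [Finite N] (t : N) (Q : Subgroup N) (h : ∀ x ∈ Q, t * x * t⁻¹ ∈ Q) (x : N) :
    x ∈ Q ↔ t * x * t⁻¹ ∈ Q := by
  refine ⟨h x, fun hx => ?_⟩
  have hk : ∀ (k : ℕ), ∀ y ∈ Q, t ^ k * y * (t ^ k)⁻¹ ∈ Q := by
    intro k
    induction k with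
    | zero => intro y hy; simpa using hy
    | succ k ih =>
      intro y hy
      have := h _ (ih y hy)
      have e : t ^ (k + 1) * y * (t ^ (k + 1))⁻¹ = t * (t ^ k * y * (t ^ k)⁻¹) * t⁻¹ := by
        rw [pow_succ']; group
      rw [e]; exact this
  have ho : 0 < orderOf t := orderOf_pos t
  have := hk (orderOf t - 1) _ hx
  have e : t ^ (orderOf t - 1) * (t * x * t⁻¹) * (t ^ (orderOf t - 1))⁻¹ = x := by
    have e1 : t ^ (orderOf t - 1) * t = 1 := by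
      rw [← pow_succ, Nat.sub_add_cancel ho, pow_orderOf_eq_one]
    have e2 : t⁻¹ * (t ^ (orderOf t - 1))⁻¹ = 1 := by
      rw [← mul_inv_rev, e1, inv_one]
    calc t ^ (orderOf t - 1) * (t * x * t⁻¹) * (t ^ (orderOf t - 1))⁻¹
        = (t ^ (orderOf t - 1) * t) * x * (t⁻¹ * (t ^ (orderOf t - 1))⁻¹) := by group
      _ = x := by rw [e1, e2]; simp
  rwa [e] at this

theorem main_dich [Finite N] [IsAlgClosed K] {W : Type v} [AddCommGroup W] [Module K W]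
    [FiniteDimensional K W] (ρ : N →* Module.End K W) (hρ : ∀ x, ρ x = 1 → x = 1) (t : N) (p q n : ℕ)
    (hp : p.Prime) (hq : q.Prime) (hpq : p ≠ q) (hn : 0 < n) (ht : t ^ (p ^ n) = 1)
    (S : Subgroup N) (hS : IsPGroup q S) (hSt : ∀ x ∈ S, t * x * t⁻¹ ∈ S) (hqK : (q : K) ≠ 0)
    (hpK : (p : K) ≠ 0) (hb : ∃ x ∈ S, t ^ (p ^ (n - 1)) * x ≠ x * t ^ (p ^ (n - 1))) :
    (∃ y : W, y ≠ 0 ∧ ρ t y = y) ∨
    ∃ (Q : Subgroup N) (h : ∀ x, x ∈ Q ↔ t * x * t⁻¹ ∈ Q), Q ≤ S ∧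
      Cfg (conjOn t Q h) p n (fixSub ((conjOn t Q h) ^ (p ^ (n - 1)))) ∧
      (∀ H : Subgroup Q, (∀ x ∈ H, conjOn t Q h x ∈ H) → H ≠ ⊤ →
        H ≤ fixSub ((conjOn t Q h) ^ (p ^ (n - 1)))) ∧
      Exc K (conjOn t Q h) p n (fixSub ((conjOn t Q h) ^ (p ^ (n - 1)))) := by
  set b := t ^ (p ^ (n - 1)) with hbdef
  let 𝒮 : Set (Subgroup N) := {Q | Q ≤ S ∧ (∀ x ∈ Q, t * x * t⁻¹ ∈ Q) ∧ ∃ x ∈ Q, b * x ≠ x * b}
  have hne : 𝒮.Nonempty := ⟨S, le_refl _, hSt, hb⟩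
  obtain ⟨Q, ⟨hQS, hQt, x0, hx0, hx0b⟩, hQmin⟩ := WellFounded.has_min (wellFounded_lt (α := Subgroup N)) 𝒮 hne
  have h := conj_mem_iff t Q hQt
  set σ := conjOn t Q h with hσ
  have hQq : IsPGroup q Q := hS.to_le hQS
  have hτapp : ∀ x : Q, (((σ ^ (p ^ (n - 1))) x : Q) : N) = b * x * b⁻¹ := fun x => conjOn_pow_apply t Q h _ x
  have hmin : ∀ H : Subgroup Q, (∀ x ∈ H, σ x ∈ H) → H ≠ ⊤ → ∀ x ∈ H, (σ ^ (p ^ (n - 1))) x = x := by
    intro H hH hHtop x hx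
    by_contra hne
    have hlt : H.map Q.subtype < Q := by
      refine lt_of_le_of_ne (Subgroup.map_subtype_le H) ?_
      intro heq
      apply hHtop
      rw [eq_top_iff]
      intro y _
      have : (y : N) ∈ H.map Q.subtype := by rw [heq]; exact y.2
      obtain ⟨y', hy', hyy'⟩ := this
      have : y' = y := Subtype.ext hyy'
      rwa [← this]
    apply hQmin (H.map Q.subtype) ?_ hlt
    refine ⟨(Subgroup.map_subtype_le H).trans hQS, ?_, ?_⟩
    · rintro _ ⟨y, hy, rfl⟩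
      exact ⟨σ y, hH y hy, rfl⟩
    · refine ⟨x, ⟨x, hx, rfl⟩, ?_⟩
      intro hcomm
      apply hne
      apply Subtype.ext
      rw [hτapp, hcomm]; group
  have hσpow : σ ^ (p ^ n) = 1 := by
    ext x
    rw [conjOn_pow_apply, ht]; simp
  have hτne : σ ^ (p ^ (n - 1)) ≠ 1 := by
    intro h1
    apply hx0b
    have := hτapp ⟨x0, hx0⟩
    rw [h1] at this
    simp only [MulAut.one_apply] at this
    calc b * x0 = (b * x0 * b⁻¹) * b := by group
      _ = x0 * b := by rw [← this]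
  have C := cfg_of_minimal σ p q n hp hq hpq hQq hn hσpow hτne hmin
  have hcard : (Nat.card Q : K) ≠ 0 := by
    haveI : Fact q.Prime := ⟨hq⟩
    obtain ⟨k, hk⟩ := (IsPGroup.iff_card).mp hQq
    rw [hk]; push_cast
    exact pow_ne_zero _ hqK
  rcases claim C hp hcard hpK (finrank K W) W 0 (ρ.comp Q.subtype) (ρ t) rfl (Nat.zero_le _)
    (by rw [Nat.sub_zero, ← map_pow, ht, map_one])
    (by
      intro x
      rw [pow_zero, pow_one]
      simp only [MonoidHom.comp_apply, Subgroup.coe_subtype]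
      rw [← map_mul, ← map_mul, conjOn_apply]
      congr 1; group)
    ⟨⟨x0, hx0⟩, by
      intro h1
      have := hρ _ h1
      simp only [Subgroup.coe_subtype] at this
      apply hx0b
      rw [this]; simp⟩ with h1 | h1
  · exact Or.inl h1
  · exact Or.inr ⟨Q, h, hQS, C, fun H h1 h2 x hx => hmin H h1 h2 x hx, h1⟩

/-- Corollary A: `p` odd, `t` acts fixed-point-freely on `S`. -/
theorem main_A [Finite N] [IsAlgClosed K] {W : Type v} [AddCommGroup W] [Module K W]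
    [FiniteDimensional K W] (ρ : N →* Module.End K W) (hρ : ∀ x, ρ x = 1 → x = 1) (t : N) (p q n : ℕ)
    (hp : p.Prime) (hp2 : p ≠ 2) (hq : q.Prime) (hpq : p ≠ q) (hn : 0 < n) (ht : t ^ (p ^ n) = 1)
    (S : Subgroup N) (hS : IsPGroup q S) (hSt : ∀ x ∈ S, t * x * t⁻¹ ∈ S) (hqK : (q : K) ≠ 0)
    (hpK : (p : K) ≠ 0) (hfpf : ∀ x ∈ S, t * x = x * t → x = 1)
    (hb : ∃ x ∈ S, t ^ (p ^ (n - 1)) * x ≠ x * t ^ (p ^ (n - 1))) :
    ∃ y : W, y ≠ 0 ∧ ρ t y = y := by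
  rcases main_dich ρ hρ t p q n hp hq hpq hn ht S hS hSt hqK hpK hb with h1 | ⟨Q, h, hQS, C, hmin, hexc⟩
  · exact h1
  · exfalso
    refine exc_elim C hp hp2 hq (hS.to_le hQS) ?_ hmin hexc
    intro x hx
    have h1 := congrArg Subtype.val hx
    rw [conjOn_apply] at h1
    have h2 : t * (x : N) = x * t := by
      calc t * (x : N) = (t * x * t⁻¹) * t := by group
        _ = x * t := by rw [h1]
    exact Subtype.ext (hfpf x (hQS x.2) h2)

/-- Corollary B: `t` of prime order. -/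
theorem main_B [Finite N] [IsAlgClosed K] {W : Type v} [AddCommGroup W] [Module K W]
    [FiniteDimensional K W] (ρ : N →* Module.End K W) (hρ : ∀ x, ρ x = 1 → x = 1) (t : N) (p q : ℕ)
    (hp : p.Prime) (hq : q.Prime) (hpq : p ≠ q) (ht : t ^ p = 1)
    (S : Subgroup N) (hS : IsPGroup q S) (hSt : ∀ x ∈ S, t * x * t⁻¹ ∈ S) (hqK : (q : K) ≠ 0)
    (hpK : (p : K) ≠ 0) (hb : ∃ x ∈ S, t * x ≠ x * t) :
    (∃ y : W, y ≠ 0 ∧ ρ t y = y) ∨
      (q = 2 ∧ (∃ m, p = 2 ^ m + 1) ∧ ∃ x ∈ S, ∃ y ∈ S, x * y ≠ y * x) := by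
  rcases main_dich ρ hρ t p q 1 hp hq hpq one_pos (by simpa using ht) S hS hSt hqK hpK
    (by simpa using hb) with h1 | ⟨Q, h, hQS, C, hmin, hexc⟩
  · exact Or.inl h1
  · right
    obtain ⟨j, hj, μ, Y, hμmul, hμ1, hμinv, hY, hYtop, hidx⟩ := hexc.refine hp (Or.inr rfl)
    have hj0 : j = 0 := by omega
    subst hj0
    rw [Nat.sub_zero, pow_one] at hidx
    haveI : Fact q.Prime := ⟨hq⟩
    obtain ⟨k, hk⟩ := (IsPGroup.iff_card).mp (hS.to_le hQS)
    have hdvd : (p - 1) ^ 2 ∣ q ^ k := by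
      rw [← hidx, ← hk]; exact Subgroup.index_dvd_card Y
    have hdvd1 : (p - 1) ∣ q ^ k := (Dvd.intro_left _ (by ring : (p - 1) * (p - 1) = (p - 1) ^ 2)).trans hdvd
    obtain ⟨c, -, hc⟩ := (Nat.dvd_prime_pow hq).mp hdvd1
    have hp1 : p - 1 ≠ 1 := by
      intro h1
      rw [h1, one_pow] at hidx
      exact hYtop (Subgroup.index_eq_one.mp hidx)
    have hp2 : 2 ≤ p := hp.two_le
    have hp3 : p ≠ 2 := by omega
    have hodd : Odd p := hp.odd_of_ne_two hp3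
    have heven : 2 ∣ q ^ c := by
      rw [← hc]
      obtain ⟨a, ha⟩ := hodd
      exact ⟨a, by omega⟩
    have hq2 : q = 2 := ((Nat.prime_dvd_prime_iff_eq Nat.prime_two hq).mp
      (Nat.prime_two.dvd_of_dvd_pow heven)).symm
    refine ⟨hq2, ⟨c, by rw [← hq2, ← hc]; omega⟩, ?_⟩
    by_contra hcon
    push Not at hcon
    apply hYtop
    rw [eq_top_iff]
    intro x _
    rw [hY]
    intro y
    have : x * y * x⁻¹ * y⁻¹ = 1 := by
      have e : x * y = y * x := Subtype.ext (hcon x (hQS x.2) y (hQS y.2))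
      rw [e]; group
    rw [this, hμ1]

end Cfsg.Agent.Lib.Helper79.HW
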