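import Mathlib
import Cfsg.Agent.Lib.Helper79.HMain
import Cfsg.Agent.Lib.Helper79.GClaim

/-! # The second level: many missing eigenvalues -/

set_option autoImplicit false

namespace Cfsg.Agent.Lib.Helper79.HW

open Module Function

universe u v w

variable {K : Type u} [Field K] {N : Type w} [Group N]

theorem exists_min_cfg [Finite N] (t : N) (p q n : ℕ)
    (hp : p.Prime) (hq : q.Prime) (hpq : p ≠ q) (hn : 0 < n) (ht : t ^ (p ^ n) = 1)
    (S : Subgroup N) (hS : IsPGroup q S) (hSt : ∀ x ∈ S, t * x * t⁻¹ ∈ S)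
    (hb : ∃ x ∈ S, t ^ (p ^ (n - 1)) * x ≠ x * t ^ (p ^ (n - 1))) :
    ∃ (Q : Subgroup N) (h : ∀ x, x ∈ Q ↔ t * x * t⁻¹ ∈ Q), Q ≤ S ∧
      Cfg (conjOn t Q h) p n (fixSub ((conjOn t Q h) ^ (p ^ (n - 1)))) ∧
      ∃ x ∈ Q, t ^ (p ^ (n - 1)) * x ≠ x * t ^ (p ^ (n - 1)) := by
  set b := t ^ (p ^ (n - 1)) with hbdef
  let 𝒮 : Set (Subgroup N) := {Q | Q ≤ S ∧ (∀ x ∈ Q, t * x * t⁻¹ ∈ Q) ∧ ∃ x ∈ Q, b * x ≠ x * b}
  have hne : 𝒮.Nonempty := ⟨S, le_refl _, hSt, hb⟩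
  obtain ⟨Q, ⟨hQS, hQt, x0, hx0, hx0b⟩, hQmin⟩ := WellFounded.has_min (wellFounded_lt (α := Subgroup N)) 𝒮 hne
  have h := conj_mem_iff t Q hQt
  set σ := conjOn t Q h with hσ
  have hQq : IsPGroup q Q := hS.to_le hQS
  have hτapp : ∀ x : Q, (((σ ^ (p ^ (n - 1))) x : Q) : N) = b * x * b⁻¹ := fun x => conjOn_pow_apply t Q h _ x
  have hmin : ∀ H : Subgroup Q, (∀ x ∈ H, σ x ∈ H) → H ≠ ⊤ → ∀ x ∈ H, (σ ^ (p ^ (n - 1))) x = x := by
    intro H hH hHtop x hx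
    by_contra hne
    have hlt : H.map Q.subtype < Q := by
      refine lt_of_le_of_ne (Subgroup.map_subtype_le H) ?_
      intro heq
      apply hHtop
      rw [eq_top_iff]
      intro y _
      have : (y : N) ∈ H.map Q.subtype := by rw [heq]; exact y.2
      obtain ⟨y', hy', hyy'⟩ := this
      have : y' = y := Subtype.ext hyy'
      rwa [← this]
    apply hQmin (H.map Q.subtype) ?_ hlt
    refine ⟨(Subgroup.map_subtype_le H).trans hQS, ?_, ?_⟩
    · rintro _ ⟨y, hy, rfl⟩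
      exact ⟨σ y, hH y hy, rfl⟩
    · refine ⟨x, ⟨x, hx, rfl⟩, ?_⟩
      intro hcomm
      apply hne
      apply Subtype.ext
      rw [hτapp, hcomm]; group
  have hσpow : σ ^ (p ^ n) = 1 := by
    ext x
    rw [conjOn_pow_apply, ht]; simp
  have hτne : σ ^ (p ^ (n - 1)) ≠ 1 := by
    intro h1
    apply hx0b
    have := hτapp ⟨x0, hx0⟩
    rw [h1] at this
    simp only [MulAut.one_apply] at this
    calc b * x0 = (b * x0 * b⁻¹) * b := by group
      _ = x0 * b := by rw [← this]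
  have C := cfg_of_minimal σ p q n hp hq hpq hQq hn hσpow hτne hmin
  exact ⟨Q, h, hQS, C, x0, hx0, hx0b⟩

theorem mem_of_pow_coprime {G : Type*} [Group G] (Y : Subgroup G) (x : G) (a b : ℕ) (hab : a.Coprime b)
    (ha : x ^ a ∈ Y) (hb : x ^ b ∈ Y) : x ∈ Y := by
  have h1 := Nat.gcd_eq_gcd_ab a b
  rw [hab] at h1
  have h2 : x = (x ^ a) ^ (Nat.gcdA a b) * (x ^ b) ^ (Nat.gcdB a b) := by
    rw [← zpow_natCast x a, ← zpow_natCast x b, ← zpow_mul, ← zpow_mul, ← zpow_add, ← h1]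
    simp
  rw [h2]
  exact Y.mul_mem (Y.zpow_mem ha _) (Y.zpow_mem hb _)

theorem level2 [Finite N] [IsAlgClosed K] {W : Type v} [AddCommGroup W] [Module K W]
    [FiniteDimensional K W] (ρ : N →* Module.End K W) (hρ : ∀ x, ρ x = 1 → x = 1) (t : N) (r s : ℕ)
    (hr : r.Prime) (hr2 : r ≠ 2) (hs : 2 ≤ s) (ht : t ^ (2 ^ s) = 1)
    (S : Subgroup N) (hS : IsPGroup r S) (hSt : ∀ x ∈ S, t * x * t⁻¹ ∈ S) (hrK : (r : K) ≠ 0)
    (h2K : (2 : K) ≠ 0) (hb : ∃ x ∈ S, t ^ (2 ^ (s - 1)) * x ≠ x * t ^ (2 ^ (s - 1)))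
    (hmiss : ∀ l : K, l ^ (2 ^ (s - 1)) = 1 → l ≠ 1 → ∀ w : W, ρ t w = l • w → w = 0) :
    s = 2 ∧ r = 3 := by
  obtain ⟨Q, h, hQS, C, x0, hx0, hx0b⟩ := exists_min_cfg t 2 r s Nat.prime_two hr (fun h => hr2 h.symm)
    (by omega) ht S hS hSt hb
  set σ := conjOn t Q h with hσ
  set Z := fixSub (σ ^ (2 ^ (s - 1))) with hZ
  have hQr : IsPGroup r Q := hS.to_le hQS
  haveI : Fact r.Prime := ⟨hr⟩
  obtain ⟨k, hk⟩ := (IsPGroup.iff_card).mp hQr
  have hcard : (Nat.card Q : K) ≠ 0 := by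
    rw [hk]; push_cast
    exact pow_ne_zero _ hrK
  have hodd : Odd (Nat.card Q) := by
    rw [hk]
    exact (hr.odd_of_ne_two hr2).pow
  have hneg1 : (-1 : K) ≠ 1 := by
    intro h1
    apply h2K
    have : (1 : K) + 1 = 0 := by
      nth_rewrite 1 [← h1]; ring
    rw [← this]; norm_num
  have hnegpow : ∀ e : ℕ, 0 < e → (-1 : K) ^ (2 ^ e) = 1 := by
    intro e he
    obtain ⟨e', rfl⟩ : ∃ e', e = e' + 1 := ⟨e - 1, by omega⟩
    rw [pow_succ', pow_mul]; simp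
  have hint : ∀ x : Q, ρ t * (ρ.comp Q.subtype) x = (ρ.comp Q.subtype) ((σ ^ (2 ^ 0)) x) * ρ t := by
    intro x
    rw [pow_zero, pow_one]
    simp only [MonoidHom.comp_apply, Subgroup.coe_subtype]
    rw [← map_mul, ← map_mul, hσ, conjOn_apply]
    congr 1; group
  have htP : (ρ t) ^ (2 ^ (s - 0)) = 1 := by rw [Nat.sub_zero, ← map_pow, ht, map_one]
  -- step 1: the exceptional outcome
  have hexc : Exc K σ 2 s Z := by
    rcases claim C Nat.prime_two hcard (by exact_mod_cast h2K) (finrank K W) W 0 (ρ.comp Q.subtype)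
      ((-1 : K) • ρ t) rfl (Nat.zero_le _)
      (by rw [smul_pow, htP, Nat.sub_zero, hnegpow s (by omega), one_smul])
      (by
        intro x
        rw [smul_mul_assoc, hint x, mul_smul_comm])
      ⟨⟨x0, hx0⟩, by
        intro h1
        have := hρ _ h1
        simp only [Subgroup.coe_subtype] at this
        apply hx0b
        rw [this]; simp⟩ with ⟨y, hy0, hy⟩ | h1
    · exfalso
      apply hy0
      apply hmiss (-1) (hnegpow (s - 1) (by omega)) hneg1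
      rw [LinearMap.smul_apply] at hy
      calc ρ t y = (-1 : K) • ((-1 : K) • ρ t y) := by rw [smul_smul]; simp
        _ = (-1 : K) • y := by rw [hy]
    · exact h1
  obtain ⟨x1, y1, hz1⟩ : ∃ x1 y1 : Q, x1 * y1 * x1⁻¹ * y1⁻¹ ≠ 1 := by
    obtain ⟨j, hj, μ, Y, -, hμ1, -, hY, hYtop, -⟩ := hexc
    by_contra hcon
    push Not at hcon
    apply hYtop
    rw [eq_top_iff]
    intro x _
    rw [hY]
    intro y
    rw [hcon x y, hμ1]
  set z₀ := x1 * y1 * x1⁻¹ * y1⁻¹ with hz₀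
  have C2 : Cfg2 σ s Z := ⟨C.pow, C.central, C.comm, C.Zinv⟩
  obtain ⟨ω, hω⟩ := IsAlgClosed.exists_pow_nat_eq (-1 : K) (pow_pos (by norm_num : 0 < 2) (s - 2))
  have hω2 : ω ^ (2 ^ (s - 1)) = 1 := by
    have : 2 ^ (s - 1) = 2 ^ (s - 2) * 2 := by rw [← pow_succ]; congr 1; omega
    rw [this, pow_mul, hω]; simp
  have hω1 : ω ≠ 1 := by
    rintro rfl
    rw [one_pow] at hω
    exact hneg1 hω.symm
  have hsq : ∀ l : K, l ^ (2 ^ (s - 1)) = 1 → l ^ (2 ^ (s - 0)) = 1 := by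
    intro l hl
    have : 2 ^ (s - 0) = 2 ^ (s - 1) * 2 := by rw [← pow_succ]; congr 1; omega
    rw [this, pow_mul, hl, one_pow]
  obtain ⟨j', -, hj', μ, Y, hμmul, hμ1, hμinv, hY, hμz, himp⟩ :=
    claimG C2 hcard hodd h2K z₀ (C.comm x1 y1) (finrank K W) W 0 (ρ.comp Q.subtype) (ρ t) (-1) ω rfl
      (Nat.zero_le _) htP hint
      (by
        intro h1
        have := hρ _ h1
        simp only [Subgroup.coe_subtype] at this
        exact hz1 (Subtype.ext this))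
      (hsq _ (hnegpow (s - 1) (by omega))) (hsq _ hω2)
      (hmiss (-1) (hnegpow (s - 1) (by omega)) hneg1) (hmiss ω hω2 hω1)
  have hYtop : Y ≠ ⊤ := by
    intro htop
    apply hμz
    have : x1 ∈ Y := by rw [htop]; trivial
    exact (hY x1).mp this y1
  obtain ⟨e1, -, x, hxY, hxpow⟩ := himp (by
    by_contra hcon
    push Not at hcon
    exact hYtop (C.gen Y hcon))
  rw [Nat.sub_zero] at e1
  have hj2 : j' + 2 ≤ s := by
    by_contra hlt
    have : s - j' = 1 := by omega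
    rw [this] at hxpow
    simp at hxpow
    exact hxY hxpow
  have e2 : (-1 : K) ^ (2 ^ (s - 2)) = -1 := by
    have e3 : 2 ^ (s - 2) = 2 ^ j' * 2 ^ (s - 2 - j') := by rw [← pow_add]; congr 1; omega
    calc (-1 : K) ^ (2 ^ (s - 2)) = ((-1 : K) ^ (2 ^ j')) ^ (2 ^ (s - 2 - j')) := by rw [e3, pow_mul]
      _ = (ω ^ (2 ^ j')) ^ (2 ^ (s - 2 - j')) := by rw [e1]
      _ = -1 := by rw [← pow_mul, ← e3, hω]
  have hs2 : s = 2 := by
    by_contra hne
    rw [hnegpow (s - 2) (by omega)] at e2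
    exact hneg1 e2.symm
  refine ⟨hs2, ?_⟩
  by_contra hr3
  have hj0 : j' = 0 := by omega
  rw [hj0, hs2] at hxpow
  norm_num at hxpow
  obtain ⟨k', hk'⟩ := hQr x
  apply hxY
  apply mem_of_pow_coprime Y x 9 (r ^ k') ?_ hxpow (by rw [hk']; exact Y.one_mem)
  have h3 : Nat.Coprime 3 r := (Nat.coprime_primes Nat.prime_three hr).mpr (fun h => hr3 h.symm)
  have : (9 : ℕ) = 3 ^ 2 := by norm_num
  rw [this]
  exact Nat.Coprime.pow 2 k' h3

end Cfsg.Agent.Lib.Helper79.HW
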