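import Mathlib

/-! # From an action on an elementary abelian group to a linear representation over the algebraic closure -/

set_option autoImplicit false

namespace Cfsg.Agent.Lib.Helper79.HW

open Module

universe u v w

variable {K : Type u} [Field K] {V : Type v} [Group V] {N : Type w} [Group N]

/-- the dual space `Hom(V, K)` as a subspace of the functions. -/
def HomSp (K : Type u) [Field K] (V : Type v) [Group V] : Submodule K (V → K) where
  carrier := {f | ∀ a b, f (a * b) = f a + f b}
  add_mem' := by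
    intro f g hf hg a b
    simp only [Pi.add_apply, hf a b, hg a b]; ring
  zero_mem' := by intro a b; simp
  smul_mem' := by
    intro r f hf a b
    simp only [Pi.smul_apply, hf a b, smul_add]

theorem HomSp.map_mul (f : HomSp K V) (a b : V) : (f : V → K) (a * b) = (f : V → K) a + (f : V → K) b :=
  f.2 a b

theorem HomSp.map_one (f : HomSp K V) : (f : V → K) 1 = 0 := by
  have := f.2 1 1
  rw [one_mul] at this
  exact left_eq_add.mp this

theorem HomSp.map_inv (f : HomSp K V) (a : V) : (f : V → K) a⁻¹ = - (f : V → K) a := by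
  have := f.2 a⁻¹ a
  rw [inv_mul_cancel, HomSp.map_one] at this
  exact eq_neg_of_add_eq_zero_left this.symm

/-- precomposition with an automorphism. -/
def preComp (K : Type u) [Field K] (e : MulAut V) : Module.End K (HomSp K V) where
  toFun f := ⟨fun x => (f : V → K) (e x), by
    intro a b
    simp only [_root_.map_mul]
    exact f.2 _ _⟩
  map_add' f g := by ext; rfl
  map_smul' r f := by ext; rfl

@[simp] theorem preComp_apply (e : MulAut V) (f : HomSp K V) (x : V) :
    (preComp K e f : V → K) x = (f : V → K) (e x) := rfl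

/-- the representation on `Hom(V,K)`. -/
def homRep (K : Type u) [Field K] (φ : N →* MulAut V) : N →* Module.End K (HomSp K V) where
  toFun g := preComp K (φ g⁻¹)
  map_one' := by
    ext f x
    simp
  map_mul' a b := by
    ext f x
    simp [mul_inv_rev, _root_.map_mul, MulAut.mul_apply]

theorem homRep_apply (φ : N →* MulAut V) (g : N) (f : HomSp K V) (x : V) :
    (homRep K φ g f : V → K) x = (f : V → K) (φ g⁻¹ x) := rfl

theorem exists_fixed_of_fixed [Finite V] (hcomm : ∀ a b : V, a * b = b * a) (φ : N →* MulAut V) (g : N)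
    (f : HomSp K V) (hf : f ≠ 0) (hfix : homRep K φ g f = f) : ∃ x : V, x ≠ 1 ∧ φ g x = x := by
  by_contra hcon
  push Not at hcon
  apply hf
  set e := φ g⁻¹ with he
  let δ : V → V := fun x => x⁻¹ * e x
  have hinj : Function.Injective δ := by
    intro x y hxy
    simp only [δ] at hxy
    have h1 : e (y * x⁻¹) = y * x⁻¹ := by
      rw [_root_.map_mul, _root_.map_inv]
      have h2 : e x = x * (y⁻¹ * e y) := by rw [← hxy]; group
      have h3 : (x * (y⁻¹ * e y))⁻¹ = (e y)⁻¹ * (y * x⁻¹) := by group
      rw [h2, h3, ← mul_assoc, mul_inv_cancel, one_mul]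
    have h4 : φ g (y * x⁻¹) = y * x⁻¹ := by
      conv_lhs => rw [← h1]
      rw [he, ← MulAut.mul_apply, ← _root_.map_mul, mul_inv_cancel, _root_.map_one, MulAut.one_apply]
    by_contra hne
    have h5 : y * x⁻¹ ≠ 1 := by
      intro h
      exact hne (mul_inv_eq_one.mp h).symm
    exact hcon _ h5 h4
  have hsurj : Function.Surjective δ := Finite.surjective_of_injective hinj
  ext x
  obtain ⟨y, rfl⟩ := hsurj x
  have h1 := congrFun (congrArg Subtype.val hfix) y
  rw [homRep_apply] at h1
  simp only [δ]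
  rw [HomSp.map_mul, HomSp.map_inv, h1]
  simp

theorem exists_hom_ne_zero_aux {V : Type v} [CommGroup V] (ℓ : ℕ) [Fact ℓ.Prime] [CharP K ℓ]
    [Module (ZMod ℓ) (Additive V)] (x : V) (hx : x ≠ 1) : ∃ f : HomSp K V, (f : V → K) x ≠ 0 := by
  letI : Algebra (ZMod ℓ) K := ZMod.algebra K ℓ
  have h1 : ¬ ∀ ψ : Module.Dual (ZMod ℓ) (Additive V), ψ (Additive.ofMul x) = 0 := by
    intro h
    have h2 := (Module.forall_dual_apply_eq_zero_iff (ZMod ℓ) (Additive.ofMul x)).mp h
    exact hx (Additive.ofMul.injective h2)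
  push Not at h1
  obtain ⟨ψ, hψ⟩ := h1
  refine ⟨⟨fun y => algebraMap (ZMod ℓ) K (ψ (Additive.ofMul y)), ?_⟩, ?_⟩
  · intro a b
    show algebraMap (ZMod ℓ) K (ψ (Additive.ofMul (a * b))) = _
    rw [ofMul_mul, _root_.map_add, _root_.map_add]
  · intro h
    apply hψ
    exact (map_eq_zero (algebraMap (ZMod ℓ) K)).mp h

theorem exists_hom_ne_zero (ℓ : ℕ) [Fact ℓ.Prime] [CharP K ℓ] (hcomm : ∀ a b : V, a * b = b * a)
    (hexp : ∀ a : V, a ^ ℓ = 1) (x : V) (hx : x ≠ 1) : ∃ f : HomSp K V, (f : V → K) x ≠ 0 := by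
  let i1 : CommGroup V := { ‹Group V› with mul_comm := hcomm }
  let i2 : Module (ZMod ℓ) (Additive V) := AddCommGroup.zmodModule (n := ℓ) (by
    intro a
    induction a using Additive.rec with
    | ofMul a => rw [← ofMul_pow, hexp a]; rfl)
  exact @exists_hom_ne_zero_aux K _ V i1 ℓ _ _ i2 x hx

theorem homRep_eq_one_iff (ℓ : ℕ) [Fact ℓ.Prime] [CharP K ℓ] (hcomm : ∀ a b : V, a * b = b * a)
    (hexp : ∀ a : V, a ^ ℓ = 1) (φ : N →* MulAut V) (g : N) : homRep K φ g = 1 ↔ φ g = 1 := by
  constructor
  · intro h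
    have h1 : φ g⁻¹ = 1 := by
      ext x
      by_contra hne
      have h2 : φ g⁻¹ x * x⁻¹ ≠ 1 := by
        intro h3
        exact hne (mul_inv_eq_one.mp h3)
      obtain ⟨f, hf⟩ := exists_hom_ne_zero (K := K) ℓ hcomm hexp _ h2
      apply hf
      have h4 := congrFun (congrArg Subtype.val (LinearMap.congr_fun h f)) x
      rw [homRep_apply, Module.End.one_apply] at h4
      rw [HomSp.map_mul, HomSp.map_inv, h4, add_neg_cancel]
    rw [_root_.map_inv, inv_eq_one] at h1
    exact h1
  · intro h
    ext f x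
    rw [homRep_apply, _root_.map_inv, h]; simp

end Cfsg.Agent.Lib.Helper79.HW
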