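import Mathlib
import Cfsg.Agent.Lib.Helper79.HMain
import Cfsg.Agent.Lib.Helper79.HBridge

/-! # The dichotomy for automorphisms of an elementary abelian group -/

set_option autoImplicit false

namespace Cfsg.Agent.Lib.Helper79.HW

open Module Function

universe v

variable {V : Type v} [Group V]

theorem cast_prime_ne_zero (K : Type*) [Field K] (ℓ q : ℕ) [CharP K ℓ] (hℓ : ℓ.Prime) (hq : q.Prime)
    (h : q ≠ ℓ) : (q : K) ≠ 0 := by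
  intro h0
  rw [CharP.cast_eq_zero_iff K ℓ q] at h0
  exact h ((Nat.prime_dvd_prime_iff_eq hℓ hq).mp h0).symm

theorem autV_A [Finite V] (ℓ p q n : ℕ) (hℓ : ℓ.Prime) (hp : p.Prime) (hp2 : p ≠ 2) (hq : q.Prime)
    (hpq : p ≠ q) (hpℓ : p ≠ ℓ) (hqℓ : q ≠ ℓ) (hcomm : ∀ a b : V, a * b = b * a)
    (hexp : ∀ a : V, a ^ ℓ = 1) (t : MulAut V) (hn : 0 < n) (ht : t ^ (p ^ n) = 1)
    (S : Subgroup (MulAut V)) (hS : IsPGroup q S) (hSt : ∀ x ∈ S, t * x * t⁻¹ ∈ S)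
    (hfpf : ∀ x ∈ S, t * x = x * t → x = 1) (hV : ∀ v, t v = v → v = 1) :
    ∀ x ∈ S, t ^ (p ^ (n - 1)) * x = x * t ^ (p ^ (n - 1)) := by
  by_contra hcon
  push Not at hcon
  haveI : Fact ℓ.Prime := ⟨hℓ⟩
  obtain ⟨y, hy, hty⟩ := main_A (K := AlgebraicClosure (ZMod ℓ))
    (homRep (AlgebraicClosure (ZMod ℓ)) (MonoidHom.id (MulAut V)))
    (fun x hx => (homRep_eq_one_iff ℓ hcomm hexp _ x).mp hx) t p q n hp hp2 hq hpq hn ht S hS hSt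
    (cast_prime_ne_zero _ ℓ q hℓ hq hqℓ) (cast_prime_ne_zero _ ℓ p hℓ hp hpℓ) hfpf hcon
  obtain ⟨x, hx, htx⟩ := exists_fixed_of_fixed hcomm _ t y hy hty
  exact hx (hV x htx)

theorem autV_B [Finite V] (ℓ p q : ℕ) (hℓ : ℓ.Prime) (hp : p.Prime) (hq : q.Prime)
    (hpq : p ≠ q) (hpℓ : p ≠ ℓ) (hqℓ : q ≠ ℓ) (hcomm : ∀ a b : V, a * b = b * a)
    (hexp : ∀ a : V, a ^ ℓ = 1) (t : MulAut V) (ht : t ^ p = 1)
    (S : Subgroup (MulAut V)) (hS : IsPGroup q S) (hSt : ∀ x ∈ S, t * x * t⁻¹ ∈ S)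
    (hb : ∃ x ∈ S, t * x ≠ x * t) :
    (∃ v, v ≠ 1 ∧ t v = v) ∨
      (q = 2 ∧ (∃ m, p = 2 ^ m + 1) ∧ ∃ x ∈ S, ∃ y ∈ S, x * y ≠ y * x) := by
  haveI : Fact ℓ.Prime := ⟨hℓ⟩
  rcases main_B (K := AlgebraicClosure (ZMod ℓ))
    (homRep (AlgebraicClosure (ZMod ℓ)) (MonoidHom.id (MulAut V)))
    (fun x hx => (homRep_eq_one_iff ℓ hcomm hexp _ x).mp hx) t p q hp hq hpq ht S hS hSt
    (cast_prime_ne_zero _ ℓ q hℓ hq hqℓ) (cast_prime_ne_zero _ ℓ p hℓ hp hpℓ) hb with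
    ⟨y, hy, hty⟩ | h
  · exact Or.inl (exists_fixed_of_fixed hcomm _ t y hy hty)
  · exact Or.inr h

end Cfsg.Agent.Lib.Helper79.HW
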