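import Mathlib
import Cfsg.Agent.Lib.Helper79.HAutV
import Cfsg.Agent.Lib.Helper79.HFpf
import Cfsg.Agent.Lib.Helper1.Cores
import Cfsg.Agent.Lib.Helper28.Cores

/-! # Shult–Gross: the step inside `Aut V` -/

set_option autoImplicit false

namespace Cfsg.Agent.Lib.Helper79.HW

open Cfsg

universe u

theorem char_mem_iff {Γ : Type u} [Group Γ] {P : Subgroup Γ} (hP : P.Characteristic) (φ : MulAut Γ) (y : Γ) :
    φ y ∈ P ↔ y ∈ P := by
  have := hP.fixed φ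
  conv_rhs => rw [← this]
  rfl

theorem autV_core_l {V : Type u} [Group V] [Finite V] [Nontrivial V] (ℓ : ℕ) (hℓ : ℓ.Prime)
    (hexp : ∀ a : V, a ^ ℓ = 1) (t : MulAut V)
    (Γ : Subgroup (MulAut V)) (hΓ : ∀ x, x ∈ Γ ↔ t * x * t⁻¹ ∈ Γ)
    (hirr : ∀ M : Subgroup V, (∀ x ∈ Γ, ∀ v ∈ M, x v ∈ M) → (∀ v ∈ M, t v ∈ M) → M ≠ ⊥ → M = ⊤) :
    pCore ℓ Γ = ⊥ := by
  haveI : Fact ℓ.Prime := ⟨hℓ⟩
  set P := pCore ℓ Γ with hP
  have hPp : IsPGroup ℓ P := Cfsg.Agent.Lib.Helper1.pCore_isPGroup ℓ Γ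
  have hPn : P.Normal := Cfsg.Agent.Lib.Helper1.pCore_normal ℓ Γ
  have hPc : P.Characteristic := Cfsg.Agent.Lib.Helper28.pCore_characteristic ℓ
  have hVp : IsPGroup ℓ V := fun a => ⟨1, by rw [pow_one]; exact hexp a⟩
  have hdvd : ℓ ∣ Nat.card V := by
    obtain ⟨k, hk⟩ := (IsPGroup.iff_card).mp hVp
    have h1 : 1 < Nat.card V := Finite.one_lt_card
    rcases Nat.eq_zero_or_pos k with h0 | h0
    · rw [h0, pow_zero] at hk; omega
    · rw [hk]; exact dvd_pow_self ℓ h0.ne'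
  letI : MulAction P V := MulAction.compHom V (Γ.subtype.comp P.subtype)
  have hsmul : ∀ (y : P) (v : V), y • v = ((y : Γ) : MulAut V) v := fun _ _ => rfl
  obtain ⟨v0, hv0, hv01⟩ := hPp.exists_fixed_point_of_prime_dvd_card_of_fixed_point V hdvd
    (a := (1 : V)) (by intro y; rw [hsmul]; exact map_one _)
  let M : Subgroup V :=
    { carrier := {v | ∀ y ∈ P, ((y : Γ) : MulAut V) v = v}
      mul_mem' := by
        intro a b ha hb y hy
        rw [map_mul, ha y hy, hb y hy]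
      one_mem' := by intro y _; exact map_one _
      inv_mem' := by
        intro a ha y hy
        rw [map_inv, ha y hy] }
  have hM : M = ⊤ := by
    apply hirr
    · intro x hx v hv y hy
      have h1 := hPn.conj_mem y hy (⟨x, hx⟩ : Γ)⁻¹
      have h2 := hv _ h1
      have h3 : (((⟨x, hx⟩ : Γ)⁻¹ * y * (⟨x, hx⟩ : Γ)⁻¹⁻¹ : Γ) : MulAut V) = x⁻¹ * (y : MulAut V) * x := by
        simp
      rw [h3, MulAut.mul_apply, MulAut.mul_apply] at h2
      have h4 := congrArg x h2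
      simpa using h4
    · intro v hv y hy
      have h1 : (conjOn t Γ hΓ)⁻¹ y ∈ P := (char_mem_iff hPc _ y).mpr hy
      have h2 := hv _ h1
      have h3 : (((conjOn t Γ hΓ)⁻¹ y : Γ) : MulAut V) = t⁻¹ * (y : MulAut V) * t := rfl
      rw [h3, MulAut.mul_apply, MulAut.mul_apply] at h2
      have h4 := congrArg t h2
      simpa using h4
    · intro hbot
      have h1 : v0 ∈ M := by
        intro y hy
        exact hv0 ⟨y, hy⟩
      rw [hbot, Subgroup.mem_bot] at h1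
      exact hv01 h1.symm
  rw [eq_bot_iff]
  intro y hy
  rw [Subgroup.mem_bot]
  apply Subtype.ext
  ext v
  have : v ∈ M := by rw [hM]; exact Subgroup.mem_top v
  exact this y hy

theorem autV_centralizes {V : Type u} [Group V] [Finite V] [Nontrivial V] (ℓ p n : ℕ) (hℓ : ℓ.Prime)
    (hp : p.Prime) (hp2 : p ≠ 2) (hpℓ : p ≠ ℓ)
    (hcomm : ∀ a b : V, a * b = b * a) (hexp : ∀ a : V, a ^ ℓ = 1) (t : MulAut V) (hn : 0 < n)
    (ht : t ^ (p ^ n) = 1) (hV : ∀ v, t v = v → v = 1)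
    (Γ : Subgroup (MulAut V)) (hΓ : ∀ x, x ∈ Γ ↔ t * x * t⁻¹ ∈ Γ)
    (hfpf : ∀ x ∈ Γ, t * x = x * t → x = 1)
    (hirr : ∀ M : Subgroup V, (∀ x ∈ Γ, ∀ v ∈ M, x v ∈ M) → (∀ v ∈ M, t v ∈ M) → M ≠ ⊥ → M = ⊤)
    (hIH : ∀ x : Γ, x⁻¹ * ((conjOn t Γ hΓ) ^ (p ^ (n - 1))) x ∈ fittingSubgroup Γ) :
    ∀ x ∈ Γ, t ^ (p ^ (n - 1)) * x = x * t ^ (p ^ (n - 1)) := by
  set σ := conjOn t Γ hΓ with hσ
  set b := t ^ (p ^ (n - 1)) with hb
  have hσfpf : ∀ x : Γ, σ x = x → x = 1 := by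
    intro x hx
    have h1 := congrArg Subtype.val hx
    rw [conjOn_apply] at h1
    have h2 : t * (x : MulAut V) = x * t := by
      calc t * (x : MulAut V) = (t * x * t⁻¹) * t := by group
        _ = x * t := by rw [h1]
    exact Subtype.ext (hfpf x x.2 h2)
  have hσpow : σ ^ (p ^ n) = 1 := by
    ext1 x
    apply Subtype.ext
    rw [conjOn_pow_apply, ht]; simp
  have hcop : (Nat.card Γ).Coprime p := fpf_coprime σ p n hp hσpow hσfpf
  have hτapp : ∀ x : Γ, (((σ ^ (p ^ (n - 1))) x : Γ) : MulAut V) = b * x * b⁻¹ :=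
    fun x => conjOn_pow_apply t Γ hΓ _ x
  have hcore : ∀ q : Nat.Primes, ∀ y ∈ pCore (q : ℕ) Γ, b * (y : MulAut V) = y * b := by
    intro q y hy
    by_cases hqp : (q : ℕ) = p
    · have h1 : pCore (q : ℕ) Γ = ⊥ := by
        apply Cfsg.Agent.Lib.Helper1.pCore_eq_bot_of_not_dvd q.2
        rw [hqp]
        intro hd
        have := Nat.Coprime.eq_one_of_dvd hcop.symm hd
        exact hp.one_lt.ne' this
      rw [h1, Subgroup.mem_bot] at hy
      rw [hy]; simp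
    by_cases hqℓ : (q : ℕ) = ℓ
    · have h1 : pCore (q : ℕ) Γ = ⊥ := by
        rw [hqℓ]
        exact autV_core_l ℓ hℓ hexp t Γ hΓ hirr
      rw [h1, Subgroup.mem_bot] at hy
      rw [hy]; simp
    have hPc : (pCore (q : ℕ) Γ).Characteristic := Cfsg.Agent.Lib.Helper28.pCore_characteristic _
    refine autV_A ℓ p q n hℓ hp hp2 q.2 (fun h => hqp h.symm) hpℓ hqℓ hcomm hexp t hn ht
      ((pCore (q : ℕ) Γ).map Γ.subtype) ((Cfsg.Agent.Lib.Helper1.pCore_isPGroup _ Γ).map _) ?_ ?_ hV y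
      ⟨y, hy, rfl⟩
    · rintro _ ⟨z, hz, rfl⟩
      exact ⟨σ z, (char_mem_iff hPc σ z).mpr hz, rfl⟩
    · rintro _ ⟨z, hz, rfl⟩ h
      exact hfpf _ z.2 h
  have hB : fittingSubgroup Γ ≤ (Subgroup.centralizer {b}).subgroupOf Γ := by
    rw [Cfsg.Agent.Lib.Helper1.fitting_eq_iSup_pCore]
    apply iSup_le
    intro q y hy
    rw [Subgroup.mem_subgroupOf, Subgroup.mem_centralizer_singleton_iff]
    exact (hcore q y hy).symm
  have hτp : (σ ^ (p ^ (n - 1))) ^ p = 1 := by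
    rw [← pow_mul, ← pow_succ, Nat.sub_add_cancel hn, hσpow]
  intro x hx
  set X : Γ := ⟨x, hx⟩ with hX
  have h1 := hB (hIH X)
  rw [Subgroup.mem_subgroupOf, Subgroup.mem_centralizer_singleton_iff] at h1
  have h2 : (σ ^ (p ^ (n - 1))) (X⁻¹ * (σ ^ (p ^ (n - 1))) X) = X⁻¹ * (σ ^ (p ^ (n - 1))) X := by
    apply Subtype.ext
    rw [hτapp, ← h1]; group
  have h3 := eq_one_of_shift' (σ ^ (p ^ (n - 1))) p hcop hτp X _ (by group) h2
  have h4 : (σ ^ (p ^ (n - 1))) X = X := by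
    have := inv_mul_eq_one.mp h3
    exact this.symm
  have h5 := congrArg Subtype.val h4
  rw [hτapp] at h5
  calc b * x = (b * x * b⁻¹) * b := by group
    _ = x * b := by rw [h5]

end Cfsg.Agent.Lib.Helper79.HW
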