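import Mathlib
import Cfsg.Agent.Lib.Helper79.HShultA
import Cfsg.Agent.Lib.Helper79.GLevel2

/-! # Group theoretic lemmas on the Fitting subgroup -/

set_option autoImplicit false

namespace Cfsg.Agent.Lib.Helper79.HW

open Cfsg

universe u

theorem fit_of_cent {G : Type u} [Group G] [Finite G] (r : ℕ) (hr : r.Prime)
    [hFn : (fittingSubgroup G).Normal] (y : G)
    (hy : (y : G ⧸ fittingSubgroup G) ∈ pCore r (G ⧸ fittingSubgroup G))
    (hc : ∀ q : Nat.Primes, (q : ℕ) ≠ r → ∀ u ∈ pCore (q : ℕ) G, y * u = u * y) :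
    y ∈ fittingSubgroup G := by
  haveI : Fact r.Prime := ⟨hr⟩
  set Fit := fittingSubgroup G with hFit
  haveI h1 : (pCore r (G ⧸ Fit)).Normal := Cfsg.Agent.Lib.Helper1.pCore_normal _ _
  set Mr : Subgroup G := (pCore r (G ⧸ Fit)).comap (QuotientGroup.mk' Fit) with hMr
  haveI hMrn : Mr.Normal := h1.comap _
  let Hq : {q : Nat.Primes // (q : ℕ) ≠ r} → Subgroup G := fun q => pCore ((q : Nat.Primes) : ℕ) G
  haveI : ∀ i, (Hq i).Normal := fun i => Cfsg.Agent.Lib.Helper1.pCore_normal _ G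
  set F' : Subgroup G := ⨆ i, Hq i with hF'
  haveI hF'n : F'.Normal := by rw [hF']; infer_instance
  set Cn : Subgroup G := Subgroup.centralizer (F' : Set G) with hCn
  haveI hCnn : Cn.Normal := by rw [hCn]; infer_instance
  set D : Subgroup G := Mr ⊓ Cn with hD
  have hDn : D.Normal := Subgroup.normal_inf_normal _ _
  have hFitle : Fit ≤ pCore r G ⊔ F' := by
    rw [hFit, Cfsg.Agent.Lib.Helper1.fitting_eq_iSup_pCore]
    apply iSup_le
    intro q
    by_cases hq : (q : ℕ) = r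
    · rw [hq]; exact le_sup_left
    · exact (le_iSup Hq ⟨q, hq⟩).trans le_sup_right
  have hpow : ∀ d ∈ D, ∃ k : ℕ, d ^ (r ^ k) ∈ F' := by
    intro d hd
    obtain ⟨a, ha⟩ := (Cfsg.Agent.Lib.Helper1.pCore_isPGroup r (G ⧸ Fit)) ⟨(d : G ⧸ Fit), hd.1⟩
    have ha' : ((d : G ⧸ Fit)) ^ (r ^ a) = 1 := by simpa using congrArg Subtype.val ha
    rw [← QuotientGroup.mk_pow, QuotientGroup.eq_one_iff] at ha'
    have h2 : d ^ (r ^ a) ∈ ((pCore r G ⊔ F' : Subgroup G) : Set G) := hFitle ha'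
    rw [Subgroup.mul_normal] at h2
    obtain ⟨u, hu, v, hv, huv⟩ := Set.mem_mul.mp h2
    have h3 : d ^ (r ^ a) ∈ Cn := Cn.pow_mem hd.2 _
    have h4 : v * d ^ (r ^ a) = d ^ (r ^ a) * v := (Subgroup.mem_centralizer_iff.mp h3) v hv
    have h5 : Commute u v := by
      have hu' : u = d ^ (r ^ a) * v⁻¹ := by rw [← huv]; group
      show u * v = v * u
      rw [hu']
      calc d ^ (r ^ a) * v⁻¹ * v = v * d ^ (r ^ a) * v⁻¹ := by rw [h4]; group
        _ = v * (d ^ (r ^ a) * v⁻¹) := by group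
    obtain ⟨b, hb⟩ := (Cfsg.Agent.Lib.Helper1.pCore_isPGroup r G) ⟨u, hu⟩
    have hb' : u ^ (r ^ b) = 1 := by simpa using congrArg Subtype.val hb
    refine ⟨a + b, ?_⟩
    rw [pow_add, pow_mul, ← huv, h5.mul_pow, hb', one_mul]
    exact F'.pow_mem hv _
  have hDnil : Group.IsNilpotent D := by
    let f : D →* G ⧸ F' := (QuotientGroup.mk' F').comp D.subtype
    have hrange : IsPGroup r f.range := by
      rintro ⟨_, d, rfl⟩
      obtain ⟨k, hk⟩ := hpow d d.2
      refine ⟨k, ?_⟩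
      apply Subtype.ext
      show (f d) ^ (r ^ k) = 1
      rw [← map_pow]
      show (((d ^ (r ^ k) : D) : G) : G ⧸ F') = 1
      rw [QuotientGroup.eq_one_iff]
      simpa using hk
    haveI : Group.IsNilpotent f.range := hrange.isNilpotent
    apply Subgroup.isNilpotent_of_ker_le_center f.rangeRestrict
    intro d hd
    rw [MonoidHom.ker_rangeRestrict, MonoidHom.mem_ker] at hd
    have h1 : ((d : G) : G ⧸ F') = 1 := hd
    rw [QuotientGroup.eq_one_iff] at h1
    rw [Subgroup.mem_center_iff]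
    intro e
    apply Subtype.ext
    exact ((Subgroup.mem_centralizer_iff.mp e.2.2) d h1).symm
  apply Cfsg.Agent.Lib.Helper1.le_fitting hDn hDnil
  refine ⟨hy, ?_⟩
  show y ∈ Subgroup.centralizer (F' : Set G)
  rw [Subgroup.mem_centralizer_iff]
  have h2 : F' ≤ Subgroup.centralizer {y} := by
    rw [hF']
    apply iSup_le
    intro q u hu
    rw [Subgroup.mem_centralizer_singleton_iff]
    exact (hc q.1 q.2 u hu).symm
  intro h hh
  have := h2 hh
  rw [Subgroup.mem_centralizer_singleton_iff] at this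
  exact this

theorem key_fit {G : Type u} [Group G] [Finite G] (hodd : Odd (Nat.card G)) (β : MulAut G)
    (hββ : ∀ x, β (β x) = x) [hFn : (fittingSubgroup G).Normal]
    (h2 : ∀ x, ((x⁻¹ * β x : G) : G ⧸ fittingSubgroup G) ∈ fittingSubgroup (G ⧸ fittingSubgroup G))
    (hT : ∀ r : ℕ, ∀ [Fact r.Prime], ∃ P : Sylow r G, ∀ x ∈ P, ∀ q : Nat.Primes, (q : ℕ) ≠ r →
      ∀ u ∈ pCore (q : ℕ) G, (x⁻¹ * β x) * u = u * (x⁻¹ * β x)) :
    ∀ x, x⁻¹ * β x ∈ fittingSubgroup G := by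
  set Fit := fittingSubgroup G with hFit
  have hFc : Fit.Characteristic := Cfsg.Agent.Lib.Helper28.fitting_characteristic
  have hFβ : ∀ x, x ∈ Fit ↔ β x ∈ Fit := fun x => (char_mem_iff hFc β x).symm
  set βb := quotAut β Fit hFβ with hβb
  have hcore : ∀ r : Nat.Primes, pCore (r : ℕ) (G ⧸ Fit) ≤ fixSub βb := by
    intro r a ha
    haveI : Fact (r : ℕ).Prime := ⟨r.2⟩
    obtain ⟨P, hP⟩ := hT (r : ℕ)
    haveI := Cfsg.Agent.Lib.Helper1.pCore_normal (r : ℕ) (G ⧸ Fit)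
    have h3 : pCore (r : ℕ) (G ⧸ Fit) ≤ (P.mapSurjective (QuotientGroup.mk'_surjective Fit) : Sylow r (G ⧸ Fit)) :=
      (Cfsg.Agent.Lib.Helper1.pCore_isPGroup (r : ℕ) (G ⧸ Fit)).le_sylow_of_normal _
    obtain ⟨l, hl, rfl⟩ := h3 ha
    have hPc : (pCore (r : ℕ) (G ⧸ Fit)).Characteristic := Cfsg.Agent.Lib.Helper28.pCore_characteristic _
    have h4 : ((l⁻¹ * β l : G) : G ⧸ Fit) ∈ pCore (r : ℕ) (G ⧸ Fit) := by
      rw [QuotientGroup.mk_mul, QuotientGroup.mk_inv]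
      refine Subgroup.mul_mem _ (Subgroup.inv_mem _ ha) ?_
      have := (char_mem_iff hPc βb _).mpr ha
      exact this
    have h5 := fit_of_cent (r : ℕ) r.2 (l⁻¹ * β l) h4 (hP l hl)
    rw [mem_fixSub]
    exact (QuotientGroup.eq.mpr h5).symm
  have hfit : fittingSubgroup (G ⧸ Fit) ≤ fixSub βb := by
    rw [Cfsg.Agent.Lib.Helper1.fitting_eq_iSup_pCore]
    exact iSup_le hcore
  intro x
  set y := x⁻¹ * β x with hy
  have h3 := hfit (h2 x)
  rw [mem_fixSub, hβb, quotAut_mk] at h3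
  have h4 : β y = y⁻¹ := by rw [hy, map_mul, map_inv, hββ]; group
  rw [h4] at h3
  have h5 : y ^ 2 ∈ Fit := by
    have := QuotientGroup.eq.mp h3
    rw [inv_inv] at this
    rw [sq]; exact this
  apply mem_of_pow_coprime Fit y 2 (Nat.card G) ?_ h5 (by rw [pow_card_eq_one']; exact Fit.one_mem)
  exact hodd.coprime_two_left

end Cfsg.Agent.Lib.Helper79.HW
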