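import Mathlib
import Cfsg.Agent.Lib.Helper79.GLevel2
import Cfsg.Agent.Lib.Helper79.HBridge
import Cfsg.Agent.Lib.Helper79.HFpf

/-! # Auxiliary constructions for the tower theorem -/

set_option autoImplicit false

namespace Cfsg.Agent.Lib.Helper79.HW

open Module Function

universe u v w

variable {F : Type u} [Field F] {N : Type w} [Group N]

/-- conjugation action of a subgroup normalizing `K`. -/
def conjHom (K M : Subgroup N) (hM : ∀ g ∈ M, ∀ x, x ∈ K ↔ g * x * g⁻¹ ∈ K) : M →* MulAut K where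
  toFun g := conjOn (g : N) K (hM g g.2)
  map_one' := by
    ext x
    simp
  map_mul' a b := by
    ext x
    simp [mul_assoc]

@[simp] theorem conjHom_apply (K M : Subgroup N) (hM) (g : M) (x : K) :
    ((conjHom K M hM g x : K) : N) = g * x * (g : N)⁻¹ := rfl

/-- additive functionals vanishing on `Y`. -/
def vanSub (F : Type u) [Field F] {Q : Type w} [Group Q] (Y : Subgroup Q) : Submodule F (HomSp F Q) where
  carrier := {f | ∀ y ∈ Y, (f : Q → F) y = 0}
  add_mem' := by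
    intro f g hf hg y hy
    have h1 := hf y hy
    have h2 := hg y hy
    show (f : Q → F) y + (g : Q → F) y = 0
    rw [h1, h2, add_zero]
  zero_mem' := by intro y _; rfl
  smul_mem' := by
    intro r f hf y hy
    have h1 := hf y hy
    show r • (f : Q → F) y = 0
    rw [h1, smul_zero]

theorem exists_hom_of_pgroup {A : Type w} [Group A] [Finite A] [Nontrivial A] (q : ℕ) [Fact q.Prime]
    [CharP F q] (hcomm : ∀ a b : A, a * b = b * a) (hA : IsPGroup q A) :
    ∃ f : HomSp F A, f ≠ 0 := by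
  have hdvd : q ∣ Nat.card A := by
    obtain ⟨k, hk⟩ := (IsPGroup.iff_card).mp hA
    have h1 : 1 < Nat.card A := Finite.one_lt_card
    rcases Nat.eq_zero_or_pos k with h0 | h0
    · rw [h0, pow_zero] at hk; omega
    · rw [hk]; exact dvd_pow_self q h0.ne'
  obtain ⟨x, hx⟩ := exists_prime_orderOf_dvd_card' q hdvd
  let pw : A →* A := MonoidHom.mk' (fun a => a ^ q) (fun a b => (show Commute a b from hcomm a b).mul_pow q)
  have hpw : ∀ a, pw a = a ^ q := fun a => rfl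
  have hninj : ¬ Injective pw := by
    intro h
    have h1 : pw x = pw 1 := by rw [hpw, hpw, one_pow, ← hx, pow_orderOf_eq_one]
    have h2 := h h1
    rw [h2, orderOf_one] at hx
    exact (Fact.out : q.Prime).one_lt.ne hx
  have hnsurj : ¬ Surjective pw := fun h => hninj (Finite.injective_iff_surjective.mpr h)
  rw [Surjective] at hnsurj
  push Not at hnsurj
  obtain ⟨a₀, ha₀⟩ := hnsurj
  let B : Subgroup A := pw.range
  haveI : B.Normal := ⟨fun n hn g => by rw [hcomm g n, mul_assoc, mul_inv_cancel, mul_one]; exact hn⟩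
  have h1 : (a₀ : A ⧸ B) ≠ 1 := by
    intro h
    rw [QuotientGroup.eq_one_iff] at h
    obtain ⟨a, ha⟩ := h
    exact ha₀ a ha
  obtain ⟨f₀, hf₀⟩ := exists_hom_ne_zero (K := F) (V := A ⧸ B) q
    (by
      intro a b
      obtain ⟨a, rfl⟩ := QuotientGroup.mk_surjective a
      obtain ⟨b, rfl⟩ := QuotientGroup.mk_surjective b
      rw [← QuotientGroup.mk_mul, ← QuotientGroup.mk_mul, hcomm])
    (by
      intro a
      obtain ⟨a, rfl⟩ := QuotientGroup.mk_surjective a
      rw [← QuotientGroup.mk_pow, QuotientGroup.eq_one_iff]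
      exact ⟨a, rfl⟩) _ h1
  refine ⟨⟨fun a => (f₀ : A ⧸ B → F) (a : A ⧸ B), ?_⟩, ?_⟩
  · intro a b
    show (f₀ : A ⧸ B → F) ((a * b : A) : A ⧸ B) = _
    rw [QuotientGroup.mk_mul, HomSp.map_mul]
  · intro h
    apply hf₀
    exact congrFun (congrArg Subtype.val h) a₀

theorem exists_van_ne_zero {Q : Type w} [Group Q] [Finite Q] (q : ℕ) [Fact q.Prime] [CharP F q]
    (hQ : IsPGroup q Q) (Y : Subgroup Q) (hY : ∀ x y : Q, x * y * x⁻¹ * y⁻¹ ∈ Y) (hYtop : Y ≠ ⊤) :
    ∃ f : HomSp F Q, f ∈ vanSub F Y ∧ f ≠ 0 := by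
  haveI : Y.Normal := by
    constructor
    intro y hy g
    have : g * y * g⁻¹ = (g * y * g⁻¹ * y⁻¹) * y := by group
    rw [this]
    exact Y.mul_mem (hY g y) hy
  haveI : Nontrivial (Q ⧸ Y) := by
    rw [← not_subsingleton_iff_nontrivial]
    intro h
    exact hYtop (QuotientGroup.subgroup_eq_top_of_subsingleton Y h)
  obtain ⟨f₀, hf₀⟩ := exists_hom_of_pgroup (F := F) (A := Q ⧸ Y) q
    (by
      intro a b
      obtain ⟨a, rfl⟩ := QuotientGroup.mk_surjective a
      obtain ⟨b, rfl⟩ := QuotientGroup.mk_surjective b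
      rw [← QuotientGroup.mk_mul, ← QuotientGroup.mk_mul, QuotientGroup.eq]
      have : (a * b)⁻¹ * (b * a) = b⁻¹ * a⁻¹ * b⁻¹⁻¹ * a⁻¹⁻¹ := by group
      rw [this]
      exact hY _ _)
    (hQ.to_quotient Y)
  refine ⟨⟨fun a => (f₀ : Q ⧸ Y → F) (a : Q ⧸ Y), ?_⟩, ?_, ?_⟩
  · intro a b
    show (f₀ : Q ⧸ Y → F) ((a * b : Q) : Q ⧸ Y) = _
    rw [QuotientGroup.mk_mul, HomSp.map_mul]
  · intro y hy
    show (f₀ : Q ⧸ Y → F) (y : Q ⧸ Y) = 0
    rw [(QuotientGroup.eq_one_iff y).mpr hy, HomSp.map_one]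
  · intro h
    apply hf₀
    ext a
    obtain ⟨a, rfl⟩ := QuotientGroup.mk_surjective a
    exact congrFun (congrArg Subtype.val h) a

theorem abel_cent [Finite N] [IsAlgClosed F] {W : Type v} [AddCommGroup W] [Module F W]
    [FiniteDimensional F W] (ρ : N →* Module.End F W) (hρ : ∀ x, ρ x = 1 → x = 1) (t : N) (q n : ℕ)
    (hq : q.Prime) (hq2 : q ≠ 2) (hn : 0 < n) (ht : t ^ (2 ^ n) = 1)
    (S : Subgroup N) (hS : IsPGroup q S) (hSt : ∀ x ∈ S, t * x * t⁻¹ ∈ S) (hqF : (q : F) ≠ 0)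
    (h2F : (2 : F) ≠ 0) (habel : ∀ x ∈ S, ∀ y ∈ S, x * y = y * x)
    (hfix : ∀ y : W, ρ t y = y → y = 0) :
    ∀ x ∈ S, t ^ (2 ^ (n - 1)) * x = x * t ^ (2 ^ (n - 1)) := by
  by_contra hcon
  push Not at hcon
  rcases main_dich ρ hρ t 2 q n Nat.prime_two hq (fun h => hq2 h.symm) hn ht S hS hSt hqF
    (by exact_mod_cast h2F) hcon with ⟨y, hy0, hy⟩ | ⟨Q, h, hQS, C, hmin, hexc⟩
  · exact hy0 (hfix y hy)
  · obtain ⟨j, hj, μ, Y, -, hμ1, -, hY, hYtop, -⟩ := hexc
    apply hYtop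
    rw [eq_top_iff]
    intro x _
    rw [hY]
    intro y
    have : x * y * x⁻¹ * y⁻¹ = 1 := by
      have e : x * y = y * x := Subtype.ext (habel x (hQS x.2) y (hQS y.2))
      rw [e]; group
    rw [this, hμ1]

end Cfsg.Agent.Lib.Helper79.HW
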