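import Mathlib
import Cfsg.Agent.Lib.Helper79.GTowerAux
import Cfsg.Agent.Lib.Helper79.HAutV

/-! # Passing from the first to the second level -/

set_option autoImplicit false

namespace Cfsg.Agent.Lib.Helper79.HW

open Module Function

universe u w w'

variable {Q : Type w} [Group Q] {M : Type w'} [Group M]

/-- the representation of `M` on the functionals vanishing on `Y`. -/
def vanRep (F₂ : Type u) [Field F₂] (φ : M →* MulAut Q) (Y : Subgroup Q)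
    (hMY : ∀ (g : M) (x : Q), x ∈ Y ↔ φ g x ∈ Y) : M →* Module.End F₂ (vanSub F₂ Y) :=
  resRep (homRep F₂ φ) (vanSub F₂ Y) (by
    intro g f hf y hy
    rw [homRep_apply]
    exact hf _ ((hMY g⁻¹ y).mp hy))

theorem vanRep_apply (F₂ : Type u) [Field F₂] (φ : M →* MulAut Q) (Y : Subgroup Q)
    (hMY : ∀ (g : M) (x : Q), x ∈ Y ↔ φ g x ∈ Y) (g : M) (f : vanSub F₂ Y) (x : Q) :
    (((vanRep F₂ φ Y hMY g f : vanSub F₂ Y) : HomSp F₂ Q) : Q → F₂) x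
      = ((f : HomSp F₂ Q) : Q → F₂) (φ g⁻¹ x) := rfl

theorem trans_level [Finite Q] [Finite M] (q r s : ℕ) (hq : q.Prime) (hq2 : q ≠ 2) (hr : r.Prime)
    (hr2 : r ≠ 2) (hqr : q ≠ r) (hs1 : 1 ≤ s) (hQ : IsPGroup q Q)
    (φ : M →* MulAut Q) (Y : Subgroup Q) (hMY : ∀ (g : M) (x : Q), x ∈ Y ↔ φ g x ∈ Y)
    (hYc : ∀ x y : Q, x * y * x⁻¹ * y⁻¹ ∈ Y) (hYtop : Y ≠ ⊤)
    (t' : M) (ht' : t' ^ (2 ^ s) = 1) (gens : Set M)
    (hgb : ∀ y ∈ gens, t' ^ (2 ^ (s - 1)) * y * (t' ^ (2 ^ (s - 1)))⁻¹ = y⁻¹)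
    (hLr : IsPGroup r (Subgroup.closure gens))
    (hLt : ∀ y ∈ Subgroup.closure gens, t' * y * t'⁻¹ ∈ Subgroup.closure gens)
    (hgenK : ∀ H : Subgroup Q, (∀ y ∈ Subgroup.closure gens, ∀ x : Q, φ y x * x⁻¹ ∈ H) → H = ⊤)
    (himp : (∃ x, x⁻¹ * φ (t' ^ (2 ^ (s - 1))) x ∉ Y) →
      (∀ x, x⁻¹ * φ (t' ^ (2 ^ (s - 1))) x ∈ Y → x⁻¹ * φ t' x ∈ Y) ∧
      ∃ x, x ∉ Y ∧ x ^ ((2 ^ s - 1) ^ 2) ∈ Y)
    (F₂ : Type u) [Field F₂] [IsAlgClosed F₂] [CharP F₂ q] : False := by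
  classical
  haveI : Fact q.Prime := ⟨hq⟩
  set b := t' ^ (2 ^ (s - 1)) with hb
  set L₁ := Subgroup.closure gens with hL₁
  set ρ₂ := vanRep F₂ φ Y hMY with hρ₂
  have hρ₂app : ∀ (g : M) (f : vanSub F₂ Y) (x : Q),
      (((ρ₂ g f : vanSub F₂ Y) : HomSp F₂ Q) : Q → F₂) x = ((f : HomSp F₂ Q) : Q → F₂) (φ g⁻¹ x) :=
    fun g f x => vanRep_apply F₂ φ Y hMY g f x
  set ρb : M ⧸ ρ₂.ker →* Module.End F₂ (vanSub F₂ Y) := QuotientGroup.lift ρ₂.ker ρ₂ le_rfl with hρbdef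
  have hρbmk : ∀ g : M, ρb (g : M ⧸ ρ₂.ker) = ρ₂ g := fun g => rfl
  have hρb : ∀ x : M ⧸ ρ₂.ker, ρb x = 1 → x = 1 := by
    intro x hx
    obtain ⟨g, rfl⟩ := QuotientGroup.mk_surjective x
    rw [hρbmk] at hx
    exact (QuotientGroup.eq_one_iff g).mpr hx
  set t₂ : M ⧸ ρ₂.ker := (t' : M ⧸ ρ₂.ker) with ht₂
  have ht₂b : t₂ ^ (2 ^ (s - 1)) = (b : M ⧸ ρ₂.ker) := (QuotientGroup.mk_pow _ t' _).symm
  set S₂ : Subgroup (M ⧸ ρ₂.ker) := L₁.map (QuotientGroup.mk' ρ₂.ker) with hS₂def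
  have hS₂ : IsPGroup r S₂ := hLr.map _
  have hb₂ : ∃ x ∈ S₂, t₂ ^ (2 ^ (s - 1)) * x ≠ x * t₂ ^ (2 ^ (s - 1)) := by
    by_contra hcon
    push Not at hcon
    have hker : ∀ y ∈ gens, y ∈ ρ₂.ker := by
      intro y hyg
      have h1 := hcon (y : M ⧸ ρ₂.ker) ⟨y, Subgroup.subset_closure hyg, rfl⟩
      have h2 : b * y * b⁻¹ = y⁻¹ := hgb y hyg
      rw [ht₂b] at h1
      have h3 : ((y : M ⧸ ρ₂.ker))⁻¹ = (y : M ⧸ ρ₂.ker) := by
        calc ((y : M ⧸ ρ₂.ker))⁻¹ = ((b * y * b⁻¹ : M) : M ⧸ ρ₂.ker) := by rw [h2]; rfl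
          _ = (b : M ⧸ ρ₂.ker) * (y : M ⧸ ρ₂.ker) * (b : M ⧸ ρ₂.ker)⁻¹ := rfl
          _ = (y : M ⧸ ρ₂.ker) := by rw [h1]; group
      have h5 : ((y : M ⧸ ρ₂.ker)) ^ 2 = 1 := by
        rw [sq]
        nth_rewrite 1 [← h3]
        exact inv_mul_cancel _
      obtain ⟨k, hk⟩ := hLr ⟨y, Subgroup.subset_closure hyg⟩
      have h6 : ((y : M ⧸ ρ₂.ker)) ^ (r ^ k) = 1 := by
        have h7 : y ^ (r ^ k) = 1 := by
          have := congrArg Subtype.val hk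
          simpa using this
        rw [← QuotientGroup.mk_pow, h7]; rfl
      have h7 := Heis.eq_one_of_sq_of_odd_pow _ _ ((hr.odd_of_ne_two hr2).pow) h5 h6
      exact (QuotientGroup.eq_one_iff _).mp h7
    have hker2 : L₁ ≤ ρ₂.ker := by
      rw [hL₁, Subgroup.closure_le]
      exact hker
    obtain ⟨f, hfW, hf0⟩ := exists_van_ne_zero (F := F₂) q hQ Y hYc hYtop
    apply hf0
    let Hf : Subgroup Q :=
      { carrier := {x | (f : Q → F₂) x = 0}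
        mul_mem' := by
          intro a b ha hb
          simp only [Set.mem_ofPred_eq] at ha hb ⊢
          rw [HomSp.map_mul, ha, hb, add_zero]
        one_mem' := HomSp.map_one f
        inv_mem' := by
          intro a ha
          simp only [Set.mem_ofPred_eq] at ha ⊢
          rw [HomSp.map_inv, ha, neg_zero] }
    have hHf : Hf = ⊤ := by
      apply hgenK
      intro y hy x
      have h1 := hker2 (L₁.inv_mem hy)
      rw [MonoidHom.mem_ker] at h1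
      have h2 := hρ₂app y⁻¹ ⟨f, hfW⟩ x
      rw [h1, inv_inv] at h2
      show (f : Q → F₂) (φ y x * x⁻¹) = 0
      rw [HomSp.map_mul, HomSp.map_inv, ← h2]
      simp
    ext x
    have : x ∈ Hf := by rw [hHf]; trivial
    exact this
  have hbb : b * b = 1 := by
    rw [hb, ← pow_add]
    have : 2 ^ (s - 1) + 2 ^ (s - 1) = 2 ^ s := by
      obtain ⟨s', rfl⟩ : ∃ s', s = s' + 1 := ⟨s - 1, by omega⟩
      rw [Nat.add_sub_cancel, pow_succ]; ring
    rw [this, ht']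
  have hbinv : b⁻¹ = b := inv_eq_of_mul_eq_one_left hbb
  have hββ : ∀ x, φ b (φ b x) = x := by
    intro x
    rw [← MulAut.mul_apply, ← map_mul, hbb, map_one]; rfl
  have hβne : ∃ x, x⁻¹ * φ b x ∉ Y := by
    by_contra hcon
    push Not at hcon
    obtain ⟨x, hx, hne⟩ := hb₂
    apply hne
    have h1 : t₂ ^ (2 ^ (s - 1)) = 1 := by
      rw [ht₂b, QuotientGroup.eq_one_iff, MonoidHom.mem_ker]
      ext f x
      rw [hρ₂app, hbinv]
      have h4 := f.2 _ (hcon x)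
      rw [HomSp.map_mul, HomSp.map_inv] at h4
      simp only [Module.End.one_apply]
      exact (neg_add_eq_zero.mp h4).symm
    rw [h1]; simp
  obtain ⟨hi, xx, hxxY, hxxpow⟩ := himp hβne
  have hs2 : 2 ≤ s := by
    by_contra hlt
    have : s = 1 := by omega
    rw [this] at hxxpow
    simp at hxxpow
    exact hxxY hxxpow
  have h2K₂ : (2 : F₂) ≠ 0 := by
    have := cast_prime_ne_zero F₂ q 2 hq Nat.prime_two (fun h => hq2 h.symm)
    exact_mod_cast this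
  have hmiss : ∀ l : F₂, l ^ (2 ^ (s - 1)) = 1 → l ≠ 1 →
      ∀ f : vanSub F₂ Y, ρb t₂ f = l • f → f = 0 := by
    intro l hl hl1 f hf
    have hf0 : ρ₂ t' f = l • f := hf
    have hf1 : ∀ x : Q, ((f : HomSp F₂ Q) : Q → F₂) x = l * ((f : HomSp F₂ Q) : Q → F₂) (φ t' x) := by
      intro x
      have h1 := hρ₂app t' f (φ t' x)
      rw [hf0] at h1
      have h2 : φ t'⁻¹ (φ t' x) = x := by
        rw [← MulAut.mul_apply, ← map_mul, inv_mul_cancel, map_one]; rfl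
      rw [h2] at h1
      exact h1.symm
    have hfk : ∀ (k : ℕ) (x : Q),
        ((f : HomSp F₂ Q) : Q → F₂) x = l ^ k * ((f : HomSp F₂ Q) : Q → F₂) (φ (t' ^ k) x) := by
      intro k
      induction k with
      | zero => intro x; simp
      | succ k ih =>
        intro x
        rw [ih x, hf1 (φ (t' ^ k) x), pow_succ, pow_succ' t', map_mul, MulAut.mul_apply, mul_assoc]
    have hfβ : ∀ x : Q, ((f : HomSp F₂ Q) : Q → F₂) x = ((f : HomSp F₂ Q) : Q → F₂) (φ b x) := by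
      intro x
      have := hfk (2 ^ (s - 1)) x
      rwa [hl, one_mul] at this
    ext x
    set w := x * φ b x with hw
    have hw1 : w⁻¹ * φ b w ∈ Y := by
      have e : w⁻¹ * φ b w = (φ b x)⁻¹ * x⁻¹ * (φ b x)⁻¹⁻¹ * x⁻¹⁻¹ := by
        rw [hw, map_mul, hββ]; group
      rw [e]
      exact hYc _ _
    have hw2 := f.2 _ (hi w hw1)
    rw [HomSp.map_mul, HomSp.map_inv] at hw2
    have hw3 := hf1 w
    rw [← neg_add_eq_zero.mp hw2] at hw3
    have hw4 : ((f : HomSp F₂ Q) : Q → F₂) w = 0 := by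
      have h5 : (1 - l) * ((f : HomSp F₂ Q) : Q → F₂) w = 0 := by
        rw [sub_mul, one_mul, ← hw3, sub_self]
      rcases mul_eq_zero.mp h5 with h | h
      · exact absurd (sub_eq_zero.mp h).symm hl1
      · exact h
    rw [hw, HomSp.map_mul, ← hfβ] at hw4
    have h6 : (2 : F₂) * ((f : HomSp F₂ Q) : Q → F₂) x = 0 := by
      rw [two_mul]; exact hw4
    rcases mul_eq_zero.mp h6 with h | h
    · exact absurd h h2K₂
    · exact h
  obtain ⟨hs_eq, hr3⟩ := level2 (K := F₂) (W := vanSub F₂ Y) ρb hρb t₂ r s hr hr2 hs2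
    (by
      have e : t₂ ^ (2 ^ s) = ((t' ^ (2 ^ s) : M) : M ⧸ ρ₂.ker) := (QuotientGroup.mk_pow _ t' _).symm
      rw [e, ht']; rfl)
    S₂ hS₂
    (by
      rintro _ ⟨l, hl, rfl⟩
      exact ⟨t' * l * t'⁻¹, hLt l hl, rfl⟩)
    (cast_prime_ne_zero F₂ q r hq hr (fun h => hqr h.symm)) h2K₂ hb₂ hmiss
  rw [hs_eq] at hxxpow
  norm_num at hxxpow
  obtain ⟨k', hk'⟩ := hQ xx
  apply hxxY
  apply mem_of_pow_coprime Y xx 9 (q ^ k') ?_ hxxpow (by rw [hk']; exact Y.one_mem)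
  have h3 : Nat.Coprime 3 q := (Nat.coprime_primes Nat.prime_three hq).mpr (fun h => hqr (by rw [← h, hr3]))
  have : (9 : ℕ) = 3 ^ 2 := by norm_num
  rw [this]
  exact Nat.Coprime.pow 2 k' h3

end Cfsg.Agent.Lib.Helper79.HW
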