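import Mathlib
import Cfsg.Agent.Lib.Helper79.GTrans
import Cfsg.Agent.Lib.Helper79.HShultA

/-! # The core of the tower theorem -/

set_option autoImplicit false

namespace Cfsg.Agent.Lib.Helper79.HW

open Module Function

universe u v w

variable {F : Type u} [Field F] {N : Type w} [Group N]

set_option maxHeartbeats 1000000 in
theorem tower_core [Finite N] [IsAlgClosed F] {W : Type v} [AddCommGroup W] [Module F W]
    [FiniteDimensional F W] (ρ : N →* Module.End F W) (hρ : ∀ x, ρ x = 1 → x = 1) (t : N) (q r n : ℕ)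
    (hq : q.Prime) (hq2 : q ≠ 2) (hr : r.Prime) (hr2 : r ≠ 2) (hqr : q ≠ r)
    (ht : t ^ (2 ^ n) = 1) (hqF : (q : F) ≠ 0) (h2F : (2 : F) ≠ 0)
    (hfix : ∀ y : W, ρ t y = y → y = 0)
    (K : Subgroup N) (hKq : IsPGroup q K) (hKt : ∀ x, x ∈ K ↔ t * x * t⁻¹ ∈ K)
    (gens : Set N) (hgb : ∀ y ∈ gens, t ^ (2 ^ (n - 1)) * y * (t ^ (2 ^ (n - 1)))⁻¹ = y⁻¹)
    (hLK : ∀ y ∈ Subgroup.closure gens, ∀ x, x ∈ K ↔ y * x * y⁻¹ ∈ K)
    (hLr : IsPGroup r (Subgroup.closure gens))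
    (hLt : ∀ y ∈ Subgroup.closure gens, t * y * t⁻¹ ∈ Subgroup.closure gens)
    (hLZ : ∀ y ∈ Subgroup.closure gens, ∀ z ∈ commutator K, y * (z : N) = z * y)
    (hcentral : ∀ z ∈ commutator K, ∀ x : K, z * x = x * z)
    (hgenK : ∀ H : Subgroup K, (∀ y ∈ Subgroup.closure gens, ∀ x : K, ∀ c : K,
       (c : N) = y * x * y⁻¹ * (x : N)⁻¹ → c ∈ H) → H = ⊤)
    (x₁ y₁ : K) (hz : x₁ * y₁ * x₁⁻¹ * y₁⁻¹ ≠ 1)
    (F₂ : Type) [Field F₂] [IsAlgClosed F₂] [CharP F₂ q] : False := by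
  classical
  haveI : Fact q.Prime := ⟨hq⟩
  set b := t ^ (2 ^ (n - 1)) with hb
  set L₁ := Subgroup.closure gens with hL₁
  set σ := conjOn t K hKt with hσ
  set Z : Subgroup K := commutator K with hZ
  have hZc : Z.Characteristic := by rw [hZ]; infer_instance
  have hσpow : σ ^ (2 ^ n) = 1 := by
    ext x
    rw [conjOn_pow_apply, ht]; simp
  have hcommZ : ∀ x y : K, x * y * x⁻¹ * y⁻¹ ∈ Z := fun x y =>
    Subgroup.commutator_mem_commutator (Subgroup.mem_top x) (Subgroup.mem_top y)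
  have C2 : Cfg2 σ n Z := ⟨hσpow, hcentral, hcommZ, fun z hz => (char_mem_iff hZc σ z).mpr hz⟩
  obtain ⟨kq, hkq⟩ := (IsPGroup.iff_card).mp hKq
  have hcard : (Nat.card K : F) ≠ 0 := by
    rw [hkq]; push_cast
    exact pow_ne_zero _ hqF
  have hodd : Odd (Nat.card K) := by
    rw [hkq]
    exact (hq.odd_of_ne_two hq2).pow
  have hint : ∀ x : K, ρ t * (ρ.comp K.subtype) x = (ρ.comp K.subtype) ((σ ^ (2 ^ 0)) x) * ρ t := by
    intro x
    rw [pow_zero, pow_one]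
    simp only [MonoidHom.comp_apply, Subgroup.coe_subtype]
    rw [← map_mul, ← map_mul, hσ, conjOn_apply]
    congr 1; group
  have htP : (ρ t) ^ (2 ^ (n - 0)) = 1 := by rw [Nat.sub_zero, ← map_pow, ht, map_one]
  set z₀ := x₁ * y₁ * x₁⁻¹ * y₁⁻¹ with hz₀
  have hm : ∀ w : W, ρ t w = (1 : F) • w → w = 0 := by
    intro w hw
    rw [one_smul] at hw
    exact hfix w hw
  obtain ⟨j', -, hj', μ, Y, hμmul, hμ1, hμinv, hY, hμz, himp⟩ :=
    claimG C2 hcard hodd h2F z₀ (hcommZ x₁ y₁) (finrank F W) W 0 (ρ.comp K.subtype) (ρ t) 1 1 rfl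
      (Nat.zero_le _) htP hint
      (by
        intro h1
        have := hρ _ h1
        simp only [Subgroup.coe_subtype] at this
        exact hz (Subtype.ext this))
      (one_pow _) (one_pow _) hm hm
  set s := n - j' with hs
  set t' := t ^ (2 ^ j') with ht'
  set θ := σ ^ (2 ^ j') with hθ
  set β := σ ^ (2 ^ (n - 1)) with hβ
  have hθapp : ∀ x : K, ((θ x : K) : N) = t' * x * t'⁻¹ := fun x => conjOn_pow_apply t K hKt _ x
  have hβapp : ∀ x : K, ((β x : K) : N) = b * x * b⁻¹ := fun x => conjOn_pow_apply t K hKt _ x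
  have hYtop : Y ≠ ⊤ := by
    intro htop
    apply hμz
    have : x₁ ∈ Y := by rw [htop]; trivial
    exact (hY x₁).mp this y₁
  have hZY : Z ≤ Y := by
    intro z hz
    rw [hY]
    intro y
    have : z * y * z⁻¹ * y⁻¹ = 1 := by rw [hcentral z hz y]; group
    rw [this, hμ1]
  have hYaut : ∀ φ : MulAut K, (∀ z ∈ Z, μ (φ z) = μ z) → ∀ x, x ∈ Y ↔ φ x ∈ Y := by
    intro φ hφ
    apply aut_mem_iff φ Y
    intro x hx
    rw [hY]
    intro w
    obtain ⟨w', rfl⟩ : ∃ w', φ w' = w := ⟨φ⁻¹ w, by simp⟩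
    have e : φ x * φ w' * (φ x)⁻¹ * (φ w')⁻¹ = φ (x * w' * x⁻¹ * w'⁻¹) := by simp
    rw [e, hφ _ (hcommZ x w')]
    exact (hY x).mp hx w'
  set YN : Subgroup N := Y.map K.subtype with hYN
  have hmemYN : ∀ x : K, (x : N) ∈ YN ↔ x ∈ Y := by
    intro x
    constructor
    · rintro ⟨y, hy, hyx⟩
      have : y = x := Subtype.ext hyx
      rwa [← this]
    · intro hx
      exact ⟨x, hx, rfl⟩
  let M : Subgroup N := Subgroup.normalizer (K : Set N) ⊓ Subgroup.normalizer (YN : Set N)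
  have hMK : ∀ g ∈ M, ∀ x, x ∈ K ↔ g * x * g⁻¹ ∈ K := fun g hg => Subgroup.mem_normalizer_iff.mp hg.1
  have hMY : ∀ (g : M) (x : K), x ∈ Y ↔ conjHom K M hMK g x ∈ Y := by
    intro g x
    rw [← hmemYN, ← hmemYN, conjHom_apply]
    exact Subgroup.mem_normalizer_iff.mp g.2.2 x
  have hmemM : ∀ g : N, ∀ (h : ∀ x, x ∈ K ↔ g * x * g⁻¹ ∈ K),
      (∀ x : K, x ∈ Y ↔ conjOn g K h x ∈ Y) → g ∈ M := by
    intro g h hgY
    refine ⟨Subgroup.mem_normalizer_iff.mpr h, Subgroup.mem_normalizer_iff.mpr ?_⟩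
    intro x
    constructor
    · rintro ⟨y, hy, rfl⟩
      exact ⟨conjOn g K h y, (hgY y).mp hy, rfl⟩
    · rintro ⟨y, hy, hyx⟩
      have hxK : x ∈ K := (h x).mpr (by rw [← hyx]; exact y.2)
      refine ⟨⟨x, hxK⟩, (hgY ⟨x, hxK⟩).mpr ?_, rfl⟩
      have : conjOn g K h ⟨x, hxK⟩ = y := Subtype.ext hyx.symm
      rw [this]; exact hy
  have ht'K : ∀ x, x ∈ K ↔ t' * x * t'⁻¹ ∈ K :=
    conj_mem_iff t' K (fun x hx => by
      have := (θ ⟨x, hx⟩).2
      rwa [hθapp] at this)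
  have ht'M : t' ∈ M := hmemM t' ht'K (fun x => by
    have : conjOn t' K ht'K x = θ x := Subtype.ext (hθapp x).symm
    rw [this]
    exact hYaut θ hμinv x)
  have hLM : L₁ ≤ M := by
    intro l hl
    refine hmemM l (hLK l hl) (fun x => hYaut (conjOn l K (hLK l hl)) (fun z hz => ?_) x)
    have : conjOn l K (hLK l hl) z = z := by
      apply Subtype.ext
      rw [conjOn_apply, hLZ l hl z hz]; group
    rw [this]
  let φ : M →* MulAut K := conjHom K M hMK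
  let t'M : M := ⟨t', ht'M⟩
  have hs1 : 1 ≤ s := by omega
  have hbM : ((t'M ^ (2 ^ (s - 1)) : M) : N) = b := by
    rw [Subgroup.coe_pow]
    show t' ^ (2 ^ (s - 1)) = b
    rw [ht', hb, ← pow_mul, ← pow_add]
    congr 2; omega
  let gensM : Set M := {m | (m : N) ∈ gens}
  have hcl1 : ∀ m : M, m ∈ Subgroup.closure gensM → (m : N) ∈ L₁ := by
    intro m hm
    have h1 : Subgroup.closure gensM ≤ L₁.comap M.subtype := by
      rw [Subgroup.closure_le]
      intro y hy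
      exact Subgroup.subset_closure hy
    exact h1 hm
  have hcl2 : ∀ l ∈ L₁, ∀ hl : l ∈ M, (⟨l, hl⟩ : M) ∈ Subgroup.closure gensM := by
    have h1 : L₁ ≤ (Subgroup.closure gensM).map M.subtype := by
      rw [hL₁, Subgroup.closure_le]
      intro y hy
      exact ⟨⟨y, hLM (Subgroup.subset_closure hy)⟩, Subgroup.subset_closure hy, rfl⟩
    intro l hl hlM
    obtain ⟨m, hm, hml⟩ := h1 hl
    have : m = ⟨l, hlM⟩ := Subtype.ext hml
    rwa [← this]
  have e1 : ∀ x : K, φ (t'M ^ (2 ^ (s - 1))) x = β x := by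
    intro x
    apply Subtype.ext
    rw [hβapp]
    show ((t'M ^ (2 ^ (s - 1)) : M) : N) * x * ((t'M ^ (2 ^ (s - 1)) : M) : N)⁻¹ = _
    rw [hbM]
  have e2 : ∀ x : K, φ t'M x = θ x := by
    intro x
    apply Subtype.ext
    rw [hθapp]
    rfl
  refine trans_level q r s hq hq2 hr hr2 hqr hs1 hKq φ Y hMY (fun x y => hZY (hcommZ x y)) hYtop t'M ?_
    gensM ?_ ?_ ?_ ?_ ?_ F₂
  · apply Subtype.ext
    rw [Subgroup.coe_pow]
    show t' ^ (2 ^ s) = 1
    rw [ht', ← pow_mul, ← pow_add]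
    have : j' + s = n := by omega
    rw [this, ht]
  · intro y hy
    apply Subtype.ext
    show ((t'M ^ (2 ^ (s - 1)) : M) : N) * y * ((t'M ^ (2 ^ (s - 1)) : M) : N)⁻¹ = (y : N)⁻¹
    rw [hbM]
    exact hgb y hy
  · intro g
    obtain ⟨k, hk⟩ := hLr ⟨((g : M) : N), hcl1 g g.2⟩
    refine ⟨k, ?_⟩
    apply Subtype.ext
    apply Subtype.ext
    have := congrArg Subtype.val hk
    simpa using this
  · intro y hy
    have hk : ∀ (k : ℕ), ∀ y ∈ L₁, t ^ k * y * (t ^ k)⁻¹ ∈ L₁ := by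
      intro k
      induction k with
      | zero => intro y hy; simpa using hy
      | succ k ih =>
        intro y hy
        have := hLt _ (ih y hy)
        have e : t ^ (k + 1) * y * (t ^ (k + 1))⁻¹ = t * (t ^ k * y * (t ^ k)⁻¹) * t⁻¹ := by
          rw [pow_succ']; group
        rw [e]; exact this
    exact hcl2 _ (hk _ _ (hcl1 y hy)) (t'M * y * t'M⁻¹).2
  · intro H hH
    apply hgenK
    intro y hy x c hc
    have h1 := hH ⟨y, hLM hy⟩ (hcl2 y hy _) x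
    have h2 : c = φ ⟨y, hLM hy⟩ x * x⁻¹ := by
      apply Subtype.ext
      rw [hc]
      rfl
    rw [h2]; exact h1
  · intro hne
    simp_rw [e1] at hne ⊢
    simp_rw [e2]
    obtain ⟨-, a2, a3⟩ := himp hne
    exact ⟨a2, a3⟩

end Cfsg.Agent.Lib.Helper79.HW
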