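import Mathlib
import Cfsg.Agent.Lib.Helper79.GTower

/-! # The tower theorem -/

set_option autoImplicit false

namespace Cfsg.Agent.Lib.Helper79.HW

open Module Function

universe u v w

variable {F : Type u} [Field F] {N : Type w} [Group N]

theorem pow_conj_mem (H : Subgroup N) (t : N) (h : ∀ x ∈ H, t * x * t⁻¹ ∈ H) (k : ℕ) :
    ∀ y ∈ H, t ^ k * y * (t ^ k)⁻¹ ∈ H := by
  induction k with
  | zero => intro y hy; simpa using hy
  | succ k ih =>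
    intro y hy
    have := h _ (ih y hy)
    have e : t ^ (k + 1) * y * (t ^ (k + 1))⁻¹ = t * (t ^ k * y * (t ^ k)⁻¹) * t⁻¹ := by
      rw [pow_succ']; group
    rw [e]; exact this

set_option maxHeartbeats 800000 in
theorem tower [Finite N] [IsAlgClosed F] {W : Type v} [AddCommGroup W] [Module F W]
    [FiniteDimensional F W] (ρ : N →* Module.End F W) (hρ : ∀ x, ρ x = 1 → x = 1) (t : N) (q r n : ℕ)
    (hq : q.Prime) (hq2 : q ≠ 2) (hr : r.Prime) (hr2 : r ≠ 2) (hqr : q ≠ r) (hn : 0 < n)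
    (ht : t ^ (2 ^ n) = 1) (hqF : (q : F) ≠ 0) (h2F : (2 : F) ≠ 0)
    (hfix : ∀ y : W, ρ t y = y → y = 0)
    (U L : Subgroup N) (hU : IsPGroup q U) (hL : IsPGroup r L)
    (hUt : ∀ x ∈ U, t * x * t⁻¹ ∈ U) (hLt : ∀ x ∈ L, t * x * t⁻¹ ∈ L)
    (hLU : ∀ g ∈ L, ∀ x ∈ U, g * x * g⁻¹ ∈ U) :
    ∀ x ∈ L, ∀ u ∈ U, (x⁻¹ * t ^ (2 ^ (n - 1)) * x * (t ^ (2 ^ (n - 1)))⁻¹) * u
      = u * (x⁻¹ * t ^ (2 ^ (n - 1)) * x * (t ^ (2 ^ (n - 1)))⁻¹) := by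
  classical
  haveI : Fact q.Prime := ⟨hq⟩
  set b := t ^ (2 ^ (n - 1)) with hb
  have hbb : b * b = 1 := by
    rw [hb, ← pow_add]
    have : 2 ^ (n - 1) + 2 ^ (n - 1) = 2 ^ n := by
      obtain ⟨n', rfl⟩ : ∃ n', n = n' + 1 := ⟨n - 1, by omega⟩
      rw [Nat.add_sub_cancel, pow_succ]; ring
    rw [this, ht]
  have hbinv : b⁻¹ = b := inv_eq_of_mul_eq_one_left hbb
  have hbt : t * b = b * t := by rw [hb, ← pow_succ', ← pow_succ]
  have hLb : ∀ x ∈ L, b * x * b⁻¹ ∈ L := pow_conj_mem L t hLt _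
  let gens : Set N := {y | ∃ x ∈ L, y = x⁻¹ * b * x * b⁻¹}
  set L₁ := Subgroup.closure gens with hL₁
  have hL₁L : L₁ ≤ L := by
    rw [hL₁, Subgroup.closure_le]
    rintro _ ⟨x, hx, rfl⟩
    have : x⁻¹ * b * x * b⁻¹ = x⁻¹ * (b * x * b⁻¹) := by group
    rw [SetLike.mem_coe, this]
    exact L.mul_mem (L.inv_mem hx) (hLb x hx)
  have hgb : ∀ y ∈ gens, b * y * b⁻¹ = y⁻¹ := by
    rintro _ ⟨x, hx, rfl⟩
    rw [hbinv]
    have e1 : (x⁻¹ * b * x * b)⁻¹ = b⁻¹ * x⁻¹ * b⁻¹ * x := by group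
    rw [e1, hbinv]
    calc b * (x⁻¹ * b * x * b) * b = b * x⁻¹ * b * x * (b * b) := by group
      _ = b * x⁻¹ * b * x := by rw [hbb, mul_one]
  have hL₁norm : ∀ g ∈ L, ∀ y ∈ L₁, g * y * g⁻¹ ∈ L₁ := by
    intro g hg
    have h1 : L₁ ≤ L₁.comap (MulAut.conj g).toMonoidHom := by
      conv_lhs => rw [hL₁]
      rw [Subgroup.closure_le]
      rintro _ ⟨x, hx, rfl⟩
      show g * (x⁻¹ * b * x * b⁻¹) * g⁻¹ ∈ L₁
      have e : g * (x⁻¹ * b * x * b⁻¹) * g⁻¹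
          = ((x * g⁻¹)⁻¹ * b * (x * g⁻¹) * b⁻¹) * ((g⁻¹)⁻¹ * b * g⁻¹ * b⁻¹)⁻¹ := by group
      rw [e]
      exact L₁.mul_mem (Subgroup.subset_closure ⟨x * g⁻¹, L.mul_mem hx (L.inv_mem hg), rfl⟩)
        (L₁.inv_mem (Subgroup.subset_closure ⟨g⁻¹, L.inv_mem hg, rfl⟩))
    intro y hy
    exact h1 hy
  have hL₁t : ∀ y ∈ L₁, t * y * t⁻¹ ∈ L₁ := by
    have h1 : L₁ ≤ L₁.comap (MulAut.conj t).toMonoidHom := by
      conv_lhs => rw [hL₁]
      rw [Subgroup.closure_le]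
      rintro _ ⟨x, hx, rfl⟩
      show t * (x⁻¹ * b * x * b⁻¹) * t⁻¹ ∈ L₁
      have e : t * (x⁻¹ * b * x * b⁻¹) * t⁻¹ = (t * x * t⁻¹)⁻¹ * b * (t * x * t⁻¹) * b⁻¹ := by
        have e1 : t⁻¹ * b * t = b := by rw [mul_assoc, ← hbt]; group
        have e2 : t⁻¹ * b⁻¹ = b⁻¹ * t⁻¹ := by rw [← mul_inv_rev, ← mul_inv_rev, hbt]
        calc t * (x⁻¹ * b * x * b⁻¹) * t⁻¹ = t * x⁻¹ * b * x * (b⁻¹ * t⁻¹) := by group
          _ = t * x⁻¹ * (t⁻¹ * b * t) * x * (t⁻¹ * b⁻¹) := by rw [e1, e2]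
          _ = (t * x * t⁻¹)⁻¹ * b * (t * x * t⁻¹) * b⁻¹ := by group
      rw [e]
      exact Subgroup.subset_closure ⟨t * x * t⁻¹, hLt x hx, rfl⟩
    intro y hy
    exact h1 hy
  by_contra hcon
  push Not at hcon
  obtain ⟨x0, hx0, u0, hu0, hne0⟩ := hcon
  let 𝒮 : Set (Subgroup N) := {K | K ≤ U ∧ (∀ x ∈ K, t * x * t⁻¹ ∈ K) ∧
    (∀ g ∈ L, ∀ x ∈ K, g * x * g⁻¹ ∈ K) ∧ ∃ y ∈ L₁, ∃ x ∈ K, y * x ≠ x * y}
  have hne : 𝒮.Nonempty := ⟨U, le_refl _, hUt, hLU, _, Subgroup.subset_closure ⟨x0, hx0, rfl⟩, u0, hu0, hne0⟩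
  obtain ⟨K, ⟨hKU, hKt, hKL, yK, hyK, xK, hxK, hneK⟩, hKmin⟩ :=
    WellFounded.has_min (wellFounded_lt (α := Subgroup N)) 𝒮 hne
  have hKq : IsPGroup q K := hU.to_le hKU
  have hKt' := conj_mem_iff t K hKt
  have hLK : ∀ y ∈ L₁, ∀ x, x ∈ K ↔ y * x * y⁻¹ ∈ K := fun y hy => conj_mem_iff y K (hKL y (hL₁L hy))
  have hmin' : ∀ H : Subgroup N, H ≤ K → H ≠ K → (∀ x ∈ H, t * x * t⁻¹ ∈ H) →
      (∀ g ∈ L, ∀ x ∈ H, g * x * g⁻¹ ∈ H) → ∀ y ∈ L₁, ∀ x ∈ H, y * x = x * y := by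
    intro H hHK hHne h1 h2
    by_contra hc
    push Not at hc
    obtain ⟨y, hy, x, hx, hxy⟩ := hc
    exact hKmin H ⟨hHK.trans hKU, h1, h2, y, hy, x, hx, hxy⟩ (lt_of_le_of_ne hHK hHne)
  let cgens : Set N := {c | ∃ y ∈ L₁, ∃ x ∈ K, c = y * x * y⁻¹ * x⁻¹}
  set K₁ := Subgroup.closure cgens with hK₁
  have hK₁K : K₁ ≤ K := by
    rw [hK₁, Subgroup.closure_le]
    rintro _ ⟨y, hy, x, hx, rfl⟩
    exact K.mul_mem ((hLK y hy x).mp hx) (K.inv_mem hx)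
  have hK₁inv : ∀ g : N, (∀ y ∈ L₁, g * y * g⁻¹ ∈ L₁) → (∀ x ∈ K, g * x * g⁻¹ ∈ K) →
      ∀ c ∈ K₁, g * c * g⁻¹ ∈ K₁ := by
    intro g h1 h2
    have h3 : K₁ ≤ K₁.comap (MulAut.conj g).toMonoidHom := by
      conv_lhs => rw [hK₁]
      rw [Subgroup.closure_le]
      rintro _ ⟨y, hy, x, hx, rfl⟩
      show g * (y * x * y⁻¹ * x⁻¹) * g⁻¹ ∈ K₁
      have e : g * (y * x * y⁻¹ * x⁻¹) * g⁻¹
          = (g * y * g⁻¹) * (g * x * g⁻¹) * (g * y * g⁻¹)⁻¹ * (g * x * g⁻¹)⁻¹ := by group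
      rw [e]
      exact Subgroup.subset_closure ⟨_, h1 y hy, _, h2 x hx, rfl⟩
    intro c hc
    exact h3 hc
  have hK₁eq : K₁ = K := by
    by_contra hne'
    have hcent := hmin' K₁ hK₁K hne' (hK₁inv t hL₁t hKt)
      (fun g hg => hK₁inv g (hL₁norm g hg) (hKL g hg))
    apply hneK
    set c := yK * xK * yK⁻¹ * xK⁻¹ with hc
    have hcK₁ : c ∈ K₁ := Subgroup.subset_closure ⟨yK, hyK, xK, hxK, rfl⟩
    have hyc : Commute yK c := hcent yK hyK c hcK₁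
    have hpow : ∀ k : ℕ, yK ^ k * xK * (yK ^ k)⁻¹ = c ^ k * xK := by
      intro k
      induction k with
      | zero => simp
      | succ k ih =>
        have e : yK ^ (k + 1) * xK * (yK ^ (k + 1))⁻¹ = yK * (yK ^ k * xK * (yK ^ k)⁻¹) * yK⁻¹ := by
          rw [pow_succ']; group
        rw [e, ih, ← mul_assoc, (hyc.pow_right k).eq, pow_succ, hc]
        group
    obtain ⟨k, hk⟩ := hL ⟨yK, hL₁L hyK⟩
    have hk' : yK ^ (r ^ k) = 1 := by simpa using congrArg Subtype.val hk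
    have h1 := hpow (r ^ k)
    rw [hk'] at h1
    have h2 : c ^ (r ^ k) = 1 := by
      have : xK = c ^ (r ^ k) * xK := by simpa using h1
      exact (mul_eq_right.mp this.symm)
    obtain ⟨k', hk2⟩ := hKq ⟨c, hK₁K hcK₁⟩
    have hk2' : c ^ (q ^ k') = 1 := by simpa using congrArg Subtype.val hk2
    have h3 : c = 1 := eq_one_of_pow_coprime c (r ^ k) (q ^ k')
      (Nat.Coprime.pow _ _ ((Nat.coprime_primes hr hq).mpr (fun h => hqr h.symm))) h2 hk2'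
    calc yK * xK = (yK * xK * yK⁻¹ * xK⁻¹) * (xK * yK) := by group
      _ = xK * yK := by rw [← hc, h3, one_mul]
  set Z : Subgroup K := commutator K with hZ
  have hZc : Z.Characteristic := by rw [hZ]; infer_instance
  have hZn : Z.Normal := by rw [hZ]; infer_instance
  set ZN : Subgroup N := Z.map K.subtype with hZN
  have hZNK : ZN ≤ K := Subgroup.map_subtype_le Z
  haveI : Nontrivial K := by
    refine ⟨⟨xK, hxK⟩, 1, ?_⟩
    intro h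
    have : xK = 1 := congrArg Subtype.val h
    apply hneK
    rw [this]; simp
  haveI : Group.IsNilpotent K := hKq.isNilpotent
  have hZlt : Z < ⊤ := Group.IsSolvable.commutator_lt_top_of_nontrivial K
  have hZNne : ZN ≠ K := by
    intro h
    apply hZlt.ne
    rw [eq_top_iff]
    intro x _
    have : (x : N) ∈ ZN := by rw [h]; exact x.2
    obtain ⟨z, hz, hzx⟩ := this
    have : z = x := Subtype.ext hzx
    rwa [← this]
  have hZNinv : ∀ g : N, (∀ x ∈ K, g * x * g⁻¹ ∈ K) → ∀ z ∈ ZN, g * z * g⁻¹ ∈ ZN := by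
    rintro g hg _ ⟨z, hz, rfl⟩
    exact ⟨conjOn g K (conj_mem_iff g K hg) z, (char_mem_iff hZc _ z).mpr hz, rfl⟩
  have hLZ0 := hmin' ZN hZNK hZNne (hZNinv t hKt) (fun g hg => hZNinv g (hKL g hg))
  have hLZ : ∀ y ∈ L₁, ∀ z ∈ Z, y * (z : N) = z * y := fun y hy z hz => hLZ0 y hy z ⟨z, hz, rfl⟩
  have hcentral : ∀ z ∈ Z, ∀ x : K, z * x = x * z := by
    intro z hz x
    have h1 : K₁ ≤ Subgroup.centralizer {(z : N)} := by
      rw [hK₁, Subgroup.closure_le]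
      rintro _ ⟨y, hy, x', hx', rfl⟩
      rw [SetLike.mem_coe, Subgroup.mem_centralizer_singleton_iff]
      have hz' : (⟨x', hx'⟩ : K)⁻¹ * z * (⟨x', hx'⟩ : K)⁻¹⁻¹ ∈ Z := hZn.conj_mem z hz _
      have a1 := hLZ y hy _ hz'
      have a2 := hLZ y hy z hz
      simp only [Subgroup.coe_mul, InvMemClass.coe_inv, inv_inv] at a1
      set z' := x'⁻¹ * (z : N) * x' with hz'def
      have b1 : x'⁻¹ * (z : N) = z' * x'⁻¹ := by rw [hz'def]; group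
      have b2 : y⁻¹ * z' = z' * y⁻¹ := by
        calc y⁻¹ * z' = y⁻¹ * (z' * y) * y⁻¹ := by group
          _ = y⁻¹ * (y * z') * y⁻¹ := by rw [a1]
          _ = z' * y⁻¹ := by group
      have b3 : x' * z' = (z : N) * x' := by rw [hz'def]; group
      calc y * x' * y⁻¹ * x'⁻¹ * (z : N) = y * x' * y⁻¹ * (x'⁻¹ * (z : N)) := by group
        _ = y * x' * (y⁻¹ * z') * x'⁻¹ := by rw [b1]; group
        _ = y * (x' * z') * y⁻¹ * x'⁻¹ := by rw [b2]; group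
        _ = (y * (z : N)) * x' * y⁻¹ * x'⁻¹ := by rw [b3]; group
        _ = (z : N) * (y * x' * y⁻¹ * x'⁻¹) := by rw [a2]; group
    have h2 : (x : N) ∈ K₁ := by rw [hK₁eq]; exact x.2
    have h3 := h1 h2
    rw [Subgroup.mem_centralizer_singleton_iff] at h3
    exact Subtype.ext h3.symm
  have hgenK : ∀ H : Subgroup K, (∀ y ∈ L₁, ∀ x : K, ∀ c : K,
       (c : N) = y * x * y⁻¹ * (x : N)⁻¹ → c ∈ H) → H = ⊤ := by
    intro H hH
    have h1 : K₁ ≤ H.map K.subtype := by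
      rw [hK₁, Subgroup.closure_le]
      rintro _ ⟨y, hy, x, hx, rfl⟩
      have hcK : y * x * y⁻¹ * x⁻¹ ∈ K := hK₁K (Subgroup.subset_closure ⟨y, hy, x, hx, rfl⟩)
      exact ⟨⟨_, hcK⟩, hH y hy ⟨x, hx⟩ ⟨_, hcK⟩ rfl, rfl⟩
    rw [eq_top_iff]
    intro x _
    have h2 : (x : N) ∈ K₁ := by rw [hK₁eq]; exact x.2
    obtain ⟨x', hx', hxx⟩ := h1 h2
    have : x' = x := Subtype.ext hxx
    rwa [← this]
  obtain ⟨x₁, y₁, hz⟩ : ∃ x₁ y₁ : K, x₁ * y₁ * x₁⁻¹ * y₁⁻¹ ≠ 1 := by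
    by_contra hc
    push Not at hc
    have habel : ∀ x ∈ K, ∀ y ∈ K, x * y = y * x := by
      intro x hx y hy
      have h1 := congrArg Subtype.val (hc ⟨x, hx⟩ ⟨y, hy⟩)
      simp only [Subgroup.coe_mul, InvMemClass.coe_inv, OneMemClass.coe_one] at h1
      calc x * y = (x * y * x⁻¹ * y⁻¹) * (y * x) := by group
        _ = y * x := by rw [h1, one_mul]
    have hbK := abel_cent ρ hρ t q n hq hq2 hn ht K hKq hKt hqF h2F habel hfix
    have h1 : L₁ ≤ Subgroup.centralizer (K : Set N) := by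
      rw [hL₁, Subgroup.closure_le]
      rintro _ ⟨g, hg, rfl⟩
      rw [SetLike.mem_coe, Subgroup.mem_centralizer_iff]
      intro x hx
      have c1 : b * x = x * b := hbK x hx
      have c2 : b * (g * x * g⁻¹) = (g * x * g⁻¹) * b := hbK _ (hKL g hg x hx)
      have c3 : b⁻¹ * x = x * b⁻¹ := by
        calc b⁻¹ * x = b⁻¹ * (x * b) * b⁻¹ := by group
          _ = b⁻¹ * (b * x) * b⁻¹ := by rw [c1]
          _ = x * b⁻¹ := by group
      symm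
      calc g⁻¹ * b * g * b⁻¹ * x = g⁻¹ * b * g * (b⁻¹ * x) := by group
        _ = g⁻¹ * (b * (g * x * g⁻¹)) * g * b⁻¹ := by rw [c3]; group
        _ = x * (g⁻¹ * b * g * b⁻¹) := by rw [c2]; group
    apply hneK
    have := h1 hyK
    rw [Subgroup.mem_centralizer_iff] at this
    exact (this xK hxK).symm
  exact tower_core ρ hρ t q r n hq hq2 hr hr2 hqr ht hqF h2F hfix K hKq hKt' gens hgb hLK
    (hL.to_le hL₁L) hL₁t hLZ hcentral hgenK x₁ y₁ hz (AlgebraicClosure (ZMod q))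

end Cfsg.Agent.Lib.Helper79.HW
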