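import Mathlib

/-! # Invariant Sylow subgroups under coprime action of a cyclic `r`-group -/

set_option autoImplicit false

namespace Cfsg.Agent.Lib.Helper79.HW

open scoped Pointwise

theorem exists_invariant_sylow {K : Type*} [Group K] [Finite K] (φ : MulAut K) (r k : ℕ) (hr : r.Prime)
    (hφ : φ ^ (r ^ k) = 1) (hcop : ¬ r ∣ Nat.card K) (q : ℕ) [Fact q.Prime] :
    ∃ P : Sylow q K, ∀ x ∈ P, φ x ∈ P := by
  haveI : Fact r.Prime := ⟨hr⟩
  have hP : IsPGroup r (Subgroup.zpowers φ) := by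
    obtain ⟨j, -, hj⟩ := (Nat.dvd_prime_pow hr).mp (orderOf_dvd_of_pow_eq_one hφ)
    exact IsPGroup.of_card (n := j) (by rw [Nat.card_zpowers, hj])
  have hnd : ¬ r ∣ Nat.card (Sylow q K) := by
    intro h
    obtain ⟨P⟩ : Nonempty (Sylow q K) := inferInstance
    exact hcop ((h.trans (Sylow.card_dvd_index P)).trans (Subgroup.index_dvd_card _))
  obtain ⟨P, hPfix⟩ := hP.nonempty_fixed_point_of_prime_not_dvd_card (Sylow q K) hnd
  refine ⟨P, fun x hx => ?_⟩
  have h1 := hPfix ⟨φ, Subgroup.mem_zpowers φ⟩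
  have h2 : (⟨φ, Subgroup.mem_zpowers φ⟩ : Subgroup.zpowers φ) • x ∈
      ((⟨φ, Subgroup.mem_zpowers φ⟩ : Subgroup.zpowers φ) • (P : Subgroup K)) :=
    Subgroup.smul_mem_pointwise_smul x _ _ hx
  have h3 : ((⟨φ, Subgroup.mem_zpowers φ⟩ : Subgroup.zpowers φ) • (P : Subgroup K)) = P :=
    congrArg (fun Q : Sylow q K => (Q : Subgroup K)) h1
  rw [h3] at h2
  exact h2

end Cfsg.Agent.Lib.Helper79.HW
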