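import Mathlib
import Cfsg.Agent.Lib.Helper79.GFit
import Cfsg.Agent.Lib.Helper79.GTower2
import Cfsg.Agent.Lib.Helper79.HCoprime

/-! # Gross: the step inside `Aut V` -/

set_option autoImplicit false

namespace Cfsg.Agent.Lib.Helper79.HW

open Cfsg

universe u

theorem autV_fit {V : Type u} [Group V] [Finite V] [Nontrivial V] (ℓ n : ℕ) (hℓ : ℓ.Prime) (hℓ2 : ℓ ≠ 2)
    (hcomm : ∀ a b : V, a * b = b * a) (hexp : ∀ a : V, a ^ ℓ = 1) (t : MulAut V) (hn : 0 < n)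
    (ht : t ^ (2 ^ n) = 1) (hV : ∀ v, t v = v → v = 1)
    (Γ : Subgroup (MulAut V)) (hΓ : ∀ x, x ∈ Γ ↔ t * x * t⁻¹ ∈ Γ)
    (hfpf : ∀ x ∈ Γ, t * x = x * t → x = 1)
    (hirr : ∀ M : Subgroup V, (∀ x ∈ Γ, ∀ v ∈ M, x v ∈ M) → (∀ v ∈ M, t v ∈ M) → M ≠ ⊥ → M = ⊤)
    [hFn : (fittingSubgroup Γ).Normal]
    (hIH : ∀ x : Γ, ((x⁻¹ * ((conjOn t Γ hΓ) ^ (2 ^ (n - 1))) x : Γ) : Γ ⧸ fittingSubgroup Γ) ∈
      fittingSubgroup (Γ ⧸ fittingSubgroup Γ)) :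
    ∀ x : Γ, x⁻¹ * ((conjOn t Γ hΓ) ^ (2 ^ (n - 1))) x ∈ fittingSubgroup Γ := by
  haveI : Fact ℓ.Prime := ⟨hℓ⟩
  set σ := conjOn t Γ hΓ with hσ
  set b := t ^ (2 ^ (n - 1)) with hb
  have hσfpf : ∀ x : Γ, σ x = x → x = 1 := by
    intro x hx
    have h1 := congrArg Subtype.val hx
    rw [conjOn_apply] at h1
    have h2 : t * (x : MulAut V) = x * t := by
      calc t * (x : MulAut V) = (t * x * t⁻¹) * t := by group
        _ = x * t := by rw [h1]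
    exact Subtype.ext (hfpf x x.2 h2)
  have hσpow : σ ^ (2 ^ n) = 1 := by
    ext1 x
    apply Subtype.ext
    rw [conjOn_pow_apply, ht]; simp
  have hcop : (Nat.card Γ).Coprime 2 := fpf_coprime σ 2 n Nat.prime_two hσpow hσfpf
  have hodd : Odd (Nat.card Γ) := Nat.coprime_two_right.mp hcop
  have h2nd : ¬ 2 ∣ Nat.card Γ := by
    intro h
    exact (Nat.not_even_iff_odd.mpr hodd) (even_iff_two_dvd.mpr h)
  set β := σ ^ (2 ^ (n - 1)) with hβ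
  have hβapp : ∀ x : Γ, ((β x : Γ) : MulAut V) = b * x * b⁻¹ := fun x => conjOn_pow_apply t Γ hΓ _ x
  have hββ : ∀ x, β (β x) = x := by
    intro x
    rw [← MulAut.mul_apply, hβ, ← pow_add]
    have : 2 ^ (n - 1) + 2 ^ (n - 1) = 2 ^ n := by
      obtain ⟨n', rfl⟩ : ∃ n', n = n' + 1 := ⟨n - 1, by omega⟩
      rw [Nat.add_sub_cancel, pow_succ]; ring
    rw [this, hσpow]; rfl
  apply key_fit hodd β hββ hIH
  intro r hrF
  have hr : r.Prime := hrF.out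
  obtain ⟨P, hP⟩ := exists_invariant_sylow σ 2 n Nat.prime_two hσpow h2nd r
  refine ⟨P, ?_⟩
  intro x hx q hqr u hu
  by_cases hq2 : (q : ℕ) = 2
  · have h1 : pCore (q : ℕ) Γ = ⊥ := by
      apply Cfsg.Agent.Lib.Helper1.pCore_eq_bot_of_not_dvd q.2
      rw [hq2]; exact h2nd
    rw [h1, Subgroup.mem_bot] at hu
    rw [hu]; simp
  by_cases hqℓ : (q : ℕ) = ℓ
  · have h1 : pCore (q : ℕ) Γ = ⊥ := by
      rw [hqℓ]
      exact autV_core_l ℓ hℓ hexp t Γ hΓ hirr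
    rw [h1, Subgroup.mem_bot] at hu
    rw [hu]; simp
  by_cases hr2 : r = 2
  · have hx1 : x = 1 := by
      obtain ⟨k, hk⟩ := P.isPGroup' ⟨x, hx⟩
      have hk' : x ^ (r ^ k) = 1 := by simpa using congrArg Subtype.val hk
      rw [hr2] at hk'
      exact eq_one_of_pow_coprime x (2 ^ k) (Nat.card Γ) (Nat.Coprime.pow_left k hcop.symm) hk'
        pow_card_eq_one'
    rw [hx1]; simp
  have hPc : (pCore (q : ℕ) Γ).Characteristic := Cfsg.Agent.Lib.Helper28.pCore_characteristic _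
  have hPn : (pCore (q : ℕ) Γ).Normal := Cfsg.Agent.Lib.Helper1.pCore_normal _ _
  have h2F : (2 : AlgebraicClosure (ZMod ℓ)) ≠ 0 := by
    have := cast_prime_ne_zero (AlgebraicClosure (ZMod ℓ)) ℓ 2 hℓ Nat.prime_two (fun h => hℓ2 h.symm)
    exact_mod_cast this
  have key := tower (F := AlgebraicClosure (ZMod ℓ))
    (homRep (AlgebraicClosure (ZMod ℓ)) (MonoidHom.id (MulAut V)))
    (fun x hx => (homRep_eq_one_iff ℓ hcomm hexp _ x).mp hx) t q r n q.2 hq2 hr hr2 hqr hn ht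
    (cast_prime_ne_zero _ ℓ q hℓ q.2 hqℓ) h2F
    (by
      intro f hf
      by_contra hf0
      obtain ⟨v, hv, htv⟩ := exists_fixed_of_fixed hcomm _ t f hf0 hf
      exact hv (hV v htv))
    ((pCore (q : ℕ) Γ).map Γ.subtype) ((P : Subgroup Γ).map Γ.subtype)
    ((Cfsg.Agent.Lib.Helper1.pCore_isPGroup _ Γ).map _) (P.isPGroup'.map _)
    (by
      rintro _ ⟨z, hz, rfl⟩
      exact ⟨σ z, (char_mem_iff hPc σ z).mpr hz, rfl⟩)
    (by
      rintro _ ⟨z, hz, rfl⟩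
      exact ⟨σ z, hP z hz, rfl⟩)
    (by
      rintro _ ⟨g, hg, rfl⟩ _ ⟨z, hz, rfl⟩
      exact ⟨g * z * g⁻¹, hPn.conj_mem z hz g, rfl⟩)
    x ⟨x, hx, rfl⟩ u ⟨u, hu, rfl⟩
  apply Subtype.ext
  simp only [Subgroup.coe_mul, InvMemClass.coe_inv, hβapp]
  have e : (x : MulAut V)⁻¹ * (b * x * b⁻¹) = (x : MulAut V)⁻¹ * b * x * b⁻¹ := by group
  rw [e]
  exact key

end Cfsg.Agent.Lib.Helper79.HW
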