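import Mathlib

/-! # Minimal invariant normal subgroups of solvable groups are elementary abelian -/

set_option autoImplicit false

namespace Cfsg.Agent.Lib.Helper79.HW

universe u

variable {G : Type u} [Group G]

open scoped commutatorElement

theorem exists_min_inv [Finite G] [Nontrivial G] (hG : Group.IsSolvable G) (σ : MulAut G) :
    ∃ (V : Subgroup G) (ℓ : ℕ), V.Normal ∧ (∀ x ∈ V, σ x ∈ V) ∧ V ≠ ⊥ ∧ ℓ.Prime ∧
      (∀ a ∈ V, ∀ b ∈ V, a * b = b * a) ∧ (∀ a ∈ V, a ^ ℓ = 1) ∧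
      ∀ M : Subgroup G, M.Normal → (∀ x ∈ M, σ x ∈ M) → M ≤ V → M ≠ ⊥ → M = V := by
  let 𝒮 : Set (Subgroup G) := {M | M.Normal ∧ (∀ x ∈ M, σ x ∈ M) ∧ M ≠ ⊥}
  have hne : 𝒮.Nonempty := ⟨⊤, inferInstance, fun _ _ => Subgroup.mem_top _, top_ne_bot⟩
  obtain ⟨V, ⟨hVn, hVσ, hVbot⟩, hVmin⟩ := WellFounded.has_min (wellFounded_lt (α := Subgroup G)) 𝒮 hne
  have hmin : ∀ M : Subgroup G, M.Normal → (∀ x ∈ M, σ x ∈ M) → M ≤ V → M ≠ ⊥ → M = V := by
    intro M h1 h2 h3 h4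
    by_contra hne
    exact hVmin M ⟨h1, h2, h4⟩ (lt_of_le_of_ne h3 hne)
  -- abelian
  have hcomm0 : ⁅V, V⁆ = ⊥ := by
    by_contra hne
    have h1 : ⁅V, V⁆ = V := by
      refine hmin _ inferInstance ?_ (Subgroup.commutator_le_left V V) hne
      intro x hx
      have h2 : σ x ∈ (⁅V, V⁆).map σ.toMonoidHom := ⟨x, hx, rfl⟩
      rw [Subgroup.map_commutator] at h2
      have h3 : V.map σ.toMonoidHom ≤ V := by
        rintro _ ⟨y, hy, rfl⟩
        exact hVσ y hy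
      exact Subgroup.commutator_mono h3 h3 h2
    obtain ⟨k, hk⟩ := hG.solvable
    have h2 : ∀ k, V ≤ derivedSeries G k := by
      intro k
      induction k with
      | zero => simp
      | succ k ih =>
        rw [derivedSeries_succ]
        calc V = ⁅V, V⁆ := h1.symm
          _ ≤ _ := Subgroup.commutator_mono ih ih
    apply hVbot
    rw [eq_bot_iff, ← hk]
    exact h2 k
  have hcomm : ∀ a ∈ V, ∀ b ∈ V, a * b = b * a := by
    intro a ha b hb
    have h1 : ⁅a, b⁆ ∈ ⁅V, V⁆ := Subgroup.commutator_mem_commutator ha hb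
    rw [hcomm0, Subgroup.mem_bot, commutatorElement_eq_one_iff_mul_comm] at h1
    exact h1
  -- a prime
  haveI : Nontrivial V := (Subgroup.nontrivial_iff_ne_bot V).mpr hVbot
  have hcard : Nat.card V ≠ 1 := by
    have := Finite.one_lt_card_iff_nontrivial.mpr this
    omega
  obtain ⟨ℓ, hℓ, hℓdvd⟩ := Nat.exists_prime_and_dvd hcard
  haveI : Fact ℓ.Prime := ⟨hℓ⟩
  obtain ⟨v, hv⟩ := exists_prime_orderOf_dvd_card' (G := V) ℓ hℓdvd
  let Ω : Subgroup G :=
    { carrier := {x | x ∈ V ∧ x ^ ℓ = 1}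
      mul_mem' := by
        rintro a b ⟨ha, ha'⟩ ⟨hb, hb'⟩
        refine ⟨mul_mem ha hb, ?_⟩
        rw [(show Commute a b from hcomm a ha b hb).mul_pow, ha', hb', one_mul]
      one_mem' := ⟨one_mem _, one_pow _⟩
      inv_mem' := by
        rintro a ⟨ha, ha'⟩
        exact ⟨inv_mem ha, by rw [inv_pow, ha', inv_one]⟩ }
  have hΩ : Ω = V := by
    refine hmin Ω ⟨?_⟩ ?_ (fun x hx => hx.1) ?_
    · rintro x ⟨hx, hx'⟩ g
      refine ⟨hVn.conj_mem x hx g, ?_⟩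
      rw [conj_pow, hx']; simp
    · rintro x ⟨hx, hx'⟩
      exact ⟨hVσ x hx, by rw [← map_pow, hx', map_one]⟩
    · intro hbot
      have h1 : (v : G) ∈ Ω := ⟨v.2, by
        have := pow_orderOf_eq_one v
        rw [hv] at this
        exact congrArg Subtype.val this⟩
      rw [hbot, Subgroup.mem_bot] at h1
      have h2 : v = 1 := Subtype.ext h1
      rw [h2, orderOf_one] at hv
      exact hℓ.one_lt.ne hv
  refine ⟨V, ℓ, hVn, hVσ, hVbot, hℓ, hcomm, ?_, hmin⟩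
  intro a ha
  rw [← hΩ] at ha
  exact ha.2

end Cfsg.Agent.Lib.Helper79.HW
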