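import Mathlib
import Cfsg.Agent.Lib.Helper79.HShultA
import Cfsg.Agent.Lib.Helper79.HMinInv

/-! # Shult–Gross: `[G, σ^(p^(n-1))] ≤ F(G)` -/

set_option autoImplicit false

namespace Cfsg.Agent.Lib.Helper79.HW

open Cfsg

universe u

theorem shult_key (p : ℕ) (hp : p.Prime) (hp2 : p ≠ 2) (n : ℕ) (hn : 0 < n) :
    ∀ (c : ℕ) (G : Type u) [Group G] [Finite G], Nat.card G = c → Group.IsSolvable G →
      ∀ σ : MulAut G, σ ^ (p ^ n) = 1 → (∀ g, σ g = g → g = 1) →
      ∀ x, x⁻¹ * (σ ^ (p ^ (n - 1))) x ∈ fittingSubgroup G := by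
  intro c
  induction c using Nat.strong_induction_on with
  | _ c ih =>
  intro G _ _ hc hG σ hσ hfpf x
  by_cases hnt : Nontrivial G
  swap
  · rw [not_nontrivial_iff_subsingleton] at hnt
    rw [Subsingleton.elim (x⁻¹ * (σ ^ (p ^ (n - 1))) x) 1]
    exact one_mem _
  obtain ⟨V, ℓ, hVn, hVσ, hVbot, hℓ, hVcomm, hVexp, hVmin⟩ := exists_min_inv hG σ
  haveI := hVn
  have hVσ' := aut_mem_iff σ V hVσ
  have hcopG := fpf_coprime σ p n hp hσ hfpf
  haveI hVnt : Nontrivial V := (Subgroup.nontrivial_iff_ne_bot V).mpr hVbot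
  have hcardV : 1 < Nat.card V := Finite.one_lt_card
  -- the quotient
  have hq1 : Nat.card (G ⧸ V) < c := by
    have h1 := Subgroup.card_eq_card_quotient_mul_card_subgroup V
    have h2 : 0 < Nat.card (G ⧸ V) := Nat.card_pos
    rw [← hc, h1]
    nlinarith
  have IH1 := ih _ hq1 (G ⧸ V) rfl inferInstance (quotAut σ V hVσ')
    (by
      ext1 y
      obtain ⟨y, rfl⟩ := QuotientGroup.mk_surjective y
      rw [quotAut_pow_mk, hσ]; rfl)
    (quotAut_fpf σ hfpf V hVσ')
  -- the image in `Aut V`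
  let cj : G →* MulAut V := MulAut.conjNormal
  let t : MulAut V := resAut σ V hVσ'
  have hcj : ∀ g (v : V), ((cj g v : V) : G) = g * v * g⁻¹ := fun g v => MulAut.conjNormal_apply g v
  have htcj' : ∀ g, t * cj g = cj (σ g) * t := by
    intro g
    ext v
    rw [MulAut.mul_apply, MulAut.mul_apply, resAut_apply, hcj, hcj, resAut_apply]
    simp
  have htcj : ∀ g, t * cj g * t⁻¹ = cj (σ g) := by
    intro g
    rw [htcj']; group
  have htk : ∀ (k : ℕ) g, t ^ k * cj g = cj ((σ ^ k) g) * t ^ k := by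
    intro k
    induction k with
    | zero => intro g; simp
    | succ k ih' =>
      intro g
      rw [pow_succ', mul_assoc, ih', ← mul_assoc, htcj', mul_assoc, pow_succ' σ, MulAut.mul_apply]
  set Γ := cj.range with hΓdef
  have hΓ0 : ∀ y ∈ Γ, t * y * t⁻¹ ∈ Γ := by
    rintro _ ⟨g, rfl⟩
    exact ⟨σ g, (htcj g).symm⟩
  have hΓ := conj_mem_iff t Γ hΓ0
  have hker : V ≤ cj.ker := by
    intro v hv
    rw [MonoidHom.mem_ker]
    ext w
    rw [hcj, hVcomm v hv w w.2]; simp
  have hcardΓ : Nat.card Γ < c := by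
    have h1 := Subgroup.card_mul_index cj.ker
    rw [Subgroup.index_ker] at h1
    have h2 : Nat.card V ≤ Nat.card cj.ker := Subgroup.card_le_of_le hker
    have h3 : 0 < Nat.card Γ := Nat.card_pos
    rw [← hc, ← h1]
    nlinarith
  have hsolvΓ : Group.IsSolvable Γ := Group.isSolvable_of_surjective cj.rangeRestrict_surjective
  have hkerσ : ∀ m ∈ cj.ker, σ m ∈ cj.ker := by
    intro m hm
    rw [MonoidHom.mem_ker] at hm ⊢
    rw [← htcj, hm]; simp
  have hfpfΓ : ∀ y ∈ Γ, t * y = y * t → y = 1 := by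
    rintro _ ⟨g, rfl⟩ h
    rw [htcj'] at h
    have h1 : cj (σ g) = cj g := mul_right_cancel h
    have h2 : g⁻¹ * σ g ∈ cj.ker := by
      rw [MonoidHom.mem_ker, map_mul, map_inv, h1]; simp
    exact fpf_mem σ hfpf cj.ker hkerσ g h2
  have ht : t ^ (p ^ n) = 1 := by
    ext v
    rw [resAut_pow_apply, hσ]; rfl
  have IH2 := ih _ hcardΓ Γ rfl hsolvΓ (conjOn t Γ hΓ)
    (by
      ext1 y
      apply Subtype.ext
      rw [conjOn_pow_apply, ht]; simp)
    (by
      intro y hy
      have h1 := congrArg Subtype.val hy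
      rw [conjOn_apply] at h1
      have h2 : t * (y : MulAut V) = y * t := by
        calc t * (y : MulAut V) = (t * y * t⁻¹) * t := by group
          _ = y * t := by rw [h1]
      exact Subtype.ext (hfpfΓ y y.2 h2))
  have hirr : ∀ M : Subgroup V, (∀ y ∈ Γ, ∀ v ∈ M, y v ∈ M) → (∀ v ∈ M, t v ∈ M) → M ≠ ⊥ → M = ⊤ := by
    intro M h1 h2 h3
    have h4 : M.map V.subtype = V := by
      apply hVmin
      · constructor
        rintro _ ⟨m, hm, rfl⟩ g
        exact ⟨cj g m, h1 _ ⟨g, rfl⟩ m hm, hcj g m⟩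
      · rintro _ ⟨m, hm, rfl⟩
        exact ⟨t m, h2 m hm, rfl⟩
      · exact Subgroup.map_subtype_le M
      · intro hbot
        apply h3
        rw [eq_bot_iff] at hbot ⊢
        intro m hm
        have := hbot ⟨m, hm, rfl⟩
        rw [Subgroup.mem_bot] at this ⊢
        exact Subtype.ext this
    rw [eq_top_iff]
    intro v _
    have : (v : G) ∈ M.map V.subtype := by rw [h4]; exact v.2
    obtain ⟨m, hm, hmv⟩ := this
    have : m = v := Subtype.ext hmv
    rwa [← this]
  have hpℓ : p ≠ ℓ := by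
    intro h
    obtain ⟨v, hv⟩ := exists_ne (1 : V)
    apply hv
    have h1 : (v : G) ^ p = 1 := by rw [h]; exact hVexp v v.2
    have h2 := orderOf_dvd_of_pow_eq_one h1
    have h3 := orderOf_dvd_natCard (v : G)
    exact Subtype.ext (orderOf_eq_one_iff.mp (Nat.eq_one_of_dvd_coprimes hcopG h3 h2))
  have hcent := autV_centralizes ℓ p n hℓ hp hp2 hpℓ
    (fun a b => Subtype.ext (hVcomm a a.2 b b.2)) (fun a => Subtype.ext (by simpa using hVexp a a.2)) t hn ht
    (by
      intro v hv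
      exact Subtype.ext (hfpf v (congrArg Subtype.val hv))) Γ hΓ hfpfΓ hirr IH2
  have hmemker : ∀ g, g⁻¹ * (σ ^ (p ^ (n - 1))) g ∈ cj.ker := by
    intro g
    have h1 := hcent (cj g) ⟨g, rfl⟩
    rw [htk] at h1
    have h2 := mul_right_cancel h1
    rw [MonoidHom.mem_ker, map_mul, map_inv, h2]; simp
  -- the nilpotent normal subgroup
  set D : Subgroup G := (fittingSubgroup (G ⧸ V)).comap (QuotientGroup.mk' V) ⊓ cj.ker with hD
  have hDn : D.Normal := by
    haveI : (fittingSubgroup (G ⧸ V)).Normal := Cfsg.Agent.Lib.Helper1.fitting_normal _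
    haveI : ((fittingSubgroup (G ⧸ V)).comap (QuotientGroup.mk' V)).Normal := Subgroup.Normal.comap inferInstance _
    exact Subgroup.normal_inf_normal _ _
  have hDnil : Group.IsNilpotent D := by
    haveI := Cfsg.Agent.Lib.Helper1.fitting_nilpotent (G ⧸ V)
    let f : D →* fittingSubgroup (G ⧸ V) :=
      ((QuotientGroup.mk' V).comp D.subtype).codRestrict _ (fun d => (Subgroup.mem_inf.mp d.2).1)
    apply Subgroup.isNilpotent_of_ker_le_center f
    intro d hd
    rw [MonoidHom.mem_ker] at hd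
    have h1 : ((d : G) : G ⧸ V) = 1 := congrArg Subtype.val hd
    rw [QuotientGroup.eq_one_iff] at h1
    rw [Subgroup.mem_center_iff]
    intro e
    have h2 : (e : G) ∈ cj.ker := (Subgroup.mem_inf.mp e.2).2
    rw [MonoidHom.mem_ker] at h2
    have h3 := hcj e ⟨d, h1⟩
    rw [h2] at h3
    simp only [MulAut.one_apply] at h3
    apply Subtype.ext
    show (e : G) * d = d * e
    calc (e : G) * d = (e * d * (e : G)⁻¹) * e := by group
      _ = d * e := by rw [← h3]
  apply Cfsg.Agent.Lib.Helper1.le_fitting hDn hDnil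
  refine Subgroup.mem_inf.mpr ⟨?_, hmemker x⟩
  rw [Subgroup.mem_comap]
  have := IH1 (x : G ⧸ V)
  rw [quotAut_pow_mk] at this
  exact this

end Cfsg.Agent.Lib.Helper79.HW
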