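import Mathlib
import Cfsg.Agent.Lib.Helper79.GAutV
import Cfsg.Agent.Lib.Helper79.HShultB

/-! # Gross: `[G, σ^(2^(n-1))] ≤ F₂(G)` -/

set_option autoImplicit false

namespace Cfsg.Agent.Lib.Helper79.HW

open Cfsg

universe u

/-- the second Fitting subgroup. -/
noncomputable def fit2 (G : Type u) [Group G] : Subgroup G :=
  haveI : (fittingSubgroup G).Normal := Cfsg.Agent.Lib.Helper1.fitting_normal G
  (fittingSubgroup (G ⧸ fittingSubgroup G)).comap (QuotientGroup.mk' (fittingSubgroup G))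

theorem mem_fit2 {G : Type u} [Group G] [hFn : (fittingSubgroup G).Normal] (x : G) :
    x ∈ fit2 G ↔ (x : G ⧸ fittingSubgroup G) ∈ fittingSubgroup (G ⧸ fittingSubgroup G) := Iff.rfl

theorem fit2_normal (G : Type u) [Group G] : (fit2 G).Normal := by
  haveI : (fittingSubgroup G).Normal := Cfsg.Agent.Lib.Helper1.fitting_normal G
  haveI : (fittingSubgroup (G ⧸ fittingSubgroup G)).Normal := Cfsg.Agent.Lib.Helper1.fitting_normal _
  exact Subgroup.Normal.comap inferInstance _

theorem lcs_le_ker {G H : Type*} [Group G] [Group H] (f : G →* H) (S : Subgroup G) (T : Subgroup H)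
    (hT : Group.IsNilpotent T) (h : S.map f ≤ T) : ∃ k, S.lowerCentralSeries k ≤ f.ker := by
  obtain ⟨k, hk⟩ := (Subgroup.isNilpotent_iff_lowerCentralSeries T).mp hT
  refine ⟨k, ?_⟩
  apply (Subgroup.map_eq_bot_iff _).mp
  rw [eq_bot_iff, Subgroup.map_lowerCentralSeries, ← hk]
  exact Subgroup.lowerCentralSeries_mono k h

theorem fit2_lcs (G : Type u) [Group G] [Finite G] :
    ∃ k, (fit2 G).lowerCentralSeries k ≤ fittingSubgroup G := by
  haveI : (fittingSubgroup G).Normal := Cfsg.Agent.Lib.Helper1.fitting_normal G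
  obtain ⟨k, hk⟩ := lcs_le_ker (QuotientGroup.mk' (fittingSubgroup G)) (fit2 G)
    (fittingSubgroup (G ⧸ fittingSubgroup G)) (Cfsg.Agent.Lib.Helper1.fitting_nilpotent _)
    (Subgroup.map_comap_le _ _)
  rw [QuotientGroup.ker_mk'] at hk
  exact ⟨k, hk⟩

theorem le_fit2 {G : Type u} [Group G] [Finite G] {X : Subgroup G} (hX : X.Normal) (k : ℕ)
    (h : X.lowerCentralSeries k ≤ fittingSubgroup G) : X ≤ fit2 G := by
  haveI : (fittingSubgroup G).Normal := Cfsg.Agent.Lib.Helper1.fitting_normal G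
  have h1 : (X.map (QuotientGroup.mk' (fittingSubgroup G))).Normal :=
    hX.map _ (QuotientGroup.mk'_surjective _)
  have h2 : Group.IsNilpotent (X.map (QuotientGroup.mk' (fittingSubgroup G))) := by
    apply Subgroup.isNilpotent_of_lowerCentralSeries_eq_bot (n := k)
    rw [← Subgroup.map_lowerCentralSeries, eq_bot_iff]
    rintro _ ⟨x, hx, rfl⟩
    rw [Subgroup.mem_bot]
    exact (QuotientGroup.eq_one_iff x).mpr (h hx)
  have h3 := Cfsg.Agent.Lib.Helper1.le_fitting h1 h2
  exact Subgroup.map_le_iff_le_comap.mp h3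

theorem gross_key (n : ℕ) (hn : 0 < n) :
    ∀ (c : ℕ) (G : Type u) [Group G] [Finite G], Nat.card G = c → Group.IsSolvable G →
      ∀ σ : MulAut G, σ ^ (2 ^ n) = 1 → (∀ g, σ g = g → g = 1) →
      ∀ x, x⁻¹ * (σ ^ (2 ^ (n - 1))) x ∈ fit2 G := by
  intro c
  induction c using Nat.strong_induction_on with
  | _ c ih =>
  intro G _ _ hc hG σ hσ hfpf x
  by_cases hnt : Nontrivial G
  swap
  · rw [not_nontrivial_iff_subsingleton] at hnt
    rw [Subsingleton.elim (x⁻¹ * (σ ^ (2 ^ (n - 1))) x) 1]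
    exact one_mem _
  obtain ⟨V, ℓ, hVn, hVσ, hVbot, hℓ, hVcomm, hVexp, hVmin⟩ := exists_min_inv hG σ
  haveI := hVn
  have hVσ' := aut_mem_iff σ V hVσ
  have hcopG := fpf_coprime σ 2 n Nat.prime_two hσ hfpf
  haveI hVnt : Nontrivial V := (Subgroup.nontrivial_iff_ne_bot V).mpr hVbot
  have hcardV : 1 < Nat.card V := Finite.one_lt_card
  -- the quotient
  have hq1 : Nat.card (G ⧸ V) < c := by
    have h1 := Subgroup.card_eq_card_quotient_mul_card_subgroup V
    have h2 : 0 < Nat.card (G ⧸ V) := Nat.card_pos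
    rw [← hc, h1]
    nlinarith
  have IH1 := ih _ hq1 (G ⧸ V) rfl inferInstance (quotAut σ V hVσ')
    (by
      ext1 y
      obtain ⟨y, rfl⟩ := QuotientGroup.mk_surjective y
      rw [quotAut_pow_mk, hσ]; rfl)
    (quotAut_fpf σ hfpf V hVσ')
  -- the image in `Aut V`
  let cj : G →* MulAut V := MulAut.conjNormal
  let t : MulAut V := resAut σ V hVσ'
  have hcj : ∀ g (v : V), ((cj g v : V) : G) = g * v * g⁻¹ := fun g v => MulAut.conjNormal_apply g v
  have htcj' : ∀ g, t * cj g = cj (σ g) * t := by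
    intro g
    ext v
    rw [MulAut.mul_apply, MulAut.mul_apply, resAut_apply, hcj, hcj, resAut_apply]
    simp
  have htcj : ∀ g, t * cj g * t⁻¹ = cj (σ g) := by
    intro g
    rw [htcj']; group
  have htk : ∀ (k : ℕ) g, t ^ k * cj g = cj ((σ ^ k) g) * t ^ k := by
    intro k
    induction k with
    | zero => intro g; simp
    | succ k ih' =>
      intro g
      rw [pow_succ', mul_assoc, ih', ← mul_assoc, htcj', mul_assoc, pow_succ' σ, MulAut.mul_apply]
  set Γ := cj.range with hΓdef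
  have hΓ0 : ∀ y ∈ Γ, t * y * t⁻¹ ∈ Γ := by
    rintro _ ⟨g, rfl⟩
    exact ⟨σ g, (htcj g).symm⟩
  have hΓ := conj_mem_iff t Γ hΓ0
  have hker : V ≤ cj.ker := by
    intro v hv
    rw [MonoidHom.mem_ker]
    ext w
    rw [hcj, hVcomm v hv w w.2]; simp
  have hcardΓ : Nat.card Γ < c := by
    have h1 := Subgroup.card_mul_index cj.ker
    rw [Subgroup.index_ker] at h1
    have h2 : Nat.card V ≤ Nat.card cj.ker := Subgroup.card_le_of_le hker
    have h3 : 0 < Nat.card Γ := Nat.card_pos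
    rw [← hc, ← h1]
    nlinarith
  have hsolvΓ : Group.IsSolvable Γ := Group.isSolvable_of_surjective cj.rangeRestrict_surjective
  have hkerσ : ∀ m ∈ cj.ker, σ m ∈ cj.ker := by
    intro m hm
    rw [MonoidHom.mem_ker] at hm ⊢
    rw [← htcj, hm]; simp
  have hfpfΓ : ∀ y ∈ Γ, t * y = y * t → y = 1 := by
    rintro _ ⟨g, rfl⟩ h
    rw [htcj'] at h
    have h1 : cj (σ g) = cj g := mul_right_cancel h
    have h2 : g⁻¹ * σ g ∈ cj.ker := by
      rw [MonoidHom.mem_ker, map_mul, map_inv, h1]; simp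
    exact fpf_mem σ hfpf cj.ker hkerσ g h2
  have ht : t ^ (2 ^ n) = 1 := by
    ext v
    rw [resAut_pow_apply, hσ]; rfl
  have IH2 := ih _ hcardΓ Γ rfl hsolvΓ (conjOn t Γ hΓ)
    (by
      ext1 y
      apply Subtype.ext
      rw [conjOn_pow_apply, ht]; simp)
    (by
      intro y hy
      have h1 := congrArg Subtype.val hy
      rw [conjOn_apply] at h1
      have h2 : t * (y : MulAut V) = y * t := by
        calc t * (y : MulAut V) = (t * y * t⁻¹) * t := by group
          _ = y * t := by rw [h1]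
      exact Subtype.ext (hfpfΓ y y.2 h2))
  have hirr : ∀ M : Subgroup V, (∀ y ∈ Γ, ∀ v ∈ M, y v ∈ M) → (∀ v ∈ M, t v ∈ M) → M ≠ ⊥ → M = ⊤ := by
    intro M h1 h2 h3
    have h4 : M.map V.subtype = V := by
      apply hVmin
      · constructor
        rintro _ ⟨m, hm, rfl⟩ g
        exact ⟨cj g m, h1 _ ⟨g, rfl⟩ m hm, hcj g m⟩
      · rintro _ ⟨m, hm, rfl⟩
        exact ⟨t m, h2 m hm, rfl⟩
      · exact Subgroup.map_subtype_le M
      · intro hbot
        apply h3
        rw [eq_bot_iff] at hbot ⊢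
        intro m hm
        have := hbot ⟨m, hm, rfl⟩
        rw [Subgroup.mem_bot] at this ⊢
        exact Subtype.ext this
    rw [eq_top_iff]
    intro v _
    have : (v : G) ∈ M.map V.subtype := by rw [h4]; exact v.2
    obtain ⟨m, hm, hmv⟩ := this
    have : m = v := Subtype.ext hmv
    rwa [← this]
  have hpℓ : 2 ≠ ℓ := by
    intro h
    obtain ⟨v, hv⟩ := exists_ne (1 : V)
    apply hv
    have h1 : (v : G) ^ 2 = 1 := by rw [h]; exact hVexp v v.2
    have h2 := orderOf_dvd_of_pow_eq_one h1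
    have h3 := orderOf_dvd_natCard (v : G)
    exact Subtype.ext (orderOf_eq_one_iff.mp (Nat.eq_one_of_dvd_coprimes hcopG h3 h2))
  haveI hFΓ : (fittingSubgroup Γ).Normal := Cfsg.Agent.Lib.Helper1.fitting_normal Γ
  have hΓfit := autV_fit ℓ n hℓ (fun h => hpℓ h.symm)
    (fun a b => Subtype.ext (hVcomm a a.2 b b.2)) (fun a => Subtype.ext (by simpa using hVexp a a.2)) t hn ht
    (by
      intro v hv
      exact Subtype.ext (hfpf v (congrArg Subtype.val hv))) Γ hΓ hfpfΓ hirr IH2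
  -- the nilpotent normal subgroup
  set D : Subgroup G := (fittingSubgroup (G ⧸ V)).comap (QuotientGroup.mk' V) ⊓ cj.ker with hD
  have hDn : D.Normal := by
    haveI : (fittingSubgroup (G ⧸ V)).Normal := Cfsg.Agent.Lib.Helper1.fitting_normal _
    haveI : ((fittingSubgroup (G ⧸ V)).comap (QuotientGroup.mk' V)).Normal := Subgroup.Normal.comap inferInstance _
    exact Subgroup.normal_inf_normal _ _
  have hDnil : Group.IsNilpotent D := by
    haveI := Cfsg.Agent.Lib.Helper1.fitting_nilpotent (G ⧸ V)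
    let f : D →* fittingSubgroup (G ⧸ V) :=
      ((QuotientGroup.mk' V).comp D.subtype).codRestrict _ (fun d => (Subgroup.mem_inf.mp d.2).1)
    apply Subgroup.isNilpotent_of_ker_le_center f
    intro d hd
    rw [MonoidHom.mem_ker] at hd
    have h1 : ((d : G) : G ⧸ V) = 1 := congrArg Subtype.val hd
    rw [QuotientGroup.eq_one_iff] at h1
    rw [Subgroup.mem_center_iff]
    intro e
    have h2 : (e : G) ∈ cj.ker := (Subgroup.mem_inf.mp e.2).2
    rw [MonoidHom.mem_ker] at h2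
    have h3 := hcj e ⟨d, h1⟩
    rw [h2] at h3
    simp only [MulAut.one_apply] at h3
    apply Subtype.ext
    show (e : G) * d = d * e
    calc (e : G) * d = (e * d * (e : G)⁻¹) * e := by group
      _ = d * e := by rw [← h3]
  have hDfit : D ≤ fittingSubgroup G := Cfsg.Agent.Lib.Helper1.le_fitting hDn hDnil
  let cr : G →* Γ := cj.rangeRestrict
  set A : Subgroup G := (fittingSubgroup Γ).comap cr with hA
  set B : Subgroup G := (fit2 (G ⧸ V)).comap (QuotientGroup.mk' V) with hB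
  have hAn : A.Normal := Subgroup.Normal.comap hFΓ _
  have hBn : B.Normal := Subgroup.Normal.comap (fit2_normal _) _
  have hXn : (A ⊓ B).Normal := Subgroup.normal_inf_normal _ _
  obtain ⟨k₁, hk₁⟩ := lcs_le_ker cr A (fittingSubgroup Γ) (Cfsg.Agent.Lib.Helper1.fitting_nilpotent Γ)
    (Subgroup.map_comap_le _ _)
  obtain ⟨k₂, hk₂⟩ := fit2_lcs (G ⧸ V)
  have hk₂' : B.lowerCentralSeries k₂ ≤ (fittingSubgroup (G ⧸ V)).comap (QuotientGroup.mk' V) := by
    rw [← Subgroup.map_le_iff_le_comap, Subgroup.map_lowerCentralSeries]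
    exact (Subgroup.lowerCentralSeries_mono k₂ (Subgroup.map_comap_le _ _)).trans hk₂
  have hker : cr.ker = cj.ker := MonoidHom.ker_rangeRestrict cj
  have hXD : (A ⊓ B).lowerCentralSeries (k₁ + k₂) ≤ D := by
    refine le_inf ?_ ?_
    · exact ((Subgroup.lowerCentralSeries_antitone _ (Nat.le_add_left k₂ k₁)).trans
        (Subgroup.lowerCentralSeries_mono k₂ inf_le_right)).trans hk₂'
    · rw [← hker]
      exact ((Subgroup.lowerCentralSeries_antitone _ (Nat.le_add_right k₁ k₂)).trans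
        (Subgroup.lowerCentralSeries_mono k₁ inf_le_left)).trans hk₁
  apply le_fit2 hXn (k₁ + k₂) (hXD.trans hDfit)
  refine ⟨?_, ?_⟩
  · show cr (x⁻¹ * (σ ^ (2 ^ (n - 1))) x) ∈ fittingSubgroup Γ
    have h1 := hΓfit (cr x)
    have h2 : cr (x⁻¹ * (σ ^ (2 ^ (n - 1))) x) = (cr x)⁻¹ * ((conjOn t Γ hΓ) ^ (2 ^ (n - 1))) (cr x) := by
      rw [map_mul, map_inv]
      congr 1
      apply Subtype.ext
      rw [conjOn_pow_apply]
      show cj ((σ ^ (2 ^ (n - 1))) x) = t ^ (2 ^ (n - 1)) * cj x * (t ^ (2 ^ (n - 1)))⁻¹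
      rw [htk]; group
    rw [h2]; exact h1
  · show ((x⁻¹ * (σ ^ (2 ^ (n - 1))) x : G) : G ⧸ V) ∈ fit2 (G ⧸ V)
    have := IH1 (x : G ⧸ V)
    rw [quotAut_pow_mk] at this
    exact this

end Cfsg.Agent.Lib.Helper79.HW
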