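import Mathlib
import Cfsg.Agent.Lib.Helper79.GKey
import Cfsg.Agent.Lib.Helper74.Fpf4F

/-! # Gross: the Fitting chain -/

set_option autoImplicit false

namespace Cfsg.Agent.Lib.Helper79.HW

open Cfsg

universe u

/-- a normal chain of length `L` with nilpotent factors. -/
def HasChain (G : Type u) [Group G] (L : ℕ) : Prop :=
  ∃ F : Fin (L + 1) → Subgroup G, F 0 = ⊥ ∧ F (Fin.last L) = ⊤ ∧ Monotone F ∧ (∀ i, (F i).Normal) ∧
    ∀ i : Fin L, ∃ k : ℕ, (F i.succ).lowerCentralSeries k ≤ F i.castSucc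

theorem chain_lift {G : Type u} [Group G] (M : Subgroup G) [M.Normal] (hM : Group.IsNilpotent M) (L : ℕ)
    (h : HasChain (G ⧸ M) L) : HasChain G (L + 1) := by
  obtain ⟨F', h0, hlast, hmono, hnorm, hstep⟩ := h
  refine ⟨Fin.cons ⊥ (fun i => (F' i).comap (QuotientGroup.mk' M)), rfl, ?_, ?_, ?_, ?_⟩
  · rw [← Fin.succ_last, Fin.cons_succ, hlast, Subgroup.comap_top]
  · intro i j hij
    induction i using Fin.cases with
    | zero => rw [Fin.cons_zero]; exact bot_le
    | succ i =>
      induction j using Fin.cases with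
      | zero => exact absurd hij (by simp)
      | succ j =>
        rw [Fin.cons_succ, Fin.cons_succ]
        exact Subgroup.comap_mono (hmono (Fin.succ_le_succ_iff.mp hij))
  · intro i
    induction i using Fin.cases with
    | zero => rw [Fin.cons_zero]; infer_instance
    | succ i => rw [Fin.cons_succ]; exact (hnorm i).comap _
  · intro i
    induction i using Fin.cases with
    | zero =>
      rw [Fin.cons_succ, h0, Fin.castSucc_zero, Fin.cons_zero]
      have h1 : (⊥ : Subgroup (G ⧸ M)).comap (QuotientGroup.mk' M) = M := by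
        ext y
        rw [Subgroup.mem_comap, Subgroup.mem_bot, QuotientGroup.mk'_apply, QuotientGroup.eq_one_iff]
      rw [h1]
      obtain ⟨k, hk⟩ := (Subgroup.isNilpotent_iff_lowerCentralSeries M).mp hM
      exact ⟨k, hk.le⟩
    | succ i =>
      obtain ⟨k, hk⟩ := hstep i
      refine ⟨k, ?_⟩
      rw [Fin.cons_succ, ← Fin.succ_castSucc, Fin.cons_succ, ← Subgroup.map_le_iff_le_comap,
        Subgroup.map_lowerCentralSeries]
      exact (Subgroup.lowerCentralSeries_mono k (Subgroup.map_comap_le _ _)).trans hk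

theorem chain_base {G : Type u} [Group G] (h : Group.IsNilpotent (commutator G)) : HasChain G 2 := by
  obtain ⟨k, hk⟩ := (Subgroup.isNilpotent_iff_lowerCentralSeries (commutator G)).mp h
  refine ⟨![⊥, commutator G, ⊤], rfl, rfl, ?_, ?_, ?_⟩
  · intro i j hij
    fin_cases i <;> fin_cases j <;> simp_all
  · intro i
    fin_cases i
    · show (⊥ : Subgroup G).Normal
      infer_instance
    · show (commutator G).Normal
      infer_instance
    · show (⊤ : Subgroup G).Normal
      infer_instance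
  · intro i
    fin_cases i
    · exact ⟨k, hk.le⟩
    · refine ⟨1, ?_⟩
      show (⊤ : Subgroup G).lowerCentralSeries 1 ≤ commutator G
      rw [Subgroup.top_lowerCentralSeries_one]

theorem gross_chain :
    ∀ (m : ℕ) (G : Type u) [Group G] [Finite G], Group.IsSolvable G →
      ∀ σ : MulAut G, σ ^ (2 ^ (m + 2)) = 1 → (∀ g, σ g = g → g = 1) → HasChain G (2 * m + 2) := by
  intro m
  induction m with
  | zero =>
    intro G _ _ hG σ hσ hfpf
    exact chain_base (Cfsg.Agent.Lib.Helper74.isNilpotent_commutator_of_fpf4 hG σ (by simpa using hσ) hfpf)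
  | succ m ih =>
    intro G _ _ hG σ hσ hfpf
    set Fit := fittingSubgroup G with hFit
    haveI hFn : Fit.Normal := Cfsg.Agent.Lib.Helper1.fitting_normal G
    have hFc : Fit.Characteristic := Cfsg.Agent.Lib.Helper28.fitting_characteristic
    have hFσ : ∀ x, x ∈ Fit ↔ σ x ∈ Fit := fun x => (char_mem_iff hFc σ x).symm
    have hkey := gross_key (m + 1 + 2) (by omega) _ G rfl hG σ hσ hfpf
    have e : m + 1 + 2 - 1 = m + 2 := by omega
    rw [e] at hkey
    set σ₁ := quotAut σ Fit hFσ with hσ₁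
    have hfpf₁ := quotAut_fpf σ hfpf Fit hFσ
    set Fit₁ := fittingSubgroup (G ⧸ Fit) with hFit₁
    haveI hFn₁ : Fit₁.Normal := Cfsg.Agent.Lib.Helper1.fitting_normal _
    have hFc₁ : Fit₁.Characteristic := Cfsg.Agent.Lib.Helper28.fitting_characteristic
    have hFσ₁ : ∀ x, x ∈ Fit₁ ↔ σ₁ x ∈ Fit₁ := fun x => (char_mem_iff hFc₁ σ₁ x).symm
    have h2 := ih ((G ⧸ Fit) ⧸ Fit₁) inferInstance (quotAut σ₁ Fit₁ hFσ₁)
      (by
        ext1 y
        obtain ⟨y, rfl⟩ := QuotientGroup.mk_surjective y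
        obtain ⟨y, rfl⟩ := QuotientGroup.mk_surjective y
        rw [quotAut_pow_mk, quotAut_pow_mk, MulAut.one_apply]
        symm
        rw [QuotientGroup.eq, ← QuotientGroup.mk_inv, ← QuotientGroup.mk_mul]
        exact hkey y)
      (quotAut_fpf σ₁ hfpf₁ Fit₁ hFσ₁)
    have h3 := chain_lift Fit₁ (Cfsg.Agent.Lib.Helper1.fitting_nilpotent _) _ h2
    have h4 := chain_lift Fit (Cfsg.Agent.Lib.Helper1.fitting_nilpotent _) _ h3
    have e2 : 2 * m + 2 + 1 + 1 = 2 * (m + 1) + 2 := by ring
    rw [e2] at h4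
    exact h4

end Cfsg.Agent.Lib.Helper79.HW
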