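import Mathlib

/-! # Transfer from subgroups of an ambient group to automorphisms of a normalized subgroup -/

set_option autoImplicit false

namespace Cfsg.Agent.Lib.Helper79.HW

universe u

variable {G : Type u} [Group G]

/-- the automorphism of `V` induced by an element of its normalizer. -/
noncomputable def act (V : Subgroup G) (g : G) (hg : g ∈ Subgroup.normalizer (V : Set G)) : MulAut V :=
  V.normalizerMonoidHom ⟨g, hg⟩

theorem act_apply (V : Subgroup G) (g : G) (hg : g ∈ Subgroup.normalizer (V : Set G)) (v : V) :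
    ((act V g hg v : V) : G) = g * v * g⁻¹ := rfl

theorem act_mul (V : Subgroup G) (g h : G) (hg : g ∈ Subgroup.normalizer (V : Set G))
    (hh : h ∈ Subgroup.normalizer (V : Set G)) :
    act V (g * h) (mul_mem hg hh) = act V g hg * act V h hh := by
  ext v
  rw [MulAut.mul_apply, act_apply, act_apply, act_apply]; group

theorem act_inv (V : Subgroup G) (g : G) (hg : g ∈ Subgroup.normalizer (V : Set G)) :
    act V g⁻¹ (inv_mem hg) = (act V g hg)⁻¹ := by
  rw [eq_inv_iff_mul_eq_one, ← act_mul]
  ext v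
  rw [act_apply]; simp

theorem act_pow (V : Subgroup G) (g : G) (hg : g ∈ Subgroup.normalizer (V : Set G)) (k : ℕ) :
    act V (g ^ k) (pow_mem hg k) = (act V g hg) ^ k := by
  ext v
  show ((V.normalizerMonoidHom ⟨g ^ k, _⟩ v : V) : G) = (((V.normalizerMonoidHom ⟨g, hg⟩) ^ k) v : V)
  rw [← map_pow]; rfl

theorem act_eq_one_iff (V : Subgroup G) (g : G) (hg : g ∈ Subgroup.normalizer (V : Set G)) :
    act V g hg = 1 ↔ g ∈ Subgroup.centralizer (V : Set G) := by
  rw [Subgroup.mem_centralizer_iff]
  constructor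
  · intro h v hv
    have := congrArg Subtype.val (DFunLike.congr_fun h ⟨v, hv⟩)
    rw [act_apply] at this
    simp only [MulAut.one_apply] at this
    calc v * g = (g * v * g⁻¹) * g := by rw [this]
      _ = g * v := by group
  · intro h
    ext v
    rw [act_apply, ← h v v.2]; simp

theorem act_congr (V : Subgroup G) {g h : G} (hg : g ∈ Subgroup.normalizer (V : Set G)) (e : g = h) :
    act V g hg = act V h (e ▸ hg) := by subst e; rfl

/-- the image in `Aut V` of (the part normalizing `V` of) a subgroup. -/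
noncomputable def imgSub (V Q : Subgroup G) : Subgroup (MulAut V) :=
  (Q.subgroupOf (Subgroup.normalizer (V : Set G))).map V.normalizerMonoidHom

theorem mem_imgSub {V Q : Subgroup G} {x : MulAut V} :
    x ∈ imgSub V Q ↔ ∃ g, ∃ hg : g ∈ Subgroup.normalizer (V : Set G), g ∈ Q ∧ act V g hg = x := by
  constructor
  · rintro ⟨⟨g, hg⟩, hgQ, rfl⟩
    exact ⟨g, hg, hgQ, rfl⟩
  · rintro ⟨g, hg, hgQ, rfl⟩
    exact ⟨⟨g, hg⟩, hgQ, rfl⟩

theorem imgSub_isPGroup {V Q : Subgroup G} {q : ℕ} (hQ : IsPGroup q Q) : IsPGroup q (imgSub V Q) := by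
  apply IsPGroup.map
  exact hQ.comap_subtype

end Cfsg.Agent.Lib.Helper79.HW
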