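import Mathlib
import Cfsg.Agent.Lib.Helper79.HClaim
import Cfsg.Agent.Lib.Helper79.HMinCfg
import Cfsg.Agent.Lib.Helper79.HExc

/-! # Prime order automorphisms of extraspecial groups: the configuration and the exceptional case -/

set_option autoImplicit false

namespace Cfsg.Agent.Lib.Helper79.HW

open scoped commutatorElement

universe u w

variable {K : Type u} [Field K] {Q : Type w} [Group Q]

theorem extraspecial_cfg [Finite Q] (σ : MulAut Q) (r q : ℕ) (hr : r.Prime) (hq : q.Prime) (hrq : r ≠ q)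
    (hQ : IsPGroup q Q) (hσ : σ ^ r = 1) (hcomm : commutator Q = Subgroup.center Q)
    (hfix : ∀ x, σ x = x ↔ x ∈ Subgroup.center Q) : Cfg σ r 1 (fixSub (σ ^ (r ^ (1 - 1)))) := by
  have e : σ ^ (r ^ (1 - 1)) = σ := by simp
  rw [e]
  have hcop : r.Coprime q := (Nat.coprime_primes hr hq).mpr hrq
  have hcm : ∀ x y : Q, x * y * x⁻¹ * y⁻¹ ∈ Subgroup.center Q := by
    intro x y
    rw [← hcomm, commutator_def, ← commutatorElement_def]
    exact Subgroup.commutator_mem_commutator (Subgroup.mem_top x) (Subgroup.mem_top y)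
  have hcm' : ∀ x y : Q, σ (x * y * x⁻¹ * y⁻¹) = x * y * x⁻¹ * y⁻¹ := fun x y => (hfix _).mpr (hcm x y)
  have hfree : ∀ Y : Subgroup Q, fixSub σ ≤ Y → (∀ y ∈ Y, σ y ∈ Y) → ∀ x, x⁻¹ * σ x ∈ Y → x ∈ Y :=
    fun Y h1 h2 x hx => free_of σ r q hcop hQ hσ hcm' Y h1 h2 x hx
  have hZ : fixSub σ = Subgroup.center Q := by
    ext x
    rw [mem_fixSub, hfix]
  refine ⟨by simpa using hσ, one_pos, ?_, ?_, ?_, ?_, ?_⟩
  · intro z hz x
    rw [hZ, Subgroup.mem_center_iff] at hz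
    exact (hz x).symm
  · intro x y
    rw [hZ]; exact hcm x y
  · intro z hz
    rw [mem_fixSub] at hz ⊢
    rw [hz, hz]
  · intro H hH
    rw [e] at hH
    have h1 : H ⊔ fixSub σ = ⊤ := by
      rw [eq_top_iff]
      intro x _
      refine hfree _ le_sup_right ?_ x ((le_sup_left : H ≤ H ⊔ fixSub σ) (hH x))
      intro y hy
      have : σ y = y * (y⁻¹ * σ y) := by group
      rw [this]
      exact mul_mem hy ((le_sup_left : H ≤ H ⊔ fixSub σ) (hH y))
    have h2 : commutator Q ≤ H := by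
      rw [commutator_def, Subgroup.commutator_le]
      intro x _ y _
      have hx : x ∈ H ⊔ fixSub σ := by rw [h1]; exact Subgroup.mem_top x
      have hy : y ∈ H ⊔ fixSub σ := by rw [h1]; exact Subgroup.mem_top y
      rw [hZ, Subgroup.mem_sup_of_normal_right] at hx hy
      obtain ⟨a, ha, z, hz, rfl⟩ := hx
      obtain ⟨b, hb, z', hz', rfl⟩ := hy
      rw [Subgroup.mem_center_iff] at hz hz'
      have : ⁅a * z, b * z'⁆ = ⁅a, b⁆ := by
        rw [commutatorElement_def, commutatorElement_def]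
        have e1 : a * z * (b * z') = a * b * (z * z') := by
          rw [mul_assoc, ← mul_assoc z, ← hz b, mul_assoc, mul_assoc]
        have e2 : (a * z)⁻¹ = z⁻¹ * a⁻¹ := by group
        have e3 : (b * z')⁻¹ = z'⁻¹ * b⁻¹ := by group
        have e4 : z⁻¹ * a⁻¹ = a⁻¹ * z⁻¹ := by
          rw [← mul_inv_rev, ← mul_inv_rev, hz a]
        rw [e1, e2, e3, e4]
        have e5 : z' * a⁻¹ = a⁻¹ * z' := (hz' a⁻¹).symm
        have e6 : z * a⁻¹ = a⁻¹ * z := (hz a⁻¹).symm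
        calc a * b * (z * z') * (a⁻¹ * z⁻¹) * (z'⁻¹ * b⁻¹)
            = a * b * (z * (z' * a⁻¹)) * z⁻¹ * (z'⁻¹ * b⁻¹) := by group
          _ = a * b * ((z * a⁻¹) * z') * z⁻¹ * (z'⁻¹ * b⁻¹) := by rw [e5]; group
          _ = a * b * a⁻¹ * (z * z') * z⁻¹ * z'⁻¹ * b⁻¹ := by rw [e6]; group
          _ = a * b * a⁻¹ * (z' * z) * z⁻¹ * z'⁻¹ * b⁻¹ := by rw [hz z']
          _ = a * b * a⁻¹ * b⁻¹ := by group
      rw [this]
      exact mul_mem (mul_mem (mul_mem ha hb) (inv_mem ha)) (inv_mem hb)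
    rw [← h1, hZ, ← hcomm]
    exact (sup_eq_left.mpr h2).symm
  · intro Y h1 h2 x hx
    rw [e] at h2 hx
    exact hfree Y h1 h2 x hx

theorem extraspecial_exc [Finite Q] (σ : MulAut Q) (r q : ℕ) (hr : r.Prime) (hq : q.Prime)
    (hQ : IsPGroup q Q) (hcomm : commutator Q = Subgroup.center Q)
    (hfix : ∀ x, σ x = x ↔ x ∈ Subgroup.center Q) (hcardZ : Nat.card (Subgroup.center Q) = q)
    (hexc : Exc K σ r 1 (fixSub (σ ^ (r ^ (1 - 1))))) :
    q = 2 ∧ ∃ n : ℕ, r = 2 ^ n + 1 ∧ Nat.card Q = 2 ^ (2 * n + 1) := by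
  have e : σ ^ (r ^ (1 - 1)) = σ := by simp
  rw [e] at hexc
  have hZ : fixSub σ = Subgroup.center Q := by
    ext x
    rw [mem_fixSub, hfix]
  rw [hZ] at hexc
  have hcm : ∀ x y : Q, x * y * x⁻¹ * y⁻¹ ∈ Subgroup.center Q := by
    intro x y
    rw [← hcomm, commutator_def, ← commutatorElement_def]
    exact Subgroup.commutator_mem_commutator (Subgroup.mem_top x) (Subgroup.mem_top y)
  obtain ⟨j, hj, μ, Y, hμmul, hμ1, hμinv, hY, hYtop, hidx⟩ := hexc.refine hr (Or.inr rfl)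
  have hj0 : j = 0 := by omega
  subst hj0
  rw [Nat.sub_zero, pow_one] at hidx
  haveI : Fact q.Prime := ⟨hq⟩
  -- the kernel of `μ` on the centre
  let Z₁ : Subgroup Q :=
    { carrier := {z | z ∈ Subgroup.center Q ∧ μ z = 1}
      mul_mem' := by
        rintro a b ⟨ha, ha'⟩ ⟨hb, hb'⟩
        exact ⟨mul_mem ha hb, by rw [hμmul a ha b hb, ha', hb', one_mul]⟩
      one_mem' := ⟨one_mem _, hμ1⟩
      inv_mem' := by
        rintro a ⟨ha, ha'⟩
        refine ⟨inv_mem ha, ?_⟩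
        have := hμmul a ha a⁻¹ (inv_mem ha)
        rw [mul_inv_cancel, hμ1, ha', one_mul] at this
        exact this.symm }
  have hZ₁le : Z₁ ≤ Subgroup.center Q := fun z hz => hz.1
  have hZ₁ : Z₁ = ⊥ := by
    have h1 : Nat.card Z₁ ∣ q := hcardZ ▸ Subgroup.card_dvd_of_le hZ₁le
    rcases (Nat.dvd_prime hq).mp h1 with h2 | h2
    · exact Subgroup.card_eq_one.mp h2
    · exfalso
      have h3 : Z₁ = Subgroup.center Q := Subgroup.eq_of_le_of_card_ge hZ₁le (by rw [h2, hcardZ])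
      apply hYtop
      rw [eq_top_iff]
      intro x _
      rw [hY]
      intro y
      have : x * y * x⁻¹ * y⁻¹ ∈ Z₁ := by rw [h3]; exact hcm x y
      exact this.2
  have hYZ : Y = Subgroup.center Q := by
    ext x
    rw [hY, Subgroup.mem_center_iff]
    constructor
    · intro h y
      have h1 : x * y * x⁻¹ * y⁻¹ ∈ Z₁ := ⟨hcm x y, h y⟩
      rw [hZ₁, Subgroup.mem_bot] at h1
      calc y * x = (x * y * x⁻¹ * y⁻¹)⁻¹ * (x * y) := by group
        _ = x * y := by rw [h1]; simp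
    · intro h y
      have : x * y * x⁻¹ * y⁻¹ = 1 := by rw [← h y]; group
      rw [this, hμ1]
  obtain ⟨k, hk⟩ := (IsPGroup.iff_card).mp hQ
  have hdvd : (r - 1) ^ 2 ∣ q ^ k := by
    rw [← hidx, ← hk]; exact Subgroup.index_dvd_card Y
  have hdvd1 : (r - 1) ∣ q ^ k := (Dvd.intro_left _ (by ring : (r - 1) * (r - 1) = (r - 1) ^ 2)).trans hdvd
  obtain ⟨c, -, hc⟩ := (Nat.dvd_prime_pow hq).mp hdvd1
  have hp1 : r - 1 ≠ 1 := by
    intro h1
    rw [h1, one_pow] at hidx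
    exact hYtop (Subgroup.index_eq_one.mp hidx)
  have hp2 : 2 ≤ r := hr.two_le
  have hp3 : r ≠ 2 := by omega
  have hodd : Odd r := hr.odd_of_ne_two hp3
  have heven : 2 ∣ q ^ c := by
    rw [← hc]
    obtain ⟨a, ha⟩ := hodd
    exact ⟨a, by omega⟩
  have hq2 : q = 2 := ((Nat.prime_dvd_prime_iff_eq Nat.prime_two hq).mp
    (Nat.prime_two.dvd_of_dvd_pow heven)).symm
  refine ⟨hq2, c, by rw [← hq2, ← hc]; omega, ?_⟩
  have h1 := Subgroup.card_mul_index Y
  rw [hidx, hYZ, hcardZ, hc, hq2] at h1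
  rw [← h1]; ring

end Cfsg.Agent.Lib.Helper79.HW
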