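import Mathlib
import Cfsg.Agent.Lib.Helper79.HBridge

/-! # The fixed space on `Hom(V,K)` of an automorphism with cyclic fixed points -/

set_option autoImplicit false

namespace Cfsg.Agent.Lib.Helper79.HW

universe u v

variable {K : Type u} [Field K] {V : Type v} [Group V]

theorem HomSp.map_pow (f : HomSp K V) (a : V) (k : ℕ) : (f : V → K) (a ^ k) = k * (f : V → K) a := by
  induction k with
  | zero => simp [HomSp.map_one]
  | succ k ih => rw [pow_succ, HomSp.map_mul, ih]; push_cast; ring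

theorem homRep_fix_zero (hcomm : ∀ a b : V, a * b = b * a) (t : MulAut V) (r : ℕ) (ht : t ^ r = 1)
    (hrK : (r : K) ≠ 0) (v₀ : V) (hv₀ : ∀ v, t v = v → ∃ k : ℕ, v = v₀ ^ k)
    (g : HomSp K V) (hg : homRep K (MonoidHom.id (MulAut V)) t g = g) (hg0 : (g : V → K) v₀ = 0) : g = 0 := by
  have h1 : ∀ x, (g : V → K) (t x) = (g : V → K) x := by
    intro x
    have := congrFun (congrArg Subtype.val hg) (t x)
    rw [homRep_apply] at this
    simp only [MonoidHom.id_apply, MulAut.inv_apply_self] at this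
    exact this.symm
  have h2 : ∀ (j : ℕ) x, (g : V → K) ((t ^ j) x) = (g : V → K) x := by
    intro j
    induction j with
    | zero => intro x; simp
    | succ j ih => intro x; rw [pow_succ', MulAut.mul_apply, h1, ih]
  ext x
  let P : ℕ → V := fun k => Nat.rec 1 (fun j acc => acc * (t ^ j) x) k
  have hP0 : P 0 = 1 := rfl
  have hPs : ∀ k, P (k + 1) = P k * (t ^ k) x := fun k => rfl
  have h3 : ∀ k, (g : V → K) (P k) = k * (g : V → K) x := by
    intro k
    induction k with
    | zero => rw [hP0, HomSp.map_one]; simp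
    | succ k ih => rw [hPs, HomSp.map_mul, ih, h2]; push_cast; ring
  have h4 : ∀ k, x * t (P k) = P (k + 1) := by
    intro k
    induction k with
    | zero => rw [hP0, hPs, hP0]; simp
    | succ k ih =>
      rw [hPs k, map_mul, ← mul_assoc, ih, hPs (k + 1), ← MulAut.mul_apply, ← pow_succ']
  have h5 : t (P r) = P r := by
    have := h4 r
    rw [hPs, ht, MulAut.one_apply, hcomm (P r) x] at this
    exact mul_left_cancel this
  obtain ⟨k, hk⟩ := hv₀ _ h5
  have h6 := h3 r
  rw [hk, HomSp.map_pow, hg0, mul_zero] at h6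
  rcases mul_eq_zero.mp h6.symm with h | h
  · exact absurd h hrK
  · simpa using h

theorem homRep_fix_line (hcomm : ∀ a b : V, a * b = b * a) (t : MulAut V) (r : ℕ) (ht : t ^ r = 1)
    (hrK : (r : K) ≠ 0) (v₀ : V) (hv₀ : ∀ v, t v = v → ∃ k : ℕ, v = v₀ ^ k)
    (f f' : HomSp K V) (hf : homRep K (MonoidHom.id (MulAut V)) t f = f)
    (hf' : homRep K (MonoidHom.id (MulAut V)) t f' = f') (hf0 : f ≠ 0) : ∃ l : K, f' = l • f := by
  have h1 : (f : V → K) v₀ ≠ 0 := fun h => hf0 (homRep_fix_zero hcomm t r ht hrK v₀ hv₀ f hf h)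
  refine ⟨(f' : V → K) v₀ / (f : V → K) v₀, ?_⟩
  have h2 := homRep_fix_zero hcomm t r ht hrK v₀ hv₀ (f' - ((f' : V → K) v₀ / (f : V → K) v₀) • f)
    (by rw [map_sub, map_smul, hf, hf'])
    (by
      show (f' : V → K) v₀ - ((f' : V → K) v₀ / (f : V → K) v₀) * (f : V → K) v₀ = 0
      field_simp
      ring)
  exact sub_eq_zero.mp h2

end Cfsg.Agent.Lib.Helper79.HW
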