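import Mathlib
import Cfsg.Agent.Lib.Helper79.HWeights
import Cfsg.Agent.Lib.Helper79.HFpf

/-! # Nilpotent groups with a fixed-point-free automorphism of prime order acting on a module with
at most one-dimensional fixed space -/

set_option autoImplicit false

namespace Cfsg.Agent.Lib.Helper79.HW

open Module Function

universe u v w

variable {K : Type u} [Field K]

theorem fpf_surj {G : Type*} [Group G] [Finite G] (σ : MulAut G) (hfpf : ∀ g, σ g = g → g = 1) (g : G) :
    ∃ x, x⁻¹ * σ x = g := by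
  have hinj : Function.Injective (fun x : G => x⁻¹ * σ x) := by
    intro a b hab
    have h1 : a⁻¹ * σ a = b⁻¹ * σ b := hab
    have h2 : σ (a * b⁻¹) = a * b⁻¹ := by
      rw [map_mul, map_inv]
      have h3 : σ a = a * (b⁻¹ * σ b) := by rw [← h1]; group
      rw [h3]; group
    exact mul_inv_eq_one.mp (hfpf _ h2)
  exact Finite.surjective_of_injective hinj g

theorem comm_trivial_of_fix [IsAlgClosed K] (r : ℕ) (hr : r.Prime) :
    ∀ (c : ℕ) (Q : Type w) [Group Q] [Finite Q] (W : Type v) [AddCommGroup W] [Module K W]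
      [FiniteDimensional K W], Nat.card Q = c → Group.IsNilpotent Q → (Nat.card Q : K) ≠ 0 →
      ∀ (σ : MulAut Q) (ρ : Q →* Module.End K W) (T : Module.End K W), σ ^ r = 1 →
      (∀ g, σ g = g → g = 1) → T ^ r = 1 → (∀ x, T * ρ x = ρ (σ x) * T) →
      (∀ y y' : W, T y = y → T y' = y' → y ≠ 0 → ∃ l : K, y' = l • y) →
      ∀ a b : Q, ρ (a * b * a⁻¹ * b⁻¹) = 1 := by
  intro c
  induction c using Nat.strong_induction_on with
  | _ c ih =>
  intro Q _ _ W _ _ _ hc hnil hQK σ ρ T hσ hfpf hT hTρ hfix a b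
  by_cases hnt : Nontrivial Q
  swap
  · rw [not_nontrivial_iff_subsingleton] at hnt
    rw [Subsingleton.elim (a * b * a⁻¹ * b⁻¹) 1, map_one]
  set Z := Subgroup.center Q with hZ
  have hZbot : Z ≠ ⊥ := Group.IsNilpotent.center_ne_bot Q
  have hY : ∀ y ∈ Z, ∀ x, ρ y * ρ x = ρ x * ρ y := by
    intro y hy x
    rw [← map_mul, ← map_mul, (Subgroup.mem_center_iff.mp hy x)]
  have hσZ0 : ∀ x ∈ Z, σ x ∈ Z := by
    intro x hx
    rw [Subgroup.mem_center_iff] at hx ⊢
    intro g
    obtain ⟨g', rfl⟩ : ∃ g', σ g' = g := ⟨σ⁻¹ g, by simp⟩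
    rw [← map_mul, ← map_mul, hx g']
  have hσZ := aut_mem_iff σ Z hσZ0
  -- it suffices to treat the weight spaces
  suffices h : ∀ χ : Q → K, ∀ y ∈ wt ρ Z χ, ρ (a * b * a⁻¹ * b⁻¹) y = y by
    have h1 : (⊤ : Submodule K W) ≤ LinearMap.ker (ρ (a * b * a⁻¹ * b⁻¹) - 1) := by
      rw [← wt_iSup ρ Z hY]
      apply iSup_le
      intro χ y hy
      rw [LinearMap.mem_ker, LinearMap.sub_apply, h χ y hy]; simp
    ext y
    have := h1 (Submodule.mem_top : y ∈ ⊤)
    rw [LinearMap.mem_ker, LinearMap.sub_apply, sub_eq_zero] at this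
    exact this
  intro χ y hy
  by_cases hy0 : y = 0
  · rw [hy0, map_zero]
  let π : (Q → K) → (Q → K) := fun χ x => χ (σ⁻¹ x)
  have hπ : ∀ χ, ∀ y ∈ wt ρ Z χ, T y ∈ wt ρ Z (π χ) := fun χ y hy => wt_map ρ Z hQK σ hσZ T hTρ χ y hy
  have hwt : ∀ z ∈ Z, ρ z y = χ z • y := by
    intro z hz
    have := (mem_wt ρ Z hQK χ y).mp hy z
    rwa [fam_of_mem ρ hz] at this
  by_cases hπχ : π χ = χ
  · -- the trivial weight: pass to the quotient
    have hχσ : ∀ w, χ (σ w) = χ w := by
      intro w
      have := congrFun hπχ (σ w)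
      simp only [π] at this
      rw [MulAut.inv_apply_self] at this
      exact this.symm
    have hZy : ∀ z ∈ Z, ρ z y = y := by
      intro z hz
      obtain ⟨w, hw⟩ := fpf_surj σ hfpf z
      have hwZ : w ∈ Z := fpf_mem σ hfpf Z hσZ0 w (hw ▸ hz)
      have h1 : ρ (σ w) y = ρ w y := by rw [hwt _ (hσZ0 w hwZ), hwt w hwZ, hχσ]
      rw [← hw, map_mul, Module.End.mul_apply, h1, ← Module.End.mul_apply, ← map_mul, inv_mul_cancel,
        map_one, Module.End.one_apply]
    let W₁ : Submodule K W :=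
      { carrier := {y | ∀ z ∈ Z, ρ z y = y}
        add_mem' := by
          intro u v hu hv z hz
          rw [map_add, hu z hz, hv z hz]
        zero_mem' := by intro z _; rw [map_zero]
        smul_mem' := by
          intro l u hu z hz
          rw [map_smul, hu z hz] }
    have hW₁ρ : ∀ x, ∀ u ∈ W₁, ρ x u ∈ W₁ := by
      intro x u hu z hz
      rw [← Module.End.mul_apply, hY z hz x, Module.End.mul_apply, hu z hz]
    have hW₁T : ∀ u ∈ W₁, T u ∈ W₁ := by
      intro u hu z hz
      have hz' : σ⁻¹ z ∈ Z := by rw [hσZ]; simpa using hz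
      have h1 := hTρ (σ⁻¹ z)
      rw [MulAut.apply_inv_self] at h1
      rw [← Module.End.mul_apply, ← h1, Module.End.mul_apply, hu _ hz']
    let ρ₁ : Q ⧸ Z →* Module.End K W₁ := QuotientGroup.lift Z (resRep ρ W₁ hW₁ρ) (by
      intro z hz
      ext u
      rw [resRep_apply]
      exact u.2 z hz)
    have hρ₁ : ∀ (x : Q) (u : W₁), ((ρ₁ (x : Q ⧸ Z) u : W₁) : W) = ρ x u := fun x u => rfl
    let T₁ : Module.End K W₁ := T.restrict hW₁T
    have hT₁ : ∀ u : W₁, ((T₁ u : W₁) : W) = T u := fun u => rfl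
    have hT₁pow : ∀ (k : ℕ) (u : W₁), (((T₁ ^ k) u : W₁) : W) = (T ^ k) u := by
      intro k
      induction k with
      | zero => intro u; simp
      | succ k ih' => intro u; rw [pow_succ, Module.End.mul_apply, ih', hT₁, pow_succ, Module.End.mul_apply]
    haveI : Nontrivial Z := (Subgroup.nontrivial_iff_ne_bot Z).mpr hZbot
    have hcardZ : 1 < Nat.card Z := Finite.one_lt_card
    have hmul := Subgroup.card_eq_card_quotient_mul_card_subgroup Z
    have hlt : Nat.card (Q ⧸ Z) < c := by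
      have h2 : 0 < Nat.card (Q ⧸ Z) := Nat.card_pos
      rw [← hc, hmul]
      nlinarith
    have hQK' : (Nat.card (Q ⧸ Z) : K) ≠ 0 := by
      intro h0
      apply hQK
      rw [hmul]; push_cast; rw [h0, zero_mul]
    have key := ih _ hlt (Q ⧸ Z) W₁ rfl inferInstance hQK' (quotAut σ Z hσZ) ρ₁ T₁
      (by
        ext1 x
        obtain ⟨x, rfl⟩ := QuotientGroup.mk_surjective x
        rw [quotAut_pow_mk, hσ]; rfl)
      (quotAut_fpf σ hfpf Z hσZ)
      (by
        ext u
        rw [hT₁pow, hT]; rfl)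
      (by
        intro x
        obtain ⟨x, rfl⟩ := QuotientGroup.mk_surjective x
        ext u
        rw [Module.End.mul_apply, Module.End.mul_apply, quotAut_mk, hT₁, hρ₁, hρ₁, hT₁,
          ← Module.End.mul_apply, hTρ, Module.End.mul_apply])
      (by
        intro u u' hu hu' hu0
        obtain ⟨l, hl⟩ := hfix u u' (by rw [← hT₁, hu]) (by rw [← hT₁, hu'])
          (fun h => hu0 (Subtype.ext h))
        exact ⟨l, Subtype.ext hl⟩)
      (a : Q ⧸ Z) (b : Q ⧸ Z)
    have h2 := congrArg Subtype.val (LinearMap.congr_fun key ⟨y, hZy⟩)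
    exact h2
  · -- a free orbit of weights: the weight space is a line
    have hπl : ∀ (l : ℕ) (χ : Q → K), π^[l] χ = fun x => χ ((σ⁻¹ ^ l) x) := by
      intro l
      induction l with
      | zero => intro χ; simp
      | succ l ih' =>
        intro χ
        rw [Function.iterate_succ_apply', ih']
        funext x
        simp only [π]
        rw [pow_succ, MulAut.mul_apply]
    have hper : IsPeriodicPt π r χ := by
      show π^[r] χ = χ
      rw [hπl, inv_pow, hσ]; simp
    have hmin : ∀ l, 0 < l → l < r → π^[l] χ ≠ χ := by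
      intro l hl hlr hcon
      have h1 : IsPeriodicPt π l χ := hcon
      have h2 := h1.gcd hper
      have h3 : Nat.gcd l r = 1 := by
        rw [Nat.gcd_comm]
        exact (Nat.Prime.coprime_iff_not_dvd hr).mpr (fun hd => by
          have := Nat.le_of_dvd hl hd
          omega)
      rw [h3] at h2
      exact hπχ h2
    have hTr : ∀ u : W, (T ^ r) u = u := by intro u; rw [hT]; rfl
    have hline : ∀ u ∈ wt ρ Z χ, ∃ l : K, u = l • y := by
      intro u hu
      obtain ⟨l, hl⟩ := hfix _ _ (orbit_sum_fixed T r y (hTr y)) (orbit_sum_fixed T r u (hTr u))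
        (orbit_sum_ne_zero (wt ρ Z) (wt_indep ρ Z hY) π T hπ χ r hr.pos hmin y hy hy0)
      refine ⟨l, ?_⟩
      by_contra hne
      have h1 : u - l • y ≠ 0 := fun h => hne (sub_eq_zero.mp h)
      have h2 : u - l • y ∈ wt ρ Z χ := Submodule.sub_mem _ hu (Submodule.smul_mem _ l hy)
      apply orbit_sum_ne_zero (wt ρ Z) (wt_indep ρ Z hY) π T hπ χ r hr.pos hmin _ h2 h1
      simp only [map_sub, map_smul, Finset.sum_sub_distrib, ← Finset.smul_sum]
      rw [hl, sub_self]
    have hsc : ∀ x : Q, ∃ l : K, ρ x y = l • y := fun x => hline _ (wt_invariant ρ Z hQK hY χ x y hy)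
    obtain ⟨la, hla⟩ := hsc a
    obtain ⟨lb, hlb⟩ := hsc b
    obtain ⟨m, hm⟩ := hsc (b * a)⁻¹
    have hab : ρ (a * b) y = ρ (b * a) y := by
      rw [map_mul, map_mul, Module.End.mul_apply, Module.End.mul_apply, hla, hlb, map_smul, map_smul, hla,
        hlb, smul_smul, smul_smul, mul_comm]
    have e : a * b * a⁻¹ * b⁻¹ = (a * b) * (b * a)⁻¹ := by group
    rw [e, map_mul, Module.End.mul_apply, hm, map_smul, hab, ← map_smul, ← hm, ← Module.End.mul_apply,
      ← map_mul, mul_inv_cancel, map_one, Module.End.one_apply]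

end Cfsg.Agent.Lib.Helper79.HW
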