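import Mathlib
import Cfsg.Agent.Lib.Helper79.HShultB

/-! # Shult–Gross: the Fitting chain -/

set_option autoImplicit false

namespace Cfsg.Agent.Lib.Helper79.HW

open Cfsg

universe u

theorem shult_chain (p : ℕ) (hp : p.Prime) (hp2 : p ≠ 2) :
    ∀ (n : ℕ) (G : Type u) [Group G] [Finite G], Group.IsSolvable G →
      ∀ σ : MulAut G, σ ^ (p ^ n) = 1 → (∀ g, σ g = g → g = 1) →
      ∃ F : Fin (n + 1) → Subgroup G, F 0 = ⊥ ∧ F (Fin.last n) = ⊤ ∧ Monotone F ∧ (∀ i, (F i).Normal) ∧
        ∀ i : Fin n, ∃ k : ℕ, (F i.succ).lowerCentralSeries k ≤ F i.castSucc := by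
  intro n
  induction n with
  | zero =>
    intro G _ _ hG σ hσ hfpf
    rw [pow_zero, pow_one] at hσ
    have h1 : ∀ g : G, g = 1 := fun g => hfpf g (by rw [hσ]; rfl)
    refine ⟨fun _ => ⊥, rfl, ?_, fun _ _ _ => le_refl _, fun _ => inferInstance, fun i => i.elim0⟩
    symm
    rw [eq_bot_iff]
    intro g _
    rw [Subgroup.mem_bot]; exact h1 g
  | succ n ih =>
    intro G _ _ hG σ hσ hfpf
    set Fit := fittingSubgroup G with hFit
    haveI hFn : Fit.Normal := Cfsg.Agent.Lib.Helper1.fitting_normal G
    have hFc : Fit.Characteristic := Cfsg.Agent.Lib.Helper28.fitting_characteristic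
    have hFσ : ∀ x, x ∈ Fit ↔ σ x ∈ Fit := fun x => (char_mem_iff hFc σ x).symm
    have hkey := shult_key p hp hp2 (n + 1) (Nat.succ_pos n) _ G rfl hG σ hσ hfpf
    rw [Nat.add_sub_cancel] at hkey
    obtain ⟨F', h0, hlast, hmono, hnorm, hstep⟩ := ih (G ⧸ Fit) inferInstance (quotAut σ Fit hFσ)
      (by
        ext1 y
        obtain ⟨y, rfl⟩ := QuotientGroup.mk_surjective y
        rw [quotAut_pow_mk, MulAut.one_apply]
        exact (QuotientGroup.eq.mpr (hkey y)).symm)
      (quotAut_fpf σ hfpf Fit hFσ)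
    refine ⟨Fin.cons ⊥ (fun i => (F' i).comap (QuotientGroup.mk' Fit)), rfl, ?_, ?_, ?_, ?_⟩
    · rw [← Fin.succ_last, Fin.cons_succ, hlast, Subgroup.comap_top]
    · intro i j hij
      induction i using Fin.cases with
      | zero => rw [Fin.cons_zero]; exact bot_le
      | succ i =>
        induction j using Fin.cases with
        | zero => exact absurd hij (by simp)
        | succ j =>
          rw [Fin.cons_succ, Fin.cons_succ]
          exact Subgroup.comap_mono (hmono (Fin.succ_le_succ_iff.mp hij))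
    · intro i
      induction i using Fin.cases with
      | zero => rw [Fin.cons_zero]; infer_instance
      | succ i => rw [Fin.cons_succ]; exact (hnorm i).comap _
    · intro i
      induction i using Fin.cases with
      | zero =>
        rw [Fin.cons_succ, h0, Fin.castSucc_zero, Fin.cons_zero]
        have h1 : (⊥ : Subgroup (G ⧸ Fit)).comap (QuotientGroup.mk' Fit) = Fit := by
          ext y
          rw [Subgroup.mem_comap, Subgroup.mem_bot, QuotientGroup.mk'_apply, QuotientGroup.eq_one_iff]
        rw [h1]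
        obtain ⟨k, hk⟩ := (Subgroup.isNilpotent_iff_lowerCentralSeries Fit).mp
          (Cfsg.Agent.Lib.Helper1.fitting_nilpotent G)
        exact ⟨k, hk.le⟩
      | succ i =>
        obtain ⟨k, hk⟩ := hstep i
        refine ⟨k, ?_⟩
        rw [Fin.cons_succ, ← Fin.succ_castSucc, Fin.cons_succ, ← Subgroup.map_le_iff_le_comap,
          Subgroup.map_lowerCentralSeries]
        exact (Subgroup.lowerCentralSeries_mono k (Subgroup.map_comap_le _ _)).trans hk

end Cfsg.Agent.Lib.Helper79.HW
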