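import Cfsg.Agent.Lib.Helper79.InvAboveHall
import Cfsg.Agent.S0865

set_option autoImplicit false

namespace Cfsg.Agent.Lib.Helper79

open Cfsg ComplexConjugate Cfsg.Agent.Lib.Helper19 Cfsg.Agent.Lib.Helper20 Cfsg.Agent.Lib.Helper82

theorem exists_coprime_split (m : ℕ) : ∀ (o : ℕ), 0 < o → ∃ a b, o = a * b ∧ Nat.Coprime b m ∧
    ∀ r, Nat.Coprime m r → Nat.Coprime a r := by
  intro o
  induction o using Nat.strong_induction_on with
  | _ o ih =>
    intro ho
    by_cases hc : Nat.Coprime o m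
    · exact ⟨1, o, by simp, hc, fun r _ => Nat.coprime_one_left r⟩
    · have hd1 : Nat.gcd o m ≠ 1 := hc
      have hdpos : 0 < Nat.gcd o m := Nat.gcd_pos_of_pos_left m ho
      obtain ⟨o', ho'⟩ := Nat.gcd_dvd_left o m
      have ho'pos : 0 < o' := by
        rcases Nat.eq_zero_or_pos o' with h | h
        · rw [h, mul_zero] at ho'; omega
        · exact h
      have hlt : o' < o := by
        have : 2 ≤ Nat.gcd o m := by omega
        calc o' < 2 * o' := by omega
          _ ≤ Nat.gcd o m * o' := Nat.mul_le_mul_right _ this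
          _ = o := ho'.symm
      obtain ⟨a, b, hab, hb, ha⟩ := ih o' hlt ho'pos
      refine ⟨Nat.gcd o m * a, b, by rw [mul_assoc, ← hab]; exact ho', hb, fun r hr => ?_⟩
      exact Nat.Coprime.mul_left (Nat.Coprime.coprime_dvd_left (Nat.gcd_dvd_right o m) hr) (ha r hr)

theorem index_ker_dvd_of_pow_eq_one {N : Type*} [Group N] [Finite N] (f : N →* ℂˣ) (a : ℕ)
    (h : f ^ a = 1) : f.ker.index ∣ a := by
  have : Finite f.range := Set.finite_range f
  rw [Subgroup.index_ker, ← IsCyclic.exponent_eq_card]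
  apply Monoid.exponent_dvd_of_forall_pow_eq_one
  rintro ⟨_, n, rfl⟩
  apply Subtype.ext
  have := DFunLike.congr_fun h n
  simpa using this

theorem exists_pow_split {A : Type*} [Group A] (x : A) (a b : ℕ) (h : orderOf x = a * b)
    (hab : Nat.Coprime a b) :
    ∃ k l : ℕ, x ^ k * x ^ l = x ∧ (x ^ k) ^ a = 1 ∧ (x ^ l) ^ b = 1 := by
  obtain ⟨k, hk1, hk2⟩ := Nat.chineseRemainder hab 1 0
  obtain ⟨l, hl1, hl2⟩ := Nat.chineseRemainder hab 0 1
  refine ⟨k, l, ?_, ?_, ?_⟩
  · rw [← pow_add]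
    conv_rhs => rw [← pow_one x]
    rw [pow_eq_pow_iff_modEq, h, ← Nat.modEq_and_modEq_iff_modEq_mul hab]
    exact ⟨by simpa using hk1.add hl1, by simpa using hk2.add hl2⟩
  · rw [← pow_mul, ← orderOf_dvd_iff_pow_eq_one, h, mul_comm k a]
    exact Nat.mul_dvd_mul_left a ((Nat.modEq_zero_iff_dvd).1 hk2)
  · rw [← pow_mul, ← orderOf_dvd_iff_pow_eq_one, h]
    exact Nat.mul_dvd_mul_right ((Nat.modEq_zero_iff_dvd).1 hl1) b

section amb

variable {Γ : Type*} [Group Γ]

/-- **The linear case of Isaacs 13.31 with `Γ/G` solvable.** -/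
theorem exists_inv_over_linear [Finite Γ] (G N : Subgroup Γ) [hG : G.Normal] [hN : N.Normal]
    (hNG : N ≤ G) (hcop : (G.index).Coprime (N.relIndex G)) (hsolv : Group.IsSolvable (Γ ⧸ G))
    [Fintype N] (lam : N →* ℂˣ)
    (hinv : ∀ (x : Γ) (n : N), lam ⟨x * n * x⁻¹, hN.conj_mem n n.2 x⟩ = lam n) :
    ∃ β : G → ℂ, IsIrrCharacter G β ∧ classInner (resTo hNG β) (homFun lam) ≠ 0 ∧
      ConjInv ⊤ G β := by
  classical
  have hfin : lam ^ (Nat.card N) = 1 := by
    ext n
    simp [← map_pow]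
  have ho : 0 < orderOf lam :=
    orderOf_pos_iff.2 (isOfFinOrder_iff_pow_eq_one.2 ⟨Nat.card N, Nat.card_pos, hfin⟩)
  obtain ⟨a, b, hab, hb, ha⟩ := exists_coprime_split (N.relIndex G) (orderOf lam) ho
  have hab' : Nat.Coprime a b := ha b hb.symm
  have haG : Nat.Coprime a G.index := ha _ hcop.symm
  obtain ⟨kA, kB, hmul, hAa, hBb⟩ := exists_pow_split lam a b hab hab'
  set lamB : N →* ℂˣ := lam ^ kB with hlamB
  set lamA : N →* ℂˣ := lam ^ kA with hlamA
  have hinvZ : ∀ (k : ℕ) (x : Γ) (n : N),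
      (lam ^ k) ⟨x * n * x⁻¹, hN.conj_mem n n.2 x⟩ = (lam ^ k) n := by
    intro k x n
    rw [MonoidHom.pow_apply, MonoidHom.pow_apply, hinv]
  -- the canonical extension of `lamB`
  let N' : Subgroup G := N.subgroupOf G
  let e : N' ≃* N := Subgroup.subgroupOfEquivOfLe hNG
  let f : N' →* ℂˣ := lamB.comp e.toMonoidHom
  have hfb : f ^ b = 1 := by
    apply MonoidHom.ext
    intro n
    have := DFunLike.congr_fun hBb (e n)
    rw [MonoidHom.pow_apply] at this ⊢
    exact this
  have hcopf : Nat.Coprime N'.index (orderOf f) :=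
    (hb.coprime_dvd_left (orderOf_dvd_of_pow_eq_one hfb)).symm
  obtain ⟨μ, ⟨hμN, hμo⟩, huniq⟩ := Cfsg.Agent.S0865.hom_version N' f
    (fun g n => hinvZ kB (g : Γ) (e n)) hcopf
  have hμinv : ∀ x : Γ, μ.comp (MulAut.conjNormal x : MulAut G).toMonoidHom = μ := by
    intro x
    apply huniq
    · intro n
      have hmem : (MulAut.conjNormal x : MulAut G) (n : G) ∈ N' :=
        hN.conj_mem (n : G) n.2 x
      have h1 := hμN ⟨_, hmem⟩
      show μ ((MulAut.conjNormal x : MulAut G) (n : G)) = f n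
      rw [h1]
      exact hinvZ kB x (e n)
    · rw [← hμo] at hcopf
      refine hcopf.coprime_dvd_right (orderOf_dvd_of_pow_eq_one ?_)
      apply MonoidHom.ext
      intro g
      have := DFunLike.congr_fun (pow_orderOf_eq_one μ) ((MulAut.conjNormal x : MulAut G) g)
      rw [MonoidHom.pow_apply] at this ⊢
      exact this
  -- the part of order prime to `|Γ : G|`
  let K : Subgroup Γ := lamA.ker.map N.subtype
  have hKn : K.Normal := by
    constructor
    rintro _ ⟨n, hn, rfl⟩ x
    refine ⟨⟨x * n * x⁻¹, hN.conj_mem n n.2 x⟩, ?_, rfl⟩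
    show lamA _ = 1
    rw [hlamA, hinvZ]
    exact hn
  have hKN : K ≤ N := Subgroup.map_subtype_le _
  have hKidx : K.relIndex N = lamA.ker.index := by
    show (K.subgroupOf N).index = _
    congr 1
    exact Subgroup.comap_map_eq_self_of_injective (Subgroup.subtype_injective N) _
  have hcopK : Nat.Coprime (K.relIndex G) G.index := by
    rw [← Subgroup.relIndex_mul_relIndex K N G hKN hNG]
    refine Nat.Coprime.mul_left ?_ hcop.symm
    rw [hKidx]
    exact haG.coprime_dvd_left (index_ker_dvd_of_pow_eq_one lamA a hAa)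
  obtain ⟨β', hβ', hover', hinv'⟩ := exists_inv_over_of_hall_mod G N K hKN hNG hcopK hsolv
    (homFun lamA) (isChar_linear_isIrr (isCharacter_homFun lamA).1 (isCharacter_homFun lamA).2)
    (by
      intro s _ n n' hn
      have : n' = ⟨s * n * s⁻¹, hN.conj_mem n n.2 s⟩ := Subtype.ext hn
      rw [this, homFun_apply, homFun_apply, hlamA, hinvZ])
    (by
      intro n hn
      obtain ⟨n', hn', hnn⟩ := hn
      have : n' = n := Subtype.ext hnn
      rw [this] at hn'
      rw [homFun_apply, homFun_apply, map_one, MonoidHom.mem_ker.1 hn'])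
  refine ⟨homFun μ * β', isIrr_linear_mul (isCharacter_homFun μ).1 (isCharacter_homFun μ).2 hβ',
    ?_, ?_⟩
  · have : classInner (resTo hNG (homFun μ * β')) (homFun lam) =
        classInner (resTo hNG β') (homFun lamA) := by
      unfold classInner
      congr 1
      apply Finset.sum_congr rfl
      intro n _
      have h1 : μ ⟨n, hNG n.2⟩ = lamB n := hμN ⟨⟨n, hNG n.2⟩, n.2⟩
      have h2 := isChar_linear_mul_conj (isCharacter_homFun lamB).1 (isCharacter_homFun lamB).2 n
      have h3 : homFun lam n = homFun lamA n * homFun lamB n := by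
        conv_lhs => rw [← hmul]
        simp
      show homFun μ ⟨n, hNG n.2⟩ * β' ⟨n, hNG n.2⟩ * conj (homFun lam n) =
        β' ⟨n, hNG n.2⟩ * conj (homFun lamA n)
      rw [h3, map_mul, homFun_apply μ, h1]
      rw [homFun_apply lamB] at h2 ⊢
      linear_combination (β' ⟨n, hNG n.2⟩ * conj (homFun lamA n)) * h2
    rw [this]
    exact hover'
  · intro s hs g g' hg
    have h1 : g' = (MulAut.conjNormal s : MulAut G) g := Subtype.ext hg
    have h2 : μ g' = μ g := by
      rw [h1]
      exact DFunLike.congr_fun (hμinv s) g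
    show homFun μ g' * β' g' = homFun μ g * β' g
    rw [homFun_apply, homFun_apply, h2, hinv' s hs g g' hg]

end amb

end Cfsg.Agent.Lib.Helper79
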