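import Mathlib

/-! # Abelian groups acting faithfully and irreducibly over a finite field: self-duality -/

set_option autoImplicit false

namespace Cfsg.Agent.Lib.Helper79.SDA

universe u v w

theorem fieldA {F : Type u} [Field F] [Fintype F] {L : Type v} [CommRing L] [IsDomain L] [Finite L]
    [Algebra F L] (S : Set L) (hS : Algebra.adjoin F S = ⊤) (φ : L →ₐ[F] L)
    (hφ : ∀ s ∈ S, φ s * s = 1) :
    (Module.finrank F L = 1 ∧ ∀ s ∈ S, s * s = 1) ∨
    (Even (Module.finrank F L) ∧
      ∀ s ∈ S, s ^ (Fintype.card F ^ (Module.finrank F L / 2) + 1) = 1) := by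
  classical
  have : Fintype L := Fintype.ofFinite L
  let _ : Field L := Fintype.fieldOfDomain L
  obtain ⟨⟨k, hk⟩, hkφ⟩ := (FiniteField.bijective_frobeniusAlgHom_pow F L).2 φ
  simp only at hkφ
  have hφx : ∀ x, φ x = x ^ (Fintype.card F ^ k) := by
    intro x
    rw [← hkφ, AlgHom.coe_pow, FiniteField.coe_frobeniusAlgHom, pow_iterate]
  have hφφ : φ.comp φ = AlgHom.id F L := by
    apply AlgHom.ext_of_adjoin_eq_top hS
    intro s hs
    simp only [AlgHom.comp_apply, AlgHom.id_apply]
    have h1 : φ (φ s) * φ s = 1 := by rw [← map_mul, hφ s hs, map_one]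
    calc φ (φ s) = φ (φ s) * (φ s * s) := by rw [hφ s hs, mul_one]
      _ = s := by rw [← mul_assoc, h1, one_mul]
  have h2k : FiniteField.frobeniusAlgHom F L ^ (2 * k) = 1 := by
    rw [two_mul, pow_add, hkφ]
    exact hφφ
  have hdvd : Module.finrank F L ∣ 2 * k := by
    rw [← FiniteField.orderOf_frobeniusAlgHom F L]
    exact orderOf_dvd_of_pow_eq_one h2k
  obtain ⟨c, hc⟩ := hdvd
  have hc2 : c = 0 ∨ c = 1 := by
    rcases c with _ | _ | c
    · left; rfl
    · right; rfl
    · exfalso
      have : Module.finrank F L * (c + 1 + 1) ≥ Module.finrank F L * 2 := Nat.mul_le_mul_left _ (by omega)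
      omega
  rcases hc2 with rfl | rfl
  · left
    have hk0 : k = 0 := by omega
    subst hk0
    have hss : ∀ s ∈ S, s * s = 1 := by
      intro s hs
      have := hφ s hs
      rwa [hφx, pow_zero, pow_one] at this
    refine ⟨?_, hss⟩
    have hbot : (⊥ : Subalgebra F L) = ⊤ := by
      rw [← hS]
      symm
      rw [eq_bot_iff]
      apply Algebra.adjoin_le
      intro s hs
      rcases mul_self_eq_one_iff.mp (hss s hs) with h | h
      · rw [h]; exact one_mem _
      · rw [h]; exact neg_mem (one_mem _)
    exact Subalgebra.bot_eq_top_iff_finrank_eq_one.mp hbot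
  · right
    rw [mul_one] at hc
    refine ⟨⟨k, by omega⟩, ?_⟩
    intro s hs
    have hk2 : Module.finrank F L / 2 = k := by omega
    rw [hk2, pow_succ, ← hφx]
    exact hφ s hs

theorem fieldB {F : Type u} [Field F] [Fintype F] {L : Type v} [CommRing L] [IsDomain L] [Finite L]
    [Algebra F L] (m : ℕ) :
    ∃ B : LinearMap.BilinForm F L, B.Nondegenerate ∧
      ∀ c x y : L, c ^ (Fintype.card F ^ m + 1) = 1 → B (c * x) (c * y) = B x y := by
  classical
  have : Fintype L := Fintype.ofFinite L
  let _ : Field L := Fintype.fieldOfDomain L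
  let fr : L →ₐ[F] L := FiniteField.frobeniusAlgHom F L ^ m
  have hfr : ∀ x, fr x = x ^ (Fintype.card F ^ m) := by
    intro x
    simp only [fr]
    rw [AlgHom.coe_pow, FiniteField.coe_frobeniusAlgHom, pow_iterate]
  have hfrb : Function.Bijective fr := by
    have hinj : Function.Injective fr := fr.toRingHom.injective
    exact ⟨hinj, Finite.surjective_of_injective hinj⟩
  have hnd := traceForm_nondegenerate F L
  refine ⟨(Algebra.traceForm F L).compRight fr.toLinearMap, ⟨?_, ?_⟩, ?_⟩
  · intro x hx
    apply hnd.1 x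
    intro y
    obtain ⟨y', rfl⟩ := hfrb.2 y
    exact hx y'
  · intro y hy
    have : fr y = 0 := hnd.2 (fr y) (fun x => hy x)
    exact hfrb.1 (by rw [this, map_zero])
  · intro c x y hc
    simp only [LinearMap.BilinForm.compRight_apply, AlgHom.toLinearMap_apply, Algebra.traceForm_apply]
    congr 1
    rw [map_mul, hfr c]
    have : c * c ^ (Fintype.card F ^ m) = 1 := by rw [← pow_succ', hc]
    calc c * x * (c ^ (Fintype.card F ^ m) * fr y) = (c * c ^ (Fintype.card F ^ m)) * (x * fr y) := by ring
      _ = x * fr y := by rw [this, one_mul]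

theorem fieldC {F : Type u} [Field F] {L : Type v} [CommRing L] [Algebra F L]
    (S : Set L) (hS : Algebra.adjoin F S = ⊤) (B : LinearMap.BilinForm F L) (hB : B.Nondegenerate)
    (hinv : ∀ s ∈ S, ∃ s', s' * s = 1 ∧ ∀ a b, B (s * a) b = B a (s' * b)) :
    ∃ φ : L →ₐ[F] L, ∀ s ∈ S, φ s * s = 1 := by
  classical
  have hex : ∀ c : L, ∃ c', ∀ a b, B (c * a) b = B a (c' * b) := by
    intro c
    have hc : c ∈ Algebra.adjoin F S := by rw [hS]; trivial
    induction hc using Algebra.adjoin_induction with
    | mem s hs =>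
      obtain ⟨s', -, h⟩ := hinv s hs
      exact ⟨s', h⟩
    | algebraMap r =>
      refine ⟨algebraMap F L r, fun a b => ?_⟩
      rw [← Algebra.smul_def, ← Algebra.smul_def, map_smul, map_smul, LinearMap.smul_apply]
    | add x y _ _ hx hy =>
      obtain ⟨x', hx'⟩ := hx
      obtain ⟨y', hy'⟩ := hy
      refine ⟨x' + y', fun a b => ?_⟩
      rw [add_mul, add_mul, map_add, map_add, LinearMap.add_apply, hx', hy']
    | mul x y _ _ hx hy =>
      obtain ⟨x', hx'⟩ := hx
      obtain ⟨y', hy'⟩ := hy
      refine ⟨y' * x', fun a b => ?_⟩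
      rw [mul_assoc, hx', hy', mul_assoc]
  choose φ₀ hφ₀ using hex
  have huniq : ∀ c c', (∀ a b, B (c * a) b = B a (c' * b)) → φ₀ c = c' := by
    intro c c' h
    have h1 : φ₀ c * 1 - c' * 1 = 0 := by
      apply hB.2
      intro a
      rw [map_sub, ← hφ₀, ← h, sub_self]
    simpa [sub_eq_zero] using h1
  refine ⟨{ toFun := φ₀
            map_one' := huniq 1 1 (fun a b => by rw [one_mul, one_mul])
            map_mul' := fun x y => huniq _ _ (fun a b => by
              rw [mul_assoc, hφ₀, hφ₀, ← mul_assoc, mul_comm (φ₀ y)])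
            map_zero' := huniq 0 0 (fun a b => by simp)
            map_add' := fun x y => huniq _ _ (fun a b => by
              rw [add_mul, add_mul, map_add, map_add, LinearMap.add_apply, hφ₀, hφ₀])
            commutes' := fun r => huniq _ _ (fun a b => by
              rw [← Algebra.smul_def, ← Algebra.smul_def, map_smul, map_smul,
                LinearMap.smul_apply]) }, ?_⟩
  intro s hs
  obtain ⟨s', h1, h2⟩ := hinv s hs
  change φ₀ s * s = 1
  rw [huniq s s' h2, h1]


theorem exists_field_model {F : Type u} [Field F] [Finite F] {H : Type w} [CommGroup H]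
    {V : Type v} [AddCommGroup V] [Module F V] [FiniteDimensional F V] [Nontrivial V]
    (ρ : Representation F H V) (hfaith : Function.Injective ρ)
    (hirr : ∀ U : Submodule F V, (∀ h : H, ∀ x ∈ U, ρ h x ∈ U) → U = ⊥ ∨ U = ⊤) :
    ∃ (L : Type v) (_ : CommRing L) (_ : IsDomain L) (_ : Finite L) (_ : Algebra F L)
      (c : H →* L) (e : L ≃ₗ[F] V), Function.Injective c ∧ Algebra.adjoin F (Set.range c) = ⊤ ∧
        ∀ h a, e (c h * a) = ρ h (e a) := by
  classical
  have hcomm : ∀ a ∈ Set.range ρ, ∀ b ∈ Set.range ρ, a * b = b * a := by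
    rintro _ ⟨h, rfl⟩ _ ⟨h', rfl⟩
    rw [← map_mul, ← map_mul, mul_comm]
  let A : Subalgebra F (Module.End F V) := Algebra.adjoin F (Set.range ρ)
  let _ : CommRing A := Algebra.adjoinCommRingOfComm F hcomm
  let c : H →* A :=
    { toFun := fun h => ⟨ρ h, Algebra.subset_adjoin ⟨h, rfl⟩⟩
      map_one' := Subtype.ext (map_one ρ)
      map_mul' := fun x y => Subtype.ext (map_mul ρ x y) }
  have hcom : ∀ (a : A) (h : H), (a : Module.End F V) * ρ h = ρ h * (a : Module.End F V) := by
    intro a h
    have := congrArg Subtype.val (mul_comm a (c h))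
    exact this
  have hinj : ∀ a : A, a ≠ 0 → Function.Injective (a : Module.End F V) := by
    intro a ha
    rcases hirr (LinearMap.ker (a : Module.End F V)) (by
      intro h x hx
      rw [LinearMap.mem_ker] at hx ⊢
      have := LinearMap.congr_fun (hcom a h) x
      simp only [Module.End.mul_apply] at this
      rw [this, hx, map_zero]) with h | h
    · exact LinearMap.ker_eq_bot.mp h
    · exfalso
      apply ha
      apply Subtype.ext
      exact LinearMap.ker_eq_top.mp h
  have hfinV : Finite V := Module.finite_of_finite F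
  have hfinE : Finite (Module.End F V) := Module.finite_of_finite F
  have hfinA : Finite A := Finite.of_injective _ Subtype.val_injective
  have hnt : Nontrivial A := inferInstance
  have hnzd : NoZeroDivisors A := by
    constructor
    intro a b hab
    by_contra hcon
    push Not at hcon
    apply hcon.2
    apply Subtype.ext
    ext x
    apply hinj a hcon.1
    have := LinearMap.congr_fun (congrArg Subtype.val hab) x
    simpa using this
  have hdom : IsDomain A := NoZeroDivisors.to_isDomain A
  obtain ⟨v₀, hv₀⟩ := exists_ne (0 : V)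
  let l : A →ₗ[F] V :=
    { toFun := fun a => (a : Module.End F V) v₀
      map_add' := fun a b => rfl
      map_smul' := fun r a => rfl }
  have hl_inj : Function.Injective l := by
    rw [← LinearMap.ker_eq_bot, LinearMap.ker_eq_bot']
    intro a ha
    by_contra hne
    apply hv₀
    apply hinj a hne
    rw [map_zero]; exact ha
  have hl_surj : Function.Surjective l := by
    rw [← LinearMap.range_eq_top]
    rcases hirr (LinearMap.range l) (by
      rintro h _ ⟨a, rfl⟩
      exact ⟨c h * a, rfl⟩) with h | h
    · exfalso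
      apply hv₀
      have : l 1 ∈ LinearMap.range l := ⟨1, rfl⟩
      rw [h, Submodule.mem_bot] at this
      exact this
    · exact h
  refine ⟨A, inferInstance, hdom, hfinA, inferInstance, c, LinearEquiv.ofBijective l ⟨hl_inj, hl_surj⟩,
    ?_, ?_, ?_⟩
  · intro x y hxy
    exact hfaith (congrArg Subtype.val hxy)
  · have h1 := Algebra.adjoin_adjoin_coe_preimage (R := F) (s := Set.range ρ)
    have h2 : Set.range c = ((↑) ⁻¹' (Set.range ρ) : Set A) := by
      ext a
      constructor
      · rintro ⟨h, rfl⟩
        exact ⟨h, rfl⟩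
      · rintro ⟨h, hh⟩
        exact ⟨h, Subtype.ext hh⟩
    rw [h2]
    exact h1
  · intro h a
    rfl

theorem main {F : Type u} [Field F] [Fintype F] {H : Type w} [CommGroup H] [Finite H]
    {V : Type v} [AddCommGroup V] [Module F V] [FiniteDimensional F V]
    (ρ : Representation F H V) (hfaith : Function.Injective ρ)
    (hirr : ∀ U : Submodule F V, (∀ h : H, ∀ x ∈ U, ρ h x ∈ U) → U = ⊥ ∨ U = ⊤) :
    (Module.finrank F V = 1 → (∃ B : LinearMap.BilinForm F V, B.Nondegenerate ∧
      ∀ h : H, ∀ x y : V, B (ρ h x) (ρ h y) = B x y) → Nat.card H ≤ 2) ∧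
    (2 ≤ Module.finrank F V → ((∃ B : LinearMap.BilinForm F V, B.Nondegenerate ∧
      ∀ h : H, ∀ x y : V, B (ρ h x) (ρ h y) = B x y) ↔
      (Even (Module.finrank F V) ∧
        Nat.card H ∣ Fintype.card F ^ (Module.finrank F V / 2) + 1))) := by
  classical
  by_cases hV : Nontrivial V
  swap
  · rw [not_nontrivial_iff_subsingleton] at hV
    have h0 : Module.finrank F V = 0 := Module.finrank_zero_of_subsingleton
    rw [h0]
    exact ⟨fun h => absurd h (by norm_num), fun h => absurd h (by norm_num)⟩
  obtain ⟨L, _, _, _, _, c, e, hc, hadj, hce⟩ := exists_field_model ρ hfaith hirr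
  have hrank : Module.finrank F L = Module.finrank F V := e.finrank_eq
  have hfwd : (∃ B : LinearMap.BilinForm F V, B.Nondegenerate ∧
      ∀ h : H, ∀ x y : V, B (ρ h x) (ρ h y) = B x y) →
      (Module.finrank F L = 1 ∧ ∀ s ∈ Set.range c, s * s = 1) ∨
      (Even (Module.finrank F L) ∧
        ∀ s ∈ Set.range c, s ^ (Fintype.card F ^ (Module.finrank F L / 2) + 1) = 1) := by
    rintro ⟨B, hB, hinv⟩
    obtain ⟨φ, hφ⟩ := fieldC (Set.range c) hadj (LinearMap.BilinForm.congr e.symm B)
      (hB.congr e.symm) (by
        rintro _ ⟨h, rfl⟩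
        refine ⟨c h⁻¹, by rw [← map_mul, inv_mul_cancel, map_one], fun a b => ?_⟩
        simp only [LinearMap.BilinForm.congr_apply, LinearEquiv.symm_symm]
        rw [hce, hce, ← hinv h (e a) (ρ h⁻¹ (e b))]
        congr 1
        rw [← Module.End.mul_apply, ← map_mul, mul_inv_cancel, map_one, Module.End.one_apply])
    exact fieldA (Set.range c) hadj φ hφ
  constructor
  · intro h1 hex
    rcases hfwd hex with ⟨-, h⟩ | ⟨h, -⟩
    · have hpm : ∀ x : H, c x = 1 ∨ c x = -1 := fun x => mul_self_eq_one_iff.mp (h _ ⟨x, rfl⟩)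
      have hsub : Set.range c ⊆ (({1, -1} : Finset L) : Set L) := by
        rintro _ ⟨x, rfl⟩
        rcases hpm x with h | h <;> simp [h]
      have h2 : Nat.card H = Nat.card (Set.range c) := Nat.card_congr (Equiv.ofInjective c hc)
      rw [h2]
      calc Nat.card (Set.range c) ≤ Nat.card ((({1, -1} : Finset L) : Set L)) :=
            Nat.card_mono (Finset.finite_toSet _) hsub
        _ = ({1, -1} : Finset L).card := by simp
        _ ≤ 2 := Finset.card_le_two
    · rw [hrank, h1] at h
      exact absurd h (by decide)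
  · intro h2
    constructor
    · intro hex
      rcases hfwd hex with ⟨h, -⟩ | ⟨h, h'⟩
      · omega
      · rw [hrank] at h h'
        refine ⟨h, ?_⟩
        haveI : IsCyclic H := isCyclic_of_subgroup_isDomain c hc
        rw [← IsCyclic.exponent_eq_card]
        apply Monoid.exponent_dvd_of_forall_pow_eq_one
        intro x
        apply hc
        rw [map_pow, map_one]
        exact h' _ ⟨x, rfl⟩
    · rintro ⟨-, hdvd⟩
      obtain ⟨B, hB, hinv⟩ := fieldB (F := F) (L := L) (Module.finrank F V / 2)
      refine ⟨LinearMap.BilinForm.congr e B, hB.congr e, fun h x y => ?_⟩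
      simp only [LinearMap.BilinForm.congr_apply]
      have h1 : ∀ z, e.symm (ρ h z) = c h * e.symm z := by
        intro z
        apply e.injective
        rw [hce, e.apply_symm_apply, e.apply_symm_apply]
      rw [h1, h1]
      apply hinv
      rw [← map_pow]
      obtain ⟨k, hk⟩ := hdvd
      rw [hk, pow_mul, pow_card_eq_one', one_pow, map_one]

end Cfsg.Agent.Lib.Helper79.SDA
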